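import Cfsg.Agent.H5.JF
import Cfsg.Agent.H4.Extra2

/-! Extraspecial subgroups of order 512 normal in an involution centraliser: basic calculus. -/

set_option autoImplicit false
set_option linter.unusedSectionVars false

namespace CfH5.Nat

open Subgroup CfH9 CfH4

variable {G : Type*} [Group G] [Finite G] {Q A K L : Subgroup G} {z y a b c s t u w g : G}

theorem idx2 (h : K ≤ L) (e : ∀ a ∈ L, ∀ b ∈ L, a ∈ K ∨ b ∈ K ∨ a * b ∈ K) : Nat.card L ≤ 2 * Nat.card K := by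
  by_cases k : L ≤ K
  · have := card_le_of_le k; omega
  obtain ⟨b, hb, nb⟩ := SetLike.not_le_iff_exists.1 k
  have : K.relIndex L = 2 := index_eq_two_iff.2 ⟨⟨b, hb⟩, fun a => by
    by_cases ha : a.1 ∈ K
    · exact Or.inr ⟨ha, fun c => nb ((mul_mem_cancel_left ha).1 c)⟩
    · exact Or.inl ⟨((e _ a.2 _ hb).resolve_left ha).resolve_left nb, ha⟩⟩
  rw [← card_mul_relIndex h, this, mul_comm]

theorem dbl (h : K ≤ L) (hb : b ∈ L) (nb : b ∉ K) : 2 * Nat.card K ≤ Nat.card L := by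
  obtain ⟨n, e⟩ := card_dvd_of_le h
  have := card_lt_of_lt (lt_of_le_of_ne h fun e => nb (e ▸ hb))
  have p := Nat.card_pos (α := K)
  rw [e] at this ⊢
  rw [mul_comm]
  exact Nat.mul_le_mul_left _ (by by_contra c; interval_cases n <;> omega)

theorem orb (L : Subgroup G) (b : G) :
    Nat.card L = {x | ∃ g ∈ L, g * b * g⁻¹ = x}.ncard * Nat.card (L ⊓ Cx(b) : Subgroup G) := by
  rw [ncard_cls, mul_comm, ← inf_relIndex_left, card_mul_relIndex inf_le_left]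

theorem orb_le {S : Set G} (e : ∀ g ∈ L, g * b * g⁻¹ ∈ S) :
    Nat.card L ≤ S.ncard * Nat.card (L ⊓ Cx(b) : Subgroup G) :=
  (orb L b).le.trans (Nat.mul_le_mul_right _ (Set.ncard_le_ncard (by rintro _ ⟨g, k, rfl⟩; exact e g k)))

theorem cjm (g a b : G) : g * (a * b) * g⁻¹ = g * a * g⁻¹ * (g * b * g⁻¹) := by group

theorem cj_comm (g : G) : g * a * g⁻¹ * (g * b * g⁻¹) = g * b * g⁻¹ * (g * a * g⁻¹) ↔ a * b = b * a := by
  rw [← cjm, ← cjm, mul_left_inj, mul_right_inj]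

structure LX (z : G) (Q : Subgroup G) : Prop where
  zQ : z ∈ Q
  z1 : z ≠ 1
  zc : ∀ a ∈ Q, a * z = z * a
  cm : ∀ a ∈ Q, ∀ b ∈ Q, a * b = b * a ∨ a * b = z * (b * a)
  cQ : Nat.card Q = 512
  nm : ∀ g, g * z = z * g → ∀ a ∈ Q, g * a * g⁻¹ ∈ Q
  ct : ∀ g, (∀ a ∈ Q, g * a = a * g) → g = 1 ∨ g = z

namespace LX
variable (h : LX z Q)
include h

theorem z2 : z * z = 1 :=
  (h.ct _ fun a ha => by rw [mul_assoc, ← h.zc a ha, ← mul_assoc, ← h.zc a ha, mul_assoc]).resolve_right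
    fun e => h.z1 (mul_eq_left.1 e)

theorem zi : z⁻¹ = z := inv_eq_of_mul_eq_one_right h.z2
theorem zz (x : G) : z * (z * x) = x := by rw [← mul_assoc, h.z2, one_mul]
theorem zne (x : G) : z * x ≠ x := fun e => h.z1 (mul_eq_right.1 e)

theorem es : ES2 (⟨z, h.zQ⟩ : Q) where
  ne := fun e => h.z1 (congrArg Subtype.val e)
  cent := fun x => Subtype.ext (h.zc _ x.2).symm
  sq := Subtype.ext h.z2
  comm := fun x y => (h.cm _ x.2 _ y.2).imp Subtype.ext Subtype.ext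
  center := fun x e => (h.ct x fun a ha => congrArg Subtype.val (e ⟨a, ha⟩)).imp Subtype.ext Subtype.ext

theorem anti (ha : a ∈ Q) (hb : b ∈ Q) (n : a * b ≠ b * a) : a * b = z * (b * a) := (h.cm a ha b hb).resolve_left n

theorem aa (ha : a ∈ Q) (hb : b ∈ Q) (hs : s ∈ Q) (n : a * s ≠ s * a) (m : b * s ≠ s * b) :
    a * b * s = s * (a * b) := congrArg Subtype.val (h.es.comm_mul_of_anti (a := ⟨s, hs⟩) (x := ⟨a, ha⟩) (y := ⟨b, hb⟩)
  (fun e => n (congrArg Subtype.val e)) fun e => m (congrArg Subtype.val e))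

theorem sq (ha : a ∈ Q) : a * a = 1 ∨ a * a = z :=
  (h.es.sq_eq ⟨a, ha⟩).imp (congrArg Subtype.val) (congrArg Subtype.val)

theorem cc (hA : A ≤ Q) (hz : z ∈ A) : Nat.card (Q ⊓ Cz(A) : Subgroup G) * Nat.card A = 1024 := by
  have := h.es.card_centralizer_mul (A.subgroupOf Q)
  rw [inf_eq_right.2 fun x hx => (h.es.mem_center_iff.1 hx).elim (fun e => e ▸ one_mem _) fun e => e ▸ hz,
    h.es.card_center, h.cQ, card_subgroupOf hA, ← subgroupOf_Cz hA, ← inf_subgroupOf_left,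
    card_subgroupOf inf_le_left] at this
  exact this

theorem half (hA : A ≤ Q) (hs : s ∈ Q) : Nat.card A ≤ 2 * Nat.card (A ⊓ Cx(s) : Subgroup G) :=
  idx2 inf_le_left fun a ha b hb => by
    by_cases n : a * s = s * a
    · exact Or.inl ⟨ha, mem_Cx.2 n⟩
    by_cases m : b * s = s * b
    · exact Or.inr (Or.inl ⟨hb, mem_Cx.2 m⟩)
    exact Or.inr (Or.inr ⟨mul_mem ha hb, mem_Cx.2 (h.aa (hA ha) (hA hb) hs n m)⟩)

theorem half' (hA : A ≤ Q) (hs : s ∈ Q) (ha : a ∈ A) (n : a * s ≠ s * a) :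
    Nat.card A = 2 * Nat.card (A ⊓ Cx(s) : Subgroup G) :=
  (h.half hA hs).antisymm (dbl inf_le_left ha fun e => n (mem_Cx.1 e.2))

theorem nab (hA : A ≤ Q) (hz : z ∈ A) (hc : 32 < Nat.card A) : ∃ a ∈ A, ∃ b ∈ A, a * b ≠ b * a := by
  by_contra! k
  have := card_le_of_le (H := A) (K := Q ⊓ Cz(A)) fun a ha => ⟨hA ha, fun b hb => k b hb a ha⟩
  have := h.cc hA hz
  nlinarith

theorem selfc (hA : A ≤ Q) (hz : z ∈ A) (hc : 32 ≤ Nat.card A) (k : ∀ a ∈ A, ∀ b ∈ A, a * b = b * a) (hs : s ∈ Q)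
    (e : ∀ a ∈ A, a * s = s * a) : s ∈ A := by
  have l : A ≤ Q ⊓ Cz(A) := fun a ha => ⟨hA ha, fun b hb => k b hb a ha⟩
  rw [eq_of_le_of_card_ge l (by have := h.cc hA hz; have := card_le_of_le l; nlinarith)]
  exact ⟨hs, e⟩

/-- elements of `Q` fixed modulo `z` -/
def Fx (c : G) (hc : c * z = z * c) : Subgroup G where
  carrier := {s | s ∈ Q ∧ (c * s * c⁻¹ = s ∨ c * s * c⁻¹ = z * s)}
  one_mem' := ⟨one_mem _, Or.inl (by simp)⟩
  mul_mem' := by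
    rintro a b ⟨ha, e⟩ ⟨hb, f⟩
    refine ⟨mul_mem ha hb, ?_⟩
    rw [cjm]
    rcases e with e | e <;> rcases f with f | f <;> rw [e, f]
    · exact Or.inl rfl
    · right; rw [← mul_assoc, h.zc a ha, mul_assoc]
    · right; rw [mul_assoc]
    · left; rw [mul_assoc, ← mul_assoc a, h.zc a ha, mul_assoc, h.zz]
  inv_mem' := by
    rintro a ⟨ha, e⟩
    refine ⟨inv_mem ha, ?_⟩
    rw [show c * a⁻¹ * c⁻¹ = (c * a * c⁻¹)⁻¹ by group]
    refine e.imp (fun e => by rw [e]) fun e => ?_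
    rw [e, mul_inv_rev, h.zi, h.zc _ (inv_mem ha)]

theorem Fx_le (hc : c * z = z * c) : Nat.card (h.Fx c hc) ≤ 2 * Nat.card (Q ⊓ Cx(c) : Subgroup G) := by
  have k : ∀ {s}, c * s * c⁻¹ = s → s ∈ Cx(c) := fun e => mem_Cx.2 (mul_inv_eq_iff_eq_mul.1 e).symm
  refine idx2 (fun a ha => ⟨ha.1, Or.inl (by rw [← mem_Cx.1 ha.2]; group)⟩) fun a ha b hb => ?_
  rcases ha.2 with e | e
  · exact Or.inl ⟨ha.1, k e⟩
  rcases hb.2 with f | f
  · exact Or.inr (Or.inl ⟨hb.1, k f⟩)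
  refine Or.inr (Or.inr ⟨mul_mem ha.1 hb.1, k ?_⟩)
  rw [cjm, e, f, mul_assoc, ← mul_assoc a, h.zc a ha.1, mul_assoc, h.zz]

/-- an element acting trivially on `Q/⟨z⟩` lies in `Q` -/
theorem inner (hc : c * z = z * c) (e : ∀ s ∈ Q, c * s * c⁻¹ = s ∨ c * s * c⁻¹ = z * s) : c ∈ Q := by
  by_cases k : ∀ a ∈ Q, c * a = a * c
  · exact (h.ct c k).elim (fun e => e ▸ one_mem _) fun e => e ▸ h.zQ
  push Not at k
  obtain ⟨x, hx, n⟩ := k
  have c1 := h.Fx_le hc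
  have c2 := card_le_of_le (H := Q) (K := h.Fx c hc) fun s hs => ⟨hs, e s hs⟩
  have c3 := dbl (K := Q ⊓ Cx(c)) inf_le_left hx fun e => n (mem_Cx.1 e.2).symm
  have c4 := h.cc (A := Q ⊓ Cx(c)) inf_le_left ⟨h.zQ, mem_Cx.2 hc.symm⟩
  rw [h.cQ] at c2 c3
  rw [show Nat.card (Q ⊓ Cx(c) : Subgroup G) = 256 by omega] at c4
  have c5 : ¬ Q ⊓ Cz(Q ⊓ Cx(c)) ≤ Q ⊓ Cz(Q) := fun l => by
    have := card_le_of_le l; have := h.cc le_rfl h.zQ; rw [h.cQ] at this; omega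
  obtain ⟨s, hs, ns⟩ := SetLike.not_le_iff_exists.1 c5
  have l : Q ⊓ Cx(c) = Q ⊓ Cx(s) := eq_of_le_of_card_ge (fun a ha => ⟨ha.1, mem_Cx.2 (hs.2 a ha)⟩) (by
    obtain ⟨b, hb, nb⟩ : ∃ b ∈ Q, b * s ≠ s * b := by by_contra! k; exact ns ⟨hs.1, k⟩
    have := h.half' le_rfl hs.1 hb nb
    rw [h.cQ] at this; omega)
  have : ∀ a ∈ Q, s⁻¹ * c * a = a * (s⁻¹ * c) := fun a ha => by
    by_cases m : a * c = c * a
    · have := mem_Cx.1 (l.le ⟨ha, mem_Cx.2 m⟩).2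
      rw [mul_assoc, ← m, ← mul_assoc, ← mul_assoc, inv_mul_eq_iff_eq_mul.2 (show a = s * (a * s⁻¹) by
        rw [← mul_assoc, ← this]; group)]
    · have f := (e a ha).resolve_left fun f => m (mul_inv_eq_iff_eq_mul.1 f).symm
      have := h.anti hs.1 ha fun f => m (mem_Cx.1 (l.ge ⟨ha, mem_Cx.2 f.symm⟩).2)
      rw [mul_assoc, mul_inv_eq_iff_eq_mul.1 f, inv_mul_eq_iff_eq_mul, ← mul_assoc, this]; group
  rcases h.ct _ this with e | e
  · rw [inv_mul_eq_one.1 e] at hs; exact hs.1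
  · rw [inv_mul_eq_iff_eq_mul.1 e]; exact mul_mem hs.1 h.zQ

end LX
end CfH5.Nat
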