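import Cfsg.Agent.H5.JC3

/-! The hypotheses on the involution centraliser give the coded model. -/

set_option autoImplicit false
set_option maxRecDepth 100000
set_option linter.unusedSectionVars false

namespace CfH5.JC

open Subgroup CfH9 CfH6 CfH3.J4 CfH3.He Function CfH4

universe u
variable {C : Type u} [Group C] {Q N M : Subgroup C} {z a b g r k y : C}

theorem zp_cases (r3 : r ^ 3 = 1) (hy : y ∈ zpowers r) : y = 1 ∨ y = r ∨ y = r⁻¹ := by
  obtain ⟨j, rfl⟩ := hy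
  show r ^ j = 1 ∨ r ^ j = r ∨ r ^ j = r⁻¹
  rw [zpow_eq_zpow_emod' j r3]
  obtain e | e | e : j % (3 : ℕ) = 0 ∨ j % (3 : ℕ) = 1 ∨ j % (3 : ℕ) = 2 := by omega
  · rw [e]; exact Or.inl (zpow_zero r)
  · rw [e]; exact Or.inr (Or.inl (zpow_one r))
  · rw [e]; exact Or.inr (Or.inr (eq_inv_of_mul_eq_one_left (by rw [← r3, zpow_ofNat, ← pow_succ])))
theorem nz3 (r3 : r ^ 3 = 1) (r1 : r ≠ 1) (hg : g ∈ Nm(zpowers r)) : g * r * g⁻¹ = r ∨ g * r * g⁻¹ = r⁻¹ :=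
  (zp_cases r3 (conj_mem_of_mem_normalizer hg (mem_zpowers r))).resolve_left fun e => r1 (conj_eq_one_iff.1 e)

theorem EX.abs [Finite C] (h : EX z Q) (hU : UMOD.{u}) (hX : M22X.{u}) [N.Normal] [M.Normal] (hQN : Q ≤ N) (hNM : N ≤ M)
    (hM : M.index = 2) (hcard : Nat.card Q = 2 ^ 13) (hN : Nat.card N = 3 * Nat.card Q) (hcent : ⁅M, N⁆ ≤ Q) (hperf : M ≤ ⁅M, M⁆ ⊔ Q)
    (hout : ∀ c, (∀ m ∈ M, c * m * c⁻¹ * m⁻¹ ∈ N) → c ∈ M) (hM22 : Cfsg.Spor.IsoM22 (M ⧸ N.subgroupOf M)) :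
    ∃ (ψ ev : ℕ → C) (k : C) (e1 e2 : ℕ), CD z ψ ev k e1 e2 := by
  classical
  have := h.nm
  have : Fact (Nat.Prime 3) := ⟨Nat.prime_three⟩
  obtain ⟨U, _, p, μ, q, B, D⟩ := h.md
  have : Finite U := Finite.of_surjective p fun v => (D.ps v).imp fun _ e => e.2
  obtain ⟨r, rN, ro⟩ := exists_orderOf_eq_prime (p := 3) (Q := N) (hN ▸ dvd_mul_right _ _)
  have r3 : r ^ 3 = 1 := ro ▸ pow_orderOf_eq_one r
  have r1 : r ≠ 1 := fun e => by rw [e, orderOf_one] at ro; omega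
  have rμ : μ r ≠ 1 := fun e => r1 (D.odd e r3)
  have hQM := hQN.trans hNM
  have hR : zpowers r ≤ N := zpowers_le.2 rN
  have NQ : N ≤ Q ⊔ zpowers r := by
    have e1 := relIndex_mul_relIndex Q _ N (le_sup_left (b := zpowers r)) (sup_le hQN hR)
    have e2 := card_mul_relIndex hQN
    rw [hN, hcard] at e2
    rw [show Q.relIndex N = 3 by omega] at e1
    rcases (Nat.prime_three.eq_one_or_self_of_dvd _ ⟨_, e1.symm⟩) with e | e
    · exact absurd (D.ker (relIndex_eq_one.1 e (mem_sup_right (mem_zpowers r)))) rμ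
    · rw [e] at e1
      exact relIndex_eq_one.1 (by omega)
  obtain ⟨ι⟩ := hM22
  obtain ⟨ι'⟩ := M22I.iso
  let π0 : M →* M22B.G := (ι.trans ι'.symm).toMonoidHom.comp (QuotientGroup.mk' _)
  have s0 : Surjective π0 := (ι.trans ι'.symm).surjective.comp QuotientGroup.mk_surjective
  have k0 : ∀ m : M, π0 m = 1 ↔ m.1 ∈ N := fun m => (map_eq_one_iff _ (ι.trans ι'.symm).injective).trans (QuotientGroup.eq_one_iff _)
  have hK : ∀ m : M, μ m = 1 → π0 m = 1 := fun m hm => by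
    have := M22G.simple
    have : Finite M22B.G := Nat.finite_of_card_ne_zero (by rw [M22G.card]; omega)
    rcases ((inferInstance : (μ.ker.subgroupOf M).Normal).map π0 s0).eq_bot_or_eq_top with e | e
    · exact mem_bot.1 (e ▸ mem_map_of_mem π0 hm)
    · obtain ⟨x, hx⟩ := exists_prime_orderOf_dvd_card' (G := M22B.G) 3 (by rw [M22G.card]; norm_num)
      obtain ⟨y, hy, rfl⟩ : x ∈ (μ.ker.subgroupOf M).map π0 := e ▸ mem_top x
      have := orderOf_dvd_of_pow_eq_one (x := π0 y) (n := 2) (by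
        rw [pow_two, ← map_mul, k0]
        exact hQN ((D.sqk (g := y.1) hy).elim (fun c => c.symm ▸ one_mem Q) fun c => c.symm ▸ h.zQ : y.1 * y.1 ∈ Q))
      rw [hx] at this
      omega
  let π : C → M22B.G := fun g => if hg : g ∈ M then π0 ⟨g, hg⟩ else 1
  have pe : ∀ g (hg : g ∈ M), π g = π0 ⟨g, hg⟩ := fun g hg => dif_pos hg
  have hπ : ∀ a ∈ M, ∀ b ∈ M, π (a * b) = π a * π b := fun a ha b hb => by
    rw [pe _ (mul_mem ha hb), pe a ha, pe b hb, ← map_mul]; rfl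
  have hN' : ∀ m ∈ M, π m = 1 ↔ ∃ a ∈ Q, ∃ y ∈ zpowers r, a * y = m := fun m hm => by
    rw [pe m hm, k0, ← mem_sup_of_normal_left]
    exact ⟨fun e => NQ e, fun e => sup_le hQN hR e⟩
  have kN : ∀ m ∈ M, (∃ j : ℕ, μ m = μ r ^ j) → m ∈ N := fun m hm ⟨j, e⟩ =>
    (mul_mem_cancel_right (inv_mem (pow_mem rN j))).1 ((k0 ⟨_, mul_mem hm (inv_mem (pow_mem (hNM rN) j))⟩).1 (hK _ (by
      simp only [map_mul, map_inv, map_pow, e, mul_inv_cancel])))
  have cR : Nat.card ((zpowers r).subgroupOf N) = 3 := by rw [card_subgroupOf hR, Nat.card_zpowers, ro]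
  have fr : Q ⊔ Nm(zpowers r) = ⊤ := by
    have := Sylow.normalizer_sup_eq_top ((IsPGroup.of_card (p := 3) (n := 1) cR).toSylow (by
      have := ((zpowers r).subgroupOf N).card_mul_index
      rw [cR, hN, hcard] at this
      rw [show ((zpowers r).subgroupOf N).index = 8192 by omega]
      norm_num))
    rw [IsPGroup.toSylow_coe, subgroupOf_map_subtype, inf_of_le_left hR] at this
    exact top_le_iff.1 (this ▸ sup_le le_sup_right (NQ.trans (sup_le_sup_left le_normalizer _)))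
  have dec : ∀ g, ∃ a ∈ Q, ∃ y ∈ Nm(zpowers r), a * y = g := fun g => mem_sup_of_normal_left.1 (fr ▸ mem_top g)
  have rc : ∀ m ∈ M, m ∈ Nm(zpowers r) → m * r = r * m := fun m hm e => mul_inv_eq_iff_eq_mul.1 ((nz3 r3 r1 e).resolve_right fun c => by
    have : m * r * m⁻¹ * r⁻¹ ∈ Q := hcent (commutator_mem_commutator hm rN)
    rw [c, ← mul_inv_rev, inv_eq_of_mul_eq_one_right (show r * r * r = 1 by rw [← r3, pow_succ, pow_two])] at this
    exact rμ (D.ker this))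
  have hs : ∀ y, ∃ m ∈ M, m ∈ Nm(zpowers r) ∧ π m = y := fun y => by
    obtain ⟨⟨m, hm⟩, rfl⟩ := s0 y
    obtain ⟨a, ha, y, hy, rfl⟩ := dec m
    have := (mul_mem_cancel_left (hQM ha)).1 hm
    exact ⟨y, this, hy, by rw [← pe, hπ _ (hQM ha) _ this, (hN' a (hQM ha)).2 ⟨a, ha, 1, one_mem _, mul_one a⟩, one_mul]⟩
  obtain ⟨φ, fa, fs, fq, ⟨r', hr', ra⟩, hA, k, hk, ka⟩ := hU (μ.comp Nm(zpowers r).subtype) (fun g => D.add g)
    (by have := D.pc; omega) q B D.hq D.two D.nd (fun g => D.inv g) (M.subgroupOf Nm(zpowers r))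
    ((relIndex_sup_left _ M).symm.trans (by rw [top_le_iff.1 (fr.ge.trans (sup_le_sup_right hQM _)), relIndex_top_right, hM]))
    (MonoidHom.mk' (fun m => π m.1.1) fun a b => hπ _ a.2 _ b.2) (fun y => by
      obtain ⟨m, h1, h2, h3⟩ := hs y
      exact ⟨⟨⟨m, h2⟩, h1⟩, h3⟩) ⟨r, le_normalizer (mem_zpowers r)⟩ (hNM rN) (Subtype.ext r3) rμ
    (fun m hm => Subtype.ext (rc _ hm m.2)) (fun g => (nz3 r3 r1 g.2).imp Subtype.ext Subtype.ext)
    (fun m => ⟨fun e => by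
      obtain ⟨a, ha, y, hy, e⟩ := (hN' m.1.1 m.2).1 e
      obtain ⟨j, rfl⟩ := mem_powers_iff_mem_zpowers.2 hy
      exact ⟨j, show μ m.1.1 = μ r ^ j by rw [← e, map_mul, D.ker ha, one_mul, map_pow]⟩,
      fun e => (pe _ m.2).trans ((k0 _).2 (kN _ m.2 e))⟩)
    (by
      obtain ⟨c, hc, a, ha, e⟩ := mem_sup_of_normal_right.1 (hperf (hNM rN))
      have e1 : M.map μ ≤ (M.subgroupOf Nm(zpowers r)).map (μ.comp Nm(zpowers r).subtype) := by
        rintro _ ⟨m, hm, rfl⟩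
        obtain ⟨a, ha, y, hy, rfl⟩ := dec m
        exact ⟨⟨y, hy⟩, (mul_mem_cancel_left (hQM ha)).1 hm, show μ y = _ by rw [map_mul, D.ker ha, one_mul]⟩
      have := mem_map_of_mem μ hc
      rw [map_commutator] at this
      have := commutator_mono e1 e1 this
      rw [← map_commutator] at this
      obtain ⟨x, hx, f⟩ := this
      exact ⟨x, hx, f.trans (show μ c = μ r by rw [← e, map_mul, D.ker ha, mul_one])⟩)
    (fun g e => hout g fun m hm => by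
      obtain ⟨a, ha, y, hy, rfl⟩ := dec m
      have h1 := (mul_mem_cancel_left (hQM ha)).1 hm
      rw [show g.1 * (a * y) * g.1⁻¹ * (a * y)⁻¹ = g.1 * a * g.1⁻¹ * (g.1 * y * g.1⁻¹ * y⁻¹) * a⁻¹ by group]
      exact mul_mem (mul_mem (hQN (D.cj _ ha)) (kN _ (mul_mem (Normal.conj_mem inferInstance y h1 _) (inv_mem h1)) (e ⟨y, hy⟩ h1)))
        (inv_mem (hQN ha)))
  have ez : zpowers r'.1 = zpowers r := by
    rcases hr' with rfl | rfl
    exacts [rfl, zpowers_inv]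
  have r1' : r'.1 ≠ 1 := fun e => r1 (by rw [← zpowers_eq_bot, ← ez, e, zpowers_one_eq_bot])
  have m1 := ez.le (mem_zpowers r'.1)
  obtain ⟨ψ, ev, e1, e2, H⟩ := D.core (r := r'.1) (k := k.1) (π := π) hX (zp3 r3 m1) r1' hQM (hNM (hR m1)) hM hπ (by rw [ez]; exact hN')
    (fun m hm e => (pe m hm).trans (hK ⟨m, hm⟩ e)) (fun y => by
      obtain ⟨m, h1, h2, h3⟩ := hs y
      exact ⟨m, h1, zpc (rc m h1 h2) m1, h3⟩) fa fs fq ra (fun x hx m hm e f => by
      obtain ⟨j, c⟩ := hA x hx ⟨⟨m, Cz_le_Nm _ (by rw [← ez, Cz_zpowers]; exact mem_Cx.2 e)⟩, hm⟩ f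
      exact ⟨r ^ j, ez.ge (pow_mem (mem_zpowers r) j), c⟩) hk (nz3 (zp3 r3 m1) r1' (by rw [ez]; exact k.2)) ka (by
      rw [← M.card_mul_index, hM, card_eq_card_quotient_mul_card_subgroup (N.subgroupOf M), Nat.card_congr (ι.trans ι'.symm).toEquiv,
        M22G.card, card_subgroupOf hNM, hN, hcard]
      norm_num)
  exact ⟨ψ, ev, k, e1, e2, H⟩

theorem cd_map {G : Type u} [Group G] {t : G} {ψ ev : ℕ → Cx(t)} {k : Cx(t)} {e1 e2 : ℕ} (D : CD (⟨t, mem_Cx.2 rfl⟩ : Cx(t)) ψ ev k e1 e2) :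
    CD t (fun c => ψ c) (fun i => ev i) k e1 e2 := by
  have ew : ∀ w, evw (fun i => (ev i : G)) w = (evw ev w : Cx(t)) := fun w => (map_evw Cx(t).subtype ev w).symm
  have ct : ∀ g : Cx(t), g ∈ Cx((⟨t, mem_Cx.2 rfl⟩ : Cx(t))) := fun g => mem_Cx.2 (Subtype.ext (mem_Cx.1 g.2))
  have ac : ∀ {g : Cx(t)} {f}, Act ψ g f → Act (fun c => (ψ c : G)) g f := fun h c hc => ⟨(h c hc).1, congrArg Subtype.val (h c hc).2⟩
  refine ⟨⟨fun ha hb => congrArg Subtype.val (D.q.mul ha hb), congrArg Subtype.val D.q.hz, fun e => D.q.ne (Subtype.ext e)⟩,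
    fun g e => ?_, fun i hi => congrArg Subtype.val (D.i2 i hi), fun i _ => (ev i).2, k.2, fun i hi c hc => ?_, by rw [ew]; exact ac D.ar,
    fun i hi => by rw [ew]; exact congrArg Subtype.val (D.rc i hi), by rw [ew]; exact congrArg Subtype.val D.kr,
    fun i hi => by rw [ew]; exact congrArg Subtype.val (D.kc i hi), congrArg Subtype.val D.kk, fun w hw ⟨c, hc, e⟩ => ?_,
    fun H h1 h2 h3 g hg => D.gen (H.subgroupOf _) h1 h2 h3 (ct ⟨g, hg⟩), ?_, fun g hg => (D.act ⟨g, hg⟩ (ct _)).imp fun _ => ac, D.h1, D.h2⟩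
  · have := e 4096 (by omega)
    rw [D.q.hz] at this
    exact (D.cen ⟨g, mem_Cx.2 this⟩ fun c hc => Subtype.ext (e c hc)).imp (congrArg Subtype.val) (congrArg Subtype.val)
  · rw [show l0 (fun i => (ev i : G)) k i = (l0 ev k i : Cx(t)) by interval_cases i <;> rfl]
    exact (D.ua i hi c hc).imp (congrArg Subtype.val) (congrArg Subtype.val)
  · rw [ew] at e ⊢
    exact congrArg Subtype.val (D.sgn w hw ⟨c, hc, Subtype.ext e⟩)
  · rw [← D.card, (eq_top_iff' _).2 ct, card_top]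

theorem mkcd (hU : UMOD.{u}) (hX : M22X.{u}) : MKCD.{u} := by
  intro G _ _ t ht Q N M _ _ _ hQN hNM hM hQ hcard hN hcent hperf h2c hout hM22
  obtain ⟨z, E⟩ := exists_es2 hQ
  have ct : ∀ g : Cx(t), (∀ a ∈ Q, g * a = a * g) → g = 1 ∨ g = z := fun g e =>
    (E.center ⟨g, h2c fun a ha => (e a ha).symm⟩ fun y => Subtype.ext (e y y.2)).imp (congrArg Subtype.val) (congrArg Subtype.val)
  have zc : ∀ g : Cx(t), g * ⟨t, mem_Cx.2 rfl⟩ = ⟨t, mem_Cx.2 rfl⟩ * g := fun g => Subtype.ext (mem_Cx.1 g.2)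
  have e : (⟨t, mem_Cx.2 rfl⟩ : Cx(t)) = z := (ct _ fun a _ => (zc a).symm).resolve_left fun c => by
    rw [show t = 1 from congrArg Subtype.val c, orderOf_one] at ht; omega
  rw [e] at zc
  obtain ⟨ψ, ev, k, e1, e2, D⟩ := EX.abs ⟨z.2, fun c => E.ne (Subtype.ext c), zc, fun a ha b hb =>
    (E.comm ⟨a, ha⟩ ⟨b, hb⟩).imp (congrArg Subtype.val) (congrArg Subtype.val), inferInstance, ct⟩ hU hX hQN hNM hM hcard hN hcent hperf
    hout hM22
  rw [← e] at D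
  exact ⟨_, _, _, _, _, cd_map D⟩

end CfH5.JC
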