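import Cfsg.Agent.H3.Hf4
import Cfsg.Agent.H9.Basic2

/-! Fusion for the unique largest elementary abelian subgroup of a Sylow 2-subgroup. -/

set_option autoImplicit false
set_option linter.unusedSectionVars false

namespace CfH5

open Subgroup CfH9
open CfH3.He (dih_odd dih_comm exists_inv_pow)

variable {G : Type*} [Group G] [Finite G] {V S T H V' S' : Subgroup G} {z z' g u u' v f : G}

structure JF (V S : Subgroup G) (z : G) : Prop where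
  zV : z ∈ V
  z1 : z ≠ 1
  e2 : ∀ v ∈ V, v * v = 1
  hS : SylIn 2 S Cx(z)
  VS : V ≤ S
  zS : ∀ g, (∀ s ∈ S, g * s = s * g) → g = 1 ∨ g = z
  F0 : ∀ E : Subgroup G, E ≤ S → (∀ x ∈ E, x * x = 1) → Nat.card V ≤ Nat.card E → E = V

theorem ncard_cls (K : Subgroup G) (x : G) : {y | ∃ g ∈ K, g * x * g⁻¹ = y}.ncard = (Cx(x)).relIndex K := by
  letI : MulAction K G := MulAction.compHom G ((MulAut.conj (G := G)).comp K.subtype)
  have e : MulAction.stabilizer K x = (Cx(x)).subgroupOf K := by ext g; exact mem_Cx'.symm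
  rw [relIndex, ← e, MulAction.index_stabilizer]
  congr 1; ext y
  exact ⟨fun ⟨g, a, b⟩ => ⟨⟨g, a⟩, b⟩, fun ⟨g, b⟩ => ⟨g, g.2, b⟩⟩

/-- (f) -/
theorem orb_card (K : Subgroup G) (O : Finset G) (h : ∀ u, u ∈ O ↔ ∃ n ∈ K, n * z * n⁻¹ = u) :
    Nat.card K = O.card * Nat.card (K ⊓ Cx(z) : Subgroup G) := by
  rw [← Set.ncard_coe_finset, show (O : Set G) = {y | ∃ n ∈ K, n * z * n⁻¹ = y} from Set.ext h, ncard_cls, mul_comm, ← inf_relIndex_left,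
    card_mul_relIndex inf_le_left]

namespace JF
instance : Fact (Nat.Prime 2) := Nat.fact_prime_two
variable (h : JF V S z)
include h

theorem oz : orderOf z = 2 := orderOf_eq_prime (by rw [pow_two, h.e2 z h.zV]) h.z1
theorem inv (hv : v ∈ V) : v⁻¹ = v := inv_eq_of_mul_eq_one_right (h.e2 v hv)
theorem comm (hu : u ∈ V) (hv : v ∈ V) : u * v = v * u := by
  rw [← h.inv (mul_mem hu hv), mul_inv_rev, h.inv hu, h.inv hv]
theorem pV : IsPGroup 2 V := h.hS.pgrp.to_le h.VS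
theorem e2' (g : G) : ∀ x ∈ cj g V, x * x = 1 := by
  rintro _ ⟨v, hv, rfl⟩; rw [← map_mul, h.e2 v hv, map_one]
theorem nm_of (e : cj g V ≤ S) : g ∈ Nm(V) := mem_normalizer_iff_cj.2 (h.F0 _ e (h.e2' g) (card_cj g V).ge)
theorem SN : S ≤ Nm(V) := fun _ hs => h.nm_of (cj_le_iff_forall.2 fun _ hv => mul_mem (mul_mem hs (h.VS hv)) (inv_mem hs))

theorem cj' (g : G) : JF (cj g V) (cj g S) (g * z * g⁻¹) where
  zV := conj_mem_cj g h.zV
  z1 := by simpa using h.z1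
  e2 := h.e2' g
  hS := cj_Cx g z ▸ h.hS.cj g
  VS := cj_mono g h.VS
  zS := fun x e => (h.zS (g⁻¹ * x * g) fun s hs => by
    have := e _ (conj_mem_cj g hs)
    rw [← mul_left_cancel_iff (a := g), ← mul_right_cancel_iff (a := g⁻¹)]
    simpa [mul_assoc] using this).imp (fun e => by
      rw [← mul_left_cancel_iff (a := g⁻¹), ← mul_right_cancel_iff (a := g), e]; simp) fun e => by rw [← e]; group
  F0 := fun E e1 e2 e3 => by
    rw [← h.F0 (cj g⁻¹ E) (le_cj_iff.1 e1) (by rintro _ ⟨v, hv, rfl⟩; rw [← map_mul, e2 v hv, map_one])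
      (by rwa [card_cj] at e3 ⊢), ← cj_mul, mul_inv_cancel, cj_one]

/-- (a) -/
theorem sylG : SylIn 2 S ⊤ := h.hS.of_Nm_le le_top fun g hg => mem_Cx'.2 ((h.zS _ fun s hs => by
  have := mem_Cx.1 (h.hS.le (conj_mem_of_mem_normalizer' hg.2 hs))
  rw [← mul_left_cancel_iff (a := g⁻¹), ← mul_right_cancel_iff (a := g)]
  simpa [mul_assoc] using this.symm).resolve_left (by simpa using h.z1))

theorem wc' (e : cj g V ≤ Nm(V)) : g ∈ Nm(V) := by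
  obtain ⟨n, hn, k⟩ := (h.sylG.mono h.SN le_top).exists_cj_le (isPGroup_cj h.pV g) e
  exact (mul_mem_cancel_left hn).1 (h.nm_of (cj_mul n g V ▸ k))

/-- (b) -/
theorem wc (g : G) (e : ∀ v ∈ V, g * v * g⁻¹ ∈ Nm(V)) : g ∈ Nm(V) := h.wc' (cj_le_iff_forall.2 e)

theorem nmT (hT : IsPGroup 2 T) (e : V ≤ T) : T ≤ Nm(V) := by
  obtain ⟨x, -, k⟩ := h.sylG.exists_cj_le hT le_top
  have := h.nm_of ((cj_mono x e).trans k)
  rw [← cj_le_cj_iff (g := x), cj_normalizer, cj_eq_of_mem_normalizer this]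
  exact k.trans h.SN

/-- (c) -/
theorem ctl (hu : u ∈ V) (hu' : u' ∈ V) (e : IsConj u u') : ∃ n ∈ Nm(V), n * u * n⁻¹ = u' := by
  obtain ⟨g, rfl⟩ := isConj_iff.1 e
  obtain ⟨T, hT, l⟩ := exists_sylIn_ge h.pV fun v hv => mem_Cx.2 (h.comm hv hu')
  obtain ⟨c, hc, k⟩ := hT.exists_cj_le (isPGroup_cj h.pV g) (cj_Cx g u ▸ cj_mono g fun v hv => mem_Cx.2 (h.comm hv hu))
  exact ⟨c * g, h.wc' (cj_mul c g V ▸ k.trans (h.nmT hT.pgrp l)), by rw [← mem_Cx'.1 hc]; group⟩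

theorem fuse_aux (h' : JF V' S' z') (hc : Nat.card V = Nat.card V') (e : IsConj z z') (c : z' ∈ Cx(z)) (hn : z' ≠ z)
    (i : ∀ u ∈ V, IsConj z u → u = z) (cz : Cz(V) ≤ V) (hT : SylIn 2 T (Cx(z) ⊓ Cx(z'))) (t : T ≤ S) (t' : T ≤ S')
    (l : Nat.card (V' ⊓ Cx(z) : Subgroup G) ≤ Nat.card (V ⊓ Cx(z') : Subgroup G)) : False := by
  have n := t.trans h.SN
  have n' := t'.trans h'.SN
  have nC : ∀ x : G, Cx(x) ≤ Nm(Cx(x)) := fun _ => le_normalizer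
  have c' := mem_Cx.2 (mem_Cx.1 c).symm
  have a : V ⊓ Cx(z') ≤ T := hT.le_of_le_Nm (h.pV.to_le inf_le_left) (inf_le_inf_right _ (h.VS.trans h.hS.le))
    fun g hg => mem_Nm_inf (n hg) (nC _ (hT.le hg).2)
  have a' : V' ⊓ Cx(z) ≤ T := hT.le_of_le_Nm (h'.pV.to_le inf_le_left) (le_inf inf_le_right (inf_le_left.trans
    (h'.VS.trans h'.hS.le))) fun g hg => mem_Nm_inf (n' hg) (nC _ (hT.le hg).1)
  have zT := n' (a (x := z) ⟨h.zV, c'⟩)
  have zi := h.inv h.zV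
  let φ : V' →* G := MonoidHom.mk' (fun a => a * (z * a * z⁻¹)) fun a b => by
    have := h'.comm b.2 (conj_mem_of_mem_normalizer zT a.2)
    simp only [coe_mul, ← conj_mul (b := z)]
    rw [mul_assoc, ← mul_assoc (b : G), this]; group
  have k1 : φ.ker = (V' ⊓ Cx(z)).subgroupOf V' := by
    ext a
    rw [MonoidHom.mem_ker, mem_subgroupOf, mem_inf, and_iff_right a.2, mem_Cx]
    change (a : G) * (z * a * z⁻¹) = 1 ↔ _
    rw [mul_eq_one_iff_eq_inv', h'.inv a.2, mul_inv_eq_iff_eq_mul, eq_comm]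
  have k2 : φ.range ≤ V' ⊓ Cx(z) := by
    rintro _ ⟨a, rfl⟩
    refine ⟨mul_mem a.2 (conj_mem_of_mem_normalizer zT a.2), mem_Cx.2 ?_⟩
    change (a : G) * (z * a * z⁻¹) * z = z * (a * (z * a * z⁻¹))
    rw [h'.comm a.2 (conj_mem_of_mem_normalizer zT a.2), ← mul_assoc z, ← mul_assoc z, ← mul_assoc z, h.e2 z h.zV,
      ← h'.comm a.2 (conj_mem_of_mem_normalizer zT a.2), zi]
    simp [mul_assoc, h.e2 z h.zV]
  have k3 : Nat.card (V' ⊓ Cx(z) : Subgroup G) * Nat.card φ.range = Nat.card V' := by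
    rw [← card_subgroupOf (inf_le_left (b := Cx(z))), ← k1, ← index_ker, card_mul_index]
  have k4 : ∀ b ∈ φ.range, b ∈ V → b = 1 := by
    rintro _ ⟨a, rfl⟩ hb
    have : φ a * z = a * z * (a : G)⁻¹ := by
      change (a : G) * (z * a * z⁻¹) * z = _
      rw [h'.inv a.2]; group
    exact mul_eq_right.1 (i _ (mul_mem hb h.zV) (this ▸ isConj_iff.2 ⟨_, rfl⟩))
  have k5 : V ⊓ Cx(z') ≤ Nm(φ.range) := fun x hx => mem_normalizer_of_cj_le (cj_le_iff_forall.2 (by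
    rintro _ ⟨b, rfl⟩
    refine ⟨⟨_, conj_mem_of_mem_normalizer (n' (a hx)) b.2⟩, ?_⟩
    change x * b * x⁻¹ * (z * (x * b * x⁻¹) * z⁻¹) = x * (b * (z * b * z⁻¹)) * x⁻¹
    rw [← conj_mul (b := x), ← conj_mul (b := x), ← conj_mul (b := x), ← conj_inv (b := x),
      mem_Cx'.1 (hT.le (a hx)).1]))
  have k6 := card_sup_mul_card_inf k5
  rw [show V ⊓ Cx(z') ⊓ φ.range = ⊥ from eq_bot_iff.2 fun b hb => k4 b hb.2 hb.1.1, card_bot, mul_one] at k6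
  have k7 := h.F0 _ (sup_le (a.trans t) (k2.trans (a'.trans t))) (fun x hx => by
    obtain ⟨p, hp, q, hq, rfl⟩ := (mem_sup_of_le_Nm k5).1 hx
    have := k4 _ (mul_mem (conj_mem_of_mem_normalizer (k5 hp) hq) (inv_mem hq)) (by
      simpa [mul_assoc] using mul_mem hp.1 (conj_mem_of_mem_normalizer (n (a' (k2 hq))) (inv_mem hp.1)))
    rwa [h.inv hp.1, h'.inv (k2 hq).1, mul_assoc] at this)
    (by rw [k6, hc, ← k3]; exact Nat.mul_le_mul_right _ l)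
  rw [show φ.range = ⊥ from eq_bot_iff.2 fun b hb => k4 b hb (k7.le (mem_sup_right hb)), sup_bot_eq] at k7
  exact hn (i _ (cz (le_Cx_iff.1 (k7.ge.trans inf_le_right))) e)

/-- (d) -/
theorem fuse [IsSimpleGroup G] (h2 : Nat.card G ≠ 2) (cz : Cz(V) ≤ V) : ∃ u ∈ V, u ≠ z ∧ IsConj z u := by
  by_contra! i
  have i' : ∀ g, ∀ u ∈ cj g V, IsConj (g * z * g⁻¹) u → u = g * z * g⁻¹ := by
    rintro g _ ⟨u, hu, rfl⟩ e
    by_contra k
    exact i u hu (fun e' => k (by rw [e']; rfl)) (((isConj_iff.2 ⟨g, rfl⟩).trans e).trans (isConj_iff.2 ⟨g, rfl⟩).symm)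
  have cz' : ∀ g, Cz(cj g V) ≤ cj g V := fun g => cj_centralizer g V ▸ cj_mono g cz
  obtain ⟨w, e, c, hn⟩ := CfH3.Hf.not_isolated h.oz h2
  obtain ⟨g, rfl⟩ := isConj_iff.1 e
  obtain ⟨T, hT⟩ := exists_sylIn 2 (Cx(z) ⊓ Cx(g * z * g⁻¹))
  obtain ⟨x, hx, t⟩ := h.hS.exists_le_cj hT.pgrp (hT.le.trans inf_le_left)
  obtain ⟨y, hy, t'⟩ := (h.cj' g).hS.exists_le_cj hT.pgrp (hT.le.trans inf_le_right)
  rw [← cj_mul] at t'
  have a := h.cj' x
  have b := h.cj' (y * g)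
  have ia := i' x
  have ib := i' (y * g)
  rw [mem_Cx'.1 hx] at a ia
  rw [show y * g * z * (y * g)⁻¹ = g * z * g⁻¹ by rw [← mem_Cx'.1 hy]; group] at b ib
  have hc : Nat.card (cj x V) = Nat.card (cj (y * g) V) := by rw [card_cj, card_cj]
  exact (le_total _ _).elim (a.fuse_aux b hc e (mem_Cx.2 c) hn ia (cz' _) hT t t')
    (b.fuse_aux a hc.symm e.symm (mem_Cx.2 c.symm) hn.symm ib (cz' _) (inf_comm Cx(z) _ ▸ hT) t' t)

omit h in
/-- (e), for any subgroup `N` normalizing `V` and any prime -/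
theorem witt {N : Subgroup G} {p : ℕ} [hp : Fact p.Prime] (hN : N ≤ Nm(V)) (ho : orderOf f = p) (hf : f ∈ N)
    (h2 : ¬ p ^ 2 ∣ Nat.card N) (X : Finset G) (hX : ∀ u, u ∈ X ↔ u ∈ V ∧ u ≠ 1 ∧ f * u = u * f) (hz : z ∈ X)
    (tr : ∀ u ∈ X, ∃ n ∈ N, n * z * n⁻¹ = u) : X.card ∣ Nat.card N := by
  have s : SylIn p (zpowers f) N := sylIn_of_not_dvd (zpowers_le.2 hf)
    (IsPGroup.of_card (n := 1) (by rw [Nat.card_zpowers, ho, pow_one])) fun d => h2 (by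
      rw [← card_mul_relIndex (zpowers_le.2 hf), Nat.card_zpowers, ho, pow_two]; exact mul_dvd_mul_left p d)
  have fz := mem_Cx.2 ((hX z).1 hz).2.2
  refine Dvd.dvd.trans ⟨_, orb_card (z := z) (N ⊓ Nm(zpowers f)) X fun u => ⟨fun hu => ?_, ?_⟩⟩
    (card_dvd_of_le inf_le_left)
  · obtain ⟨n, hn, rfl⟩ := tr u hu
    obtain ⟨c, hc, e⟩ := ((s.cj_of_mem hn).mono (K := N ⊓ Cx(n * z * n⁻¹)) (le_inf (s.cj_of_mem hn).le
      (cj_Cx n z ▸ cj_mono n (zpowers_le.2 fz))) inf_le_left).conj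
      (s.mono (zpowers_le.2 ⟨hf, mem_Cx.2 ((hX _).1 hu).2.2⟩) inf_le_left)
    exact ⟨c * n, ⟨mul_mem hc.1 hn, mem_normalizer_iff_cj.2 (cj_mul c n _ ▸ e)⟩, by rw [← mem_Cx'.1 hc.2]; group⟩
  · rintro ⟨n, hn, rfl⟩
    refine (hX _).2 ⟨conj_mem_of_mem_normalizer (hN hn.1) ((hX z).1 hz).1, by simpa using ((hX z).1 hz).2.1,
      mem_Cx.1 ?_⟩
    rw [← cj_Cx, ← zpowers_le, ← cj_eq_of_mem_normalizer hn.2]
    exact cj_mono n (zpowers_le.2 fz)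

/-- (g) -/
theorem fin [IsSimpleGroup G] (v2 : v * v = 1) (nc : ¬ IsConj z v) (h1 : Cx(z) ≤ H) (h2 : Cx(v) ≤ Nm(V))
    (h3 : Nm(V) ≤ H) (cl : ∀ s ∈ Nm(V), s * s = 1 → s ≠ 1 → ∃ k ∈ H, k * s * k⁻¹ = z ∨ k * s * k⁻¹ = v) :
    H = ⊤ ∧ ∀ s : G, orderOf s = 2 → IsConj s z ∨ IsConj s v := by
  refine ⟨?_, fun s hs => ?_⟩
  · have k : ∀ g, g * z * g⁻¹ ∈ H := fun g => by
      have z2 := (h.cj' g).e2 _ (h.cj' g).zV
      obtain ⟨m, m1, m2⟩ := exists_inv_pow (r := g * z * g⁻¹ * v) fun o => by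
        obtain ⟨j, -, -, e, -⟩ := dih_odd z2 v2 o
        exact nc ((isConj_iff.2 ⟨g, rfl⟩).trans (isConj_iff.2 ⟨j, e⟩))
      obtain ⟨c1, c2⟩ := dih_comm z2 v2 m2
      obtain ⟨k, hk, e⟩ := cl _ (h2 (mem_Cx.2 c2)) m2 m1
      have := conj_mem_cj k (mem_Cx.2 c1.symm)
      rw [cj_Cx] at this
      exact (mul_mem_cancel_left hk).1 ((mul_mem_cancel_right (inv_mem hk)).1 (e.elim
        (fun e => h1 (by rwa [e] at this)) fun e => h3 (h2 (by rwa [e] at this))))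
    exact eq_top_iff.2 (((normalCore_normal H).eq_bot_or_eq_top.resolve_left fun e =>
      h.z1 (mem_bot.1 (e ▸ k))).ge.trans (normalCore_le H))
  · obtain ⟨g, -, e⟩ := h.sylG.exists_conj_mem (x := s) trivial (k := 1) (by rw [pow_one, ← hs, pow_orderOf_eq_one])
    obtain ⟨k, -, e'⟩ := cl _ (h.SN e) (by rw [conj_mul, ← pow_two, ← hs, pow_orderOf_eq_one]; simp)
      (by simpa using fun e : s = 1 => by simp [e] at hs)
    exact e'.imp (fun e => (isConj_iff.2 ⟨g, rfl⟩).trans (isConj_iff.2 ⟨k, e⟩))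
      fun e => (isConj_iff.2 ⟨g, rfl⟩).trans (isConj_iff.2 ⟨k, e⟩)

end JF

end CfH5
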