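import Cfsg.Agent.H5.S1
import Cfsg.Agent.H8.D2
import Cfsg.Agent.H8.DD
import Cfsg.Agent.OD.Helper5x34eb5d53e7

/-! Centralisers `2^(1+8).Sp₆(2)` with the spin action are split. -/

set_option autoImplicit false
set_option maxRecDepth 100000
set_option linter.all false
open CfL hiding Tp Tm Zp Zm hZp hZm cZp cZm es_rels autp autm
open CfH6 CfH6.Co MulAction Subgroup CfH9
open CfH8 CfH8.C3 CfH8.C2

namespace CfH5.Nat

def xq : List (List ℕ) := ((List.range 7).map fun x => [x, xil.getD x 0]) ++ xr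

section
variable {X : Type*} [Group X] {π : X →* Sp} {z : X}

theorem rb {x y : X} (x2 : x * x = 1) (y2 : y * y = 1) (b : x * y * x = y * x * y) :
    x * (y * (x * (y * (x * (y * 1))))) = 1 := by
  rw [mul_one, ← mul_assoc, ← mul_assoc, b, mul_assoc, ← mul_assoc y, y2, one_mul, mul_assoc, ← mul_assoc x, x2, one_mul, y2]
theorem rc {x y : X} (x2 : x * x = 1) (y2 : y * y = 1) (b : x * y = 1 * (y * x)) : x * (y * (x * (y * 1))) = 1 := by
  rw [mul_one, b, one_mul, ← mul_assoc y, y2, one_mul, x2]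

def Lf (π : X →* Sp) (z : X) (x : ℕ → X) : Prop := (∀ i < 7, π (x i) = A i) ∧ ((∀ r ∈ xq, evw x r = 1) ∨
  (evw x [3] * evw x [3] = z ∧ evw x [4, 6] * evw x [4, 6] = z ∧ evw x [3, 4, 6] * evw x [3, 4, 6] = 1 ∧
    evw x [0, 3, 6] * evw x [0, 3, 6] = 1 ∧ x 0 * evw x [3, 4, 6] * (x 0)⁻¹ = z * evw x [3, 4, 6]))

theorem lf1 (h : Ker π z) {a b c d e f g : X} (ha : π a = A 0) (hb : π b = A 1) (hc' : π c = A 2) (hd : π d = A 3)
    (he : π e = A 4) (hf : π f = A 5) (hg : π g = A 6) (ab : a * b * a = b * a * b) (bc : b * c * b = c * b * c)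
    (cd : c * d * c = d * c * d) (ce : c * e * c = e * c * e) (df : d * f * d = f * d * f)
    (fg : f * g * f = g * f * g) (cox : (a * (b * (c * (d * (e * (f * g)))))) ^ 9 = 1) : ∃ x, Lf π z x := by
  obtain ⟨q, hq, ac⟩ := h.cm ha hc' (by decide +kernel)
  have hp := (h.ker (a * a)).1 (by simpa [ha] using A_eq [0, 0] [] (by decide +kernel))
  generalize a2 : a * a = p at hp
  obtain ⟨p1, p2⟩ := h.c1 hp
  obtain ⟨q1, q2⟩ := h.c1 hq
  have b2 := sq_br ab a2 p1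
  have c2 := sq_br bc b2 p1
  have d2 := sq_br cd c2 p1
  have f2 := sq_br df d2 p1
  have e2 := sq_br ce c2 p1
  have g2 := sq_br fg f2 p1
  have ca := h.sym hq ac
  have da := h.mv hq cd ca hd ha (by decide +kernel)
  have ea := h.mv hq ce ca he ha (by decide +kernel)
  have fa := h.mv hq df da hf ha (by decide +kernel)
  have ga := h.mv hq fg fa hg ha (by decide +kernel)
  have ad := h.sym hq da
  have ae := h.sym hq ea
  have af := h.sym hq fa
  have ag := h.sym hq ga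
  have bd := h.mv hq ab ad hb hd (by decide +kernel)
  have be := h.mv hq ab ae hb he (by decide +kernel)
  have bf := h.mv hq ab af hb hf (by decide +kernel)
  have bg := h.mv hq ab ag hb hg (by decide +kernel)
  have cf := h.mv hq bc bf hc' hf (by decide +kernel)
  have cg := h.mv hq bc bg hc' hg (by decide +kernel)
  have dg := h.mv hq cd cg hd hg (by decide +kernel)
  have eg := h.mv hq ce cg he hg (by decide +kernel)
  have fe := h.mv hq fg.symm (h.sym hq eg) hf he (by decide +kernel)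
  have de := h.mv hq df.symm fe hd he (by decide +kernel)
  have ef := h.sym hq fe
  let ev : ℕ → X := fun l => [p, q, a, a⁻¹, b, b⁻¹, c, c⁻¹, d, d⁻¹, e, e⁻¹, f, f⁻¹, g, g⁻¹].getD l 1
  have hinv : ∀ x < 16, ev (C3N.il.getD x 0) = (ev x)⁻¹ := by
    intro x hx
    interval_cases x
    exacts [eq_inv_of_mul_eq_one_left p2, eq_inv_of_mul_eq_one_left q2, rfl, (inv_inv _).symm, rfl, (inv_inv _).symm,
      rfl, (inv_inv _).symm, rfl, (inv_inv _).symm, rfl, (inv_inv _).symm, rfl, (inv_inv _).symm, rfl, (inv_inv _).symm]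
  have hr : ∀ r ∈ C3N.urels, evw ev r = 1 := by
    simp only [C3N.urels, List.forall_mem_cons, evw_cons, evw_nil]
    exact ⟨rq1 a2 p2, rq1 b2 p2, rq1 c2 p2, rq1 d2 p2, rq1 e2 p2, rq1 f2 p2, rq1 g2 p2,
      rq2 ab, rq3 ac q2, rq3 ad q2, rq3 ae q2, rq3 af q2, rq3 ag q2, rq2 bc, rq3 bd q2, rq3 be q2, rq3 bf q2, rq3 bg q2,
      rq2 cd, rq2 ce, rq3 cf q2, rq3 cg q2, rq3 de q2, rq2 df, rq3 dg q2, rq3 ef q2, rq3 eg q2, rq2 fg,
      rq4 q1 q2, rq4 q1 q2, rq4 q1 q2, rq4 q1 q2, rq4 q1 q2, rq4 q1 q2, rq4 q1 q2,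
      by change p * (q * (p * (q * 1))) = 1; rw [← mul_assoc q, q1 p, mul_one, mul_assoc, q2, mul_one, p2], forall_nil⟩
  have hx : evw ev C3N.cox = 1 := by rw [C3N.cox, evw_wpow]; simpa [ev] using cox
  have pq : p * q = 1 := by
    have := cox_sq hinv hr
    rw [hx, one_mul, one_mul] at this
    exact this
  obtain rfl : p = q := (eq_inv_of_mul_eq_one_left pq).trans (inv_eq_of_mul_eq_one_right q2)
  refine ⟨fun l => [a, b, c, d, e, f, g].getD l 1, fun i hi => by interval_cases i <;> assumption, ?_⟩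
  rcases hp with rfl | rfl
  · refine Or.inl (List.forall_mem_append.2 ⟨fun r hr => ?_, forall_cons (by rw [evw_wpow]; simpa using cox) ?_⟩)
    · obtain ⟨i, hi, rfl⟩ := List.mem_map.1 hr
      have := List.mem_range.1 hi
      interval_cases i <;> simpa [xil]
    · simp only [List.forall_mem_cons, evw_cons, evw_nil]
      exact ⟨rb a2 b2 ab, rc a2 c2 ac, rb b2 c2 bc, rc a2 d2 ad, rc b2 d2 bd, rb c2 d2 cd, rc a2 e2 ae, rc b2 e2 be,
        rb c2 e2 ce, rc d2 e2 de, rc a2 f2 af, rc b2 f2 bf, rc c2 f2 cf, rb d2 f2 df, rc e2 f2 ef, rc a2 g2 ag, rc b2 g2 bg,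
        rc c2 g2 cg, rc d2 g2 dg, rc e2 g2 eg, rb f2 g2 fg, forall_nil⟩
  · have k : ∀ x y : X, x * (p * y) = p * (x * y) := fun x y => by rw [← mul_assoc, ← p1, mul_assoc]
    have k2 : ∀ y : X, p * (p * y) = y := fun y => by rw [← mul_assoc, p2, one_mul]
    have s2 : ∀ {x y : X}, x * x = p → y * y = p → x * y = p * (y * x) → x * y * (x * y) = p := fun {x y} x2 y2 e => by
      nth_rw 2 [e]; rw [k, mul_assoc, ← mul_assoc y, y2, k, x2, p2, mul_one]
    have m : ∀ {x y w : X}, x * y = p * (y * x) → x * w = p * (w * x) → x * (y * w) = y * w * x := fun {x y w} e f => by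
      rw [← mul_assoc, e, mul_assoc, mul_assoc, f, k, k2, mul_assoc]
    have s3 : ∀ {x y w : X}, x * x = p → y * y = p → w * w = p → x * y = p * (y * x) → x * w = p * (w * x) →
        y * w = p * (w * y) → x * (y * w) * (x * (y * w)) = 1 := fun {x y w} x2 y2 w2 e f g => by
      nth_rw 2 [m e f]; rw [mul_assoc, ← mul_assoc (y * w), s2 y2 w2 g, k, x2, p2]
    refine Or.inr ?_
    simp only [evw_cons, evw_nil, mul_one]
    refine ⟨d2, s2 e2 g2 eg, s3 d2 e2 g2 de dg eg, s3 a2 d2 g2 ad ag dg, mul_inv_eq_iff_eq_mul.2 ?_⟩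
    change a * (d * (e * g)) = p * (d * (e * g)) * a
    rw [← mul_assoc, ad, mul_assoc, mul_assoc, m ae ag]; simp only [mul_assoc]

theorem lf (K : Ker π z) : ∃ x, Lf π z x := by
  obtain ⟨a, ha⟩ := K.sur (A 0)
  obtain ⟨b, hb, ab⟩ := K.adj ha 1 (by decide +kernel)
  obtain ⟨c, hc', bc⟩ := K.adj hb 2 (by decide +kernel)
  obtain ⟨d, hd, cd⟩ := K.adj hc' 3 (by decide +kernel)
  obtain ⟨e', he, ce⟩ := K.adj hc' 4 (by decide +kernel)
  obtain ⟨f, hf, df⟩ := K.adj hd 5 (by decide +kernel)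
  obtain ⟨g, hg, fg⟩ := K.adj hf 6 (by decide +kernel)
  rcases (K.ker ((a * (b * (c * (d * (e' * (f * g)))))) ^ 9)).1 (by
    have := A_eq (wpow [0, 1, 2, 3, 4, 5, 6] 9) [] (by decide +kernel)
    rw [evw_wpow] at this
    simpa [ha, hb, hc', hd, he, hf, hg] using this) with k | k
  · exact lf1 K ha hb hc' hd he hf hg ab bc cd ce df fg k
  · refine lf1 K ((K.pz _).trans ha) ((K.pz _).trans hb) ((K.pz _).trans hc') ((K.pz _).trans hd)
      ((K.pz _).trans he) ((K.pz _).trans hf) ((K.pz _).trans hg) (K.br_z ab) (K.br_z bc) (K.br_z cd) (K.br_z ce)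
      (K.br_z df) (K.br_z fg) ?_
    have k2 : ∀ u : X, z * (z * u) = u := fun u => by rw [← mul_assoc, K.z2, one_mul]
    have k4 : ∀ u v : X, u * (z * v) = z * (u * v) := fun u v => by rw [← mul_assoc, ← K.cen u, mul_assoc]
    rw [← mul_one (z * g)]
    simp only [mul_assoc, k4, mul_one]
    rw [k2, k2, k2, (Commute.mul_pow (K.cen _)), k, ← pow_succ,
      show 9 + 1 = 2 * 5 from rfl, pow_mul, pow_two, K.z2, one_pow]
end

theorem acw {w : List ℕ} (hw : ∀ x ∈ w, x < 7) (t : Tp) : (evw (fun i => eR (9 + i)) w)⁻¹ t = ac w t := by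
  rw [ac, ← wdR (by simp only [List.mem_map]; rintro _ ⟨x, hx, rfl⟩; exact Nat.add_lt_add_left (hw x hx) 9), mkT_eq]
  simp only [evw, List.map_map]; rfl

theorem exθ : ∃ θ : Sp →* S, ∀ i < 7, θ (A i) = eR (9 + i) := homX _ fun r hr => by
  have k : ∀ r ∈ xq, allLt 7 r = true ∧ ∀ t, ac r t = t := by decide +kernel
  exact inv_eq_one.1 (MulEquiv.ext fun t => (acw (allLt_sound (k r hr).1) t).trans ((k r hr).2 t))

noncomputable def tw (r : List ℕ) : ℕ :=
  List.rec 0 (fun a _ ih => force ih fun n => cond (Nat.blt a 9) (tp.mul (tp.R a 0) n) (sR.R a n)) r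
def xw (r : List ℕ) : List ℕ := (r.filter fun a => !Nat.blt a 9).map (· - 9)
theorem kR : ∀ r ∈ ((List.range 16).map fun x => [x, DN.il.getD x 0]) ++ DN.rels,
    allLt 16 r = true ∧ tw r = 0 ∧ (xw r = [] ∨ xw r ∈ xq) := by decide +kernel
theorem kI : ∀ w ∈ [[3], [4, 6], [3, 4, 6], [0, 3, 6]], allLt 7 w = true ∧ ∃ t ∈ [mkT 2, mkT 4, mkT 16],
    ∀ n ∈ [ac w t * t⁻¹, Zp * (ac w t * t⁻¹)], n * n = 1 ∧ n ≠ 1 ∧ n ≠ Zp := by decide +kernel
theorem kJ : ∀ q : Tp, Zp * (ac [3] q * q) ≠ 1 ∧ Zp * (ac [4, 6] q * q) ≠ 1 ∧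
    (1 * (ac [0, 3, 6] q * q) = 1 → q⁻¹ * ac [0, 3, 6] (mkT 26) * q = Zp * mkT 26) ∧ (1 * (ac [3, 4, 6] q * q) = 1 →
      (∃ t ∈ [mkT 2, mkT 4, mkT 32, mkT 64], q⁻¹ * ac [3, 4, 6] t * q = Zp * t) ∨
      ∃ t ∈ [mkT 0, mkT 16, mkT 256, mkT 272], q = ac [3, 4, 6] t * t⁻¹ ∨ q = Zp * (ac [3, 4, 6] t * t⁻¹)) := by
  decide +kernel

variable {G : Type*} [Group G] [Finite G] {z : G} {ι : Tp →* G} {π : Cx(z) →* Sp} {r : ℕ → Cx(z)}

theorem exL (h : Spin z ι π r) : ∃ x : ℕ → Cx(z), Spin z ι π x ∧ Lf π ⟨z, mem_Cx.2 rfl⟩ x := by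
  obtain ⟨θ, hθ⟩ := exθ
  have l := lxP h.toSx
  let X : Subgroup Cx(z) :=
    { carrier := {g | L ι g (θ (π g))}
      one_mem' := by simpa using L.one
      mul_mem' := fun a b => by simpa using L.mul a b
      inv_mem' := fun a => by simpa using L.inv a }
  have z0 : π ⟨z, mem_Cx.2 rfl⟩ = 1 := (h.ker _).2 l.zQ
  have zX : (⟨z, mem_Cx.2 rfl⟩ : Cx(z)) ∈ X := fun t => by
    rw [z0, map_one]; exact mul_inv_eq_iff_eq_mul.2 (l.zc _ ⟨t, rfl⟩).symm
  obtain ⟨x, k1, k2⟩ := lf (π := π.comp X.subtype) (z := ⟨_, zX⟩) ⟨fun g => Subtype.ext (Subtype.ext (mem_Cx.1 g.1.2).symm),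
    Subtype.ext (Subtype.ext l.z2), fun e => l.z1 (congrArg (·.1.1) e), fun g => ⟨fun e => (h.ct g.1 fun t => by
      have := g.2 t
      rw [show π g.1 = 1 from e, map_one] at this
      exact mul_inv_eq_iff_eq_mul.1 this).imp (fun e => Subtype.ext (Subtype.ext e)) fun e => Subtype.ext (Subtype.ext e),
      by rintro (rfl | rfl); exacts [map_one _, z0]⟩,
    MonoidHom.range_eq_top.1 (A_gen _ fun i hi => ⟨⟨r i, show L ι _ _ by rw [h.p i hi, hθ i hi]; exact h.l i hi⟩, h.p i hi⟩)⟩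
  have e : ∀ w, evw (fun i => (x i).1) w = (evw x w).1 := fun w => (map_evw X.subtype x w).symm
  refine ⟨fun i => (x i).1, ⟨h.toSx, fun i hi => ?_, k1⟩, k1, k2.imp (fun k r hr => by rw [e, k r hr]; rfl) fun k => ?_⟩
  · rw [← hθ i hi, ← k1 i hi]; exact (x i).2
  · simp only [e]
    exact ⟨congrArg (·.1) k.1, congrArg (·.1) k.2.1, congrArg (·.1) k.2.2.1, congrArg (·.1) k.2.2.2.1,
      congrArg (·.1) k.2.2.2.2⟩

theorem lift' (h : Spin z ι π r) {w : List ℕ} (hw : allLt 7 w = true) (t : Tp) :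
    ((evw r w : Cx(z)) : G)⁻¹ * ι t * (evw r w : Cx(z)) = ι (ac w t) := by
  have := (L.evw (ev := fun i => (r i : G)) h.l (allLt_sound hw)).inv t
  rwa [show evw (fun i => (r i : G)) w = (evw r w : Cx(z)) from (map_evw Cx(z).subtype r w).symm, inv_inv,
    acw (allLt_sound hw)] at this

theorem split (h : Spin z ι π r) (k : ∀ s ∈ xq, evw r s = 1) :
    ∃ ψ : DN.G →* G, Function.Injective ψ ∧ ψ (DN.el 0) = z ∧ ∀ g, g * z = z * g → g ∈ ψ.range := by
  let ev : ℕ → G := fun a => cond (Nat.blt a 9) (ι (mkT (tp.R a 0))) (r (a - 9))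
  have gv : ∀ a < 9, (mkT (tp.R a 0)).1 = tp.R a 0 := by decide +kernel
  have key : ∀ s : List ℕ, (∀ a ∈ s, a < 16) → ∃ t : Tp, t.1 = tw s ∧ evw ev s = ι t * (evw r (xw s) : Cx(z)) := fun s => by
    induction s with
    | nil => exact fun _ => ⟨1, rfl, by simp [xw]⟩
    | cons a s ih =>
      intro hs
      obtain ⟨t, e1, e2⟩ := ih fun x hx => hs x (List.mem_cons_of_mem _ hx)
      have ha := hs a List.mem_cons_self
      have e0 : tw (a :: s) = cond (Nat.blt a 9) (tp.mul (tp.R a 0) t.1) (sR.R a t.1) := by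
        rw [e1]; exact force_eq (tw s) fun n => cond (Nat.blt a 9) (tp.mul (tp.R a 0) n) (sR.R a n)
      rw [evw_cons, e2, e0, show xw (a :: s) = cond (Nat.blt a 9) (xw s) ((a - 9) :: xw s) by
        rw [xw, List.filter_cons]; cases Nat.blt a 9 <;> rfl]
      simp only [ev]
      cases f : Nat.blt a 9
      · have a9 : 9 ≤ a := by rw [← Bool.not_eq_true, Nat.blt_eq] at f; omega
        have i := inv_eq_of_mul_eq_one_right (show r (a - 9) * r (a - 9) = 1 by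
          simpa using k [a - 9, a - 9] (by interval_cases a <;> decide))
        have := (h.l (a - 9) (by omega)).inv t
        rw [← coe_inv, i, Nat.add_sub_cancel' a9] at this
        have e3 := wdR (w := [a]) (by simpa using ha) t
        rw [evw_cons, evw_nil, mul_one] at e3
        refine ⟨(eR a)⁻¹ t, e3, ?_⟩
        rw [← this]; simp [mul_assoc]
      · refine ⟨mkT (tp.R a 0) * t, congrArg (tp.mul · t.1) (gv a (blt1 f)), ?_⟩
        simp [mul_assoc]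
  have hr : ∀ s ∈ ((List.range 16).map fun x => [x, DN.il.getD x 0]) ++ DN.rels, evw ev s = 1 := fun s hs => by
    obtain ⟨k1, k2, k3⟩ := kR s hs
    obtain ⟨t, e1, e2⟩ := key s (allLt_sound k1)
    rw [e2, show t = 1 from Subtype.ext (e1.trans k2), k3.elim (fun e => by rw [e, evw_nil]) (k _)]; simp
  obtain ⟨ψ, hψ⟩ := DN.hhom ev (inv_of_rels fun s a => hr s (List.mem_append_left _ a))
    fun s a => hr s (List.mem_append_right _ a)
  have su : ∀ g, g * z = z * g → g ∈ ψ.range := fun g hg => by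
    have q : ∀ t, ι t ∈ ψ.range := TE.top_of (ψ.range.comap ι) fun x hx a e => ⟨DN.el x, by
      rw [hψ x (hx.trans (by decide))]
      simp only [ev, blt2 (show x < 9 from hx), cond_true, e, mkT_eq]⟩
    obtain ⟨y, hy, e⟩ := (A_gen ((ψ.range.subgroupOf Cx(z)).map π) fun i hi => ⟨r i, ⟨DN.el (i + 9), by
      rw [hψ _ (by omega)]; interval_cases i <;> rfl⟩, h.p i hi⟩).ge (mem_top (π ⟨g, mem_Cx.2 hg⟩))
    obtain ⟨t, f⟩ := (h.ker (y⁻¹ * ⟨g, mem_Cx.2 hg⟩)).1 (by rw [map_mul, map_inv, e, inv_mul_cancel])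
    exact (mul_mem_cancel_left (inv_mem hy)).1 (f ▸ q t :)
  have := DD.fin
  refine ⟨ψ, fun a b e => (ψ.rangeRestrict_surjective.bijective_of_nat_card_le ?_).1 (Subtype.ext e), ?_, su⟩
  · rw [DD.card, show 743178240 = 512 * 1451520 from rfl, ← cardC h.toSx (lxP h.toSx)]
    exact card_le_of_le fun g hg => su g (mem_Cx.1 hg)
  · rw [hψ 0 (by decide), ← h.z0]; exact congrArg ι (by decide +kernel)

theorem exN (h : Spin z ι π r) (s1 : ∀ q : Tp, IsConj z (ι q) → q = Zp)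
    (invSp : ∀ x : Sp, x * x = 1 → ∃ w ∈ [[], [3], [4, 6], [3, 4, 6], [0, 3, 6]], IsConj (evw A w) x)
    {u : G} (c : IsConj z u) (u1 : u ≠ z) (uz : u * z = z * u) :
    ∃ ψ : DN.G →* G, Function.Injective ψ ∧ ψ (DN.el 0) = z ∧ ∀ g, g * z = z * g → g ∈ ψ.range := by
  obtain ⟨r, h, -, k | ⟨k1, k2, k3, k4, k5⟩⟩ := exL h
  · exact split h k
  exfalso
  have l := lxP h.toSx
  have i2 : ∀ {u}, IsConj z u → u * u = 1 := fun c => by
    obtain ⟨g, rfl⟩ := isConj_iff.1 c; rw [← cjm, l.z2]; simp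
  have nf : ∀ {u}, Cu z u → ∃ x : Cx(z), (∃ k : Cx(z), k * u * (k : G)⁻¹ = x) ∧ Cu z x ∧
      ∃ w ∈ [[3], [4, 6], [3, 4, 6], [0, 3, 6]], π x = evw A w := fun {u} c => by
    let v : Cx(z) := ⟨u, mem_Cx.2 c.m⟩
    obtain ⟨w, hw, e⟩ := invSp (π v) (by rw [← map_mul, show v * v = 1 from Subtype.ext (i2 c.c), map_one])
    obtain ⟨M, e⟩ := isConj_iff.1 e.symm
    obtain ⟨k, rfl⟩ := h.sur M
    have nq : ∀ {u}, Cu z u → u ∉ ι.range := by
      rintro _ c ⟨q, rfl⟩; exact c.n (by rw [s1 q c.c, h.z0])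
    have c' : Cu z (k * v * k⁻¹ : Cx(z)) := ⟨c.c.trans (isConj_iff.2 ⟨k, rfl⟩), fun f => c.n (by
      have : k * u * (k : G)⁻¹ = k * z * (k : G)⁻¹ := f.trans (mul_inv_eq_iff_eq_mul.2 (mem_Cx.1 k.2)).symm
      simpa using this), mem_Cx.1 (k * v * k⁻¹).2⟩
    have e' : π (k * v * k⁻¹) = evw A w := by rw [← e]; simp
    exact ⟨_, ⟨k, rfl⟩, c', w, (List.mem_cons.1 hw).resolve_left fun f => nq c' ((h.ker _).1 (by rw [e', f, evw_nil])), e'⟩
  have P2 : ∀ {u}, Cu z u → IsConj u (z * u) := fun {u} c => by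
    obtain ⟨x, ⟨k, e⟩, c, w, hw, f⟩ := nf c
    suffices IsConj (x : G) (z * x) from (isConj_iff.2 ⟨_, e⟩).trans (this.trans (isConj_iff.2 ⟨(k : G), by
      rw [cjm, e, mul_inv_eq_iff_eq_mul.2 (mem_Cx.1 k.2)]⟩).symm)
    have hw' := (kI w hw).1
    obtain ⟨q, f⟩ := (h.ker ((evw r w)⁻¹ * x)).1 (by
      rw [map_mul, map_inv, f, hom_evw h.p w (allLt_sound hw'), inv_mul_cancel])
    replace f : (x : G) = (evw r w : Cx(z)) * ι q := by rw [f]; simp
    have L := lift' h hw'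
    have sq : ∀ Z : Tp, ((evw r w * evw r w : Cx(z)) : G) = ι Z → Z * (ac w q * q) = 1 := fun Z e => h.inj (by
      rw [map_mul, map_mul, ← e, ← L, map_one, ← i2 c.c, f, coe_mul]; group)
    have g1 : ∀ t, q⁻¹ * ac w t * q = Zp * t → IsConj (x : G) (z * x) := fun t e => isConj_iff.2 ⟨ι t, by
      replace e := congrArg ι e
      rw [map_mul, map_mul, map_mul, map_inv, ← L, h.z0] at e
      rw [← c.m, mul_inv_eq_iff_eq_mul, mul_assoc, ← e, f]; group⟩
    simp only [List.mem_cons, List.not_mem_nil, or_false] at hw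
    rcases hw with rfl | rfl | rfl | rfl
    · exact absurd (sq Zp (by rw [k1, h.z0])) (kJ q).1
    · exact absurd (sq Zp (by rw [k2, h.z0])) (kJ q).2.1
    · rcases (kJ q).2.2.2 (sq 1 (by rw [k3]; simp)) with ⟨t, -, e⟩ | ⟨t, -, e⟩
      · exact g1 t e
      have a : IsConj ((evw r [3, 4, 6] : Cx(z)) : G) (z * (evw r [3, 4, 6] : Cx(z))) :=
        isConj_iff.2 ⟨r 0, congrArg Subtype.val k5⟩
      have m := mem_Cx.1 (evw r [3, 4, 6]).2
      have zt := l.zc _ ⟨t, rfl⟩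
      generalize ((evw r [3, 4, 6] : Cx(z)) : G) = ρ at *
      have b1 : ι t * ρ * (ι t)⁻¹ = ρ * ι (ac [3, 4, 6] t * t⁻¹) := by rw [map_mul, map_inv, ← L]; group
      have b2 : ι t * (z * ρ) * (ι t)⁻¹ = z * (ρ * ι (ac [3, 4, 6] t * t⁻¹)) := by rw [← b1, ← mul_assoc, zt]; group
      have b := (isConj_iff.2 ⟨_, b1⟩).symm.trans (a.trans (isConj_iff.2 ⟨_, b2⟩))
      rcases e with e | e <;> rw [f, e]
      · exact b
      · rw [map_mul, h.z0, ← mul_assoc, m, mul_assoc, l.zz]; exact b.symm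
    · exact g1 _ ((kJ q).2.2.1 (sq 1 (by rw [k4]; simp)))
  obtain ⟨x, -, c, w, hw, f⟩ := nf ⟨c, u1, uz⟩
  obtain ⟨hw', t, -, k⟩ := kI w hw
  have x2 := i2 c.c
  have xi := inv_eq_of_mul_eq_one_right x2
  obtain ⟨n, ⟨n2, n1, nz⟩, e⟩ : ∃ n : Tp, (n * n = 1 ∧ n ≠ 1 ∧ n ≠ Zp) ∧ x * ι t * (x : G)⁻¹ * (ι t)⁻¹ = ι n := by
    rcases act h hw' x (by rw [← f, ← map_inv]; exact congrArg π (Subtype.ext xi.symm)) t with e | e
    · exact ⟨_, k _ List.mem_cons_self, by rw [e, map_mul, map_inv]⟩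
    · exact ⟨_, k _ (List.mem_cons_of_mem _ List.mem_cons_self), by rw [e, map_mul, map_mul, map_inv, h.z0, mul_assoc]⟩
  have e1 : ι t * x * (ι t)⁻¹ = x * ι n := by rw [← e, xi, ← mul_assoc, ← mul_assoc, ← mul_assoc, x2, one_mul]
  have c1 := c.c.trans (isConj_iff.2 ⟨_, e1⟩)
  obtain ⟨g, hg⟩ := isConj_iff.1 c.c
  have c2 : Cu z (g⁻¹ * (x * ι n) * g) := Cu.back c1 (fun f => n1 (h.inj (by rw [hg, mul_eq_left] at f; rw [f, map_one])))
    (by rw [hg, mul_assoc, mul_right_inj, ← inv_eq_of_mul_eq_one_right (i2 c1), mul_inv_rev, xi, ← map_inv,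
      inv_eq_of_mul_eq_one_right n2])
  refine nz (s1 n ((c2.c.trans (P2 c2)).trans (isConj_iff.2 ⟨g, ?_⟩)))
  rw [cjm, hg, show g * (g⁻¹ * (x * ι n) * g) * g⁻¹ = x * ι n by group, ← mul_assoc, x2, one_mul]

end CfH5.Nat
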