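import Cfsg.Agent.H5.Nat
import Cfsg.Agent.H7.Cores2
import Cfsg.Agent.H4.ZStar

/-! Centralisers `2^(1+8).Sp₆(2)`: the initial setting. -/

set_option autoImplicit false
set_option linter.all false
open CfL hiding Tp Tm Zp Zm hZp hZm cZp cZm es_rels autp autm
open CfH6 CfH6.Co MulAction Subgroup CfH9 CfH4 CfH2
open CfH8.C3 (Sp A)
open CfH8.C2
open scoped Matrix

namespace CfH5.Nat

abbrev V6 := Fin 3 ⊕ Fin 3 → ZMod 2
noncomputable def Tr (w : V6) : Sp := ⟨_, sympTransvection_mem 3 w 1⟩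
theorem Tr_ap (w x : V6) : (Tr w).1 *ᵥ x = x + sympB 3 (ZMod 2) x w • w := by
  rw [← one_mul (sympB 3 (ZMod 2) x w)]; exact sympTransvection_mulVec 3 w x 1
theorem sp_ext {M N : Sp} (h : ∀ x, M.1 *ᵥ x = N.1 *ᵥ x) : M = N := Subtype.ext (Matrix.ext_of_mulVec_single fun _ => h _)
theorem Tr_cj (M : Sp) (w : V6) : M * Tr w * M⁻¹ = Tr (M.1 *ᵥ w) := mul_inv_eq_iff_eq_mul.2 (sp_ext fun x => by
  simp only [Submonoid.coe_mul, ← Matrix.mulVec_mulVec, Tr_ap, Matrix.mulVec_add, Matrix.mulVec_smul,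
    mem_symplecticGroup_iff.1 M.2])

theorem odd_normal (N : Subgroup Sp) [N.Normal] (ho : (Nat.card N).Coprime 2) : N = ⊥ := by
  have t : ∀ a : ZMod 2, a = 0 ∨ a = 1 := by decide
  have two : ∀ x : V6, x + x = 0 := fun x => by ext i; exact CharTwo.add_self_eq_zero _
  have T2 : ∀ w, Tr w * Tr w = 1 := fun w => sp_ext fun x => by
    simp [← Matrix.mulVec_mulVec, Tr_ap, sympB_self, add_assoc, two]
  have sy : ∀ a b : V6, sympB 3 (ZMod 2) a b = sympB 3 (ZMod 2) b a := fun a b => by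
    have := sympB_self 3 (a + b)
    simp only [map_add, LinearMap.add_apply, sympB_self, zero_add, add_zero] at this
    exact (CharTwo.add_eq_zero.1 this).symm
  have key : ∀ a b : V6, a ≠ 0 → sympB 3 (ZMod 2) a b = 0 → Tr b * (Tr a)⁻¹ ∈ N → b = a := fun a b a0 ab hN => by
    have c : Tr b * Tr a = Tr a * Tr b := mul_inv_eq_iff_eq_mul.1 (by rw [Tr_cj, Tr_ap, ab, zero_smul, add_zero])
    rw [inv_eq_of_mul_eq_one_right (T2 a)] at hN
    have e : Tr b * Tr a = 1 := by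
      rw [← orderOf_eq_one_iff]
      refine Nat.eq_one_of_dvd_coprimes ho (orderOf_dvd_natCard N hN) (orderOf_dvd_of_pow_eq_one ?_)
      rw [pow_two]; nth_rw 2 [c]; rw [mul_assoc, ← mul_assoc (Tr a), T2, one_mul, T2]
    obtain ⟨x, hx⟩ : ∃ x, sympB 3 (ZMod 2) x a ≠ 0 := by by_contra! k; exact a0 ((sympB_nondeg 3).2 a k)
    have := congrArg (fun M : Sp => M.1 *ᵥ x) ((eq_inv_of_mul_eq_one_left e).trans (inv_eq_of_mul_eq_one_right (T2 a)))
    simp only [Tr_ap, add_right_inj, (t _).resolve_left hx, one_smul] at this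
    rcases t (sympB 3 (ZMod 2) x b) with f | f <;> rw [f] at this
    · exact absurd (by simpa using this.symm) a0
    · simpa using this
  refine eq_bot_iff.2 fun n hn => mem_bot.2 (sp_ext fun w => ?_)
  rw [Submonoid.coe_one, Matrix.one_mulVec]
  by_cases w0 : w = 0
  · rw [w0, Matrix.mulVec_zero]
  have q : ∀ {x y : Sp}, x * y⁻¹ ∈ N ↔ (QuotientGroup.mk' N) x = QuotientGroup.mk' N y := by
    intro x y; rw [← mul_inv_eq_one (a := QuotientGroup.mk' N x), ← map_inv, ← map_mul]; exact (QuotientGroup.eq_one_iff _).symm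
  have e1 : QuotientGroup.mk' N (Tr (n.1 *ᵥ w)) = QuotientGroup.mk' N (Tr w) := by
    rw [← Tr_cj, map_mul, map_mul, map_inv, show QuotientGroup.mk' N n = 1 from (QuotientGroup.eq_one_iff n).2 hn]; simp
  generalize n.1 *ᵥ w = b at e1
  rcases t (sympB 3 (ZMod 2) w b) with f | f
  · exact key w b w0 f (q.2 e1)
  obtain ⟨x, y, n, e⟩ := Fintype.exists_ne_map_eq_of_card_lt
    (fun x : V6 => (sympB 3 (ZMod 2) x w, sympB 3 (ZMod 2) x b)) (by simp)
  rw [Prod.mk.injEq] at e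
  have d1 : sympB 3 (ZMod 2) (w + (x - y)) w = 0 := by simp [sympB_self, e.1]
  have d2 : sympB 3 (ZMod 2) (w + (x - y)) b = 1 := by simp [f, e.2]
  refine absurd (key w (w + (x - y)) w0 (sy _ _ ▸ d1) (q.2 ?_)) (by simpa [sub_eq_zero] using n)
  generalize w + (x - y) = c at d1 d2
  have a1 := Tr_cj (Tr c) b
  have a2 := Tr_cj (Tr b) c
  have a3 := Tr_cj (Tr c) w
  rw [Tr_ap, sy, d2, one_smul] at a1
  rw [Tr_ap, d2, one_smul, add_comm, ← a1] at a2
  rw [Tr_ap, sy, d1, zero_smul, add_zero] at a3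
  replace a2 := congrArg (QuotientGroup.mk' N) a2
  replace a3 := congrArg (QuotientGroup.mk' N) a3
  simp only [map_mul, map_inv, e1] at a2 a3
  rw [a3, ← mul_inv_eq_iff_eq_mul.1 a3, mul_inv_cancel_right] at a2
  exact a2

variable {G : Type*} [Group G] [Finite G]

theorem exU (hO : Cfsg.oddCore G = ⊥) (hZ : center G = ⊥) {t : G} (ht : orderOf t = 2) :
    ∃ u, IsConj t u ∧ u ≠ t ∧ u * t = t * u := by
  by_contra! k
  have := CfH4.zstar G t ht fun g hg => by
    by_contra n; exact k _ (isConj_iff.2 ⟨g, rfl⟩) n hg.symm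
  have e : t ∈ center G := mem_center_iff.2 fun g =>
    mul_inv_eq_iff_eq_mul.1 (mul_inv_eq_one.1 (mem_bot.1 (hO ▸ this g)))
  rw [hZ, mem_bot] at e
  rw [e, orderOf_one] at ht; omega

theorem exSx (t : G) (ht : orderOf t = 2) (hcon : Cfsg.IsPConstrained 2 (Subgroup.centralizer ({t} : Set G)))
    (hQ : Cfsg.IsExtraspecial 2 (Cfsg.pCore 2 (Subgroup.centralizer ({t} : Set G))))
    (hcard : Nat.card (Cfsg.pCore 2 (Subgroup.centralizer ({t} : Set G))) = 2 ^ 9)
    (e : (Subgroup.centralizer ({t} : Set G)) ⧸ Cfsg.pCore 2 (Subgroup.centralizer ({t} : Set G)) ≃*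
      Matrix.symplecticGroup (Fin 3) (ZMod 2)) : (∃ ι π, Sx t Zp ι π) ∨ (∃ ι π, Sx t Zm ι π) := by
  have : Fact (Nat.Prime 2) := Nat.fact_prime_two
  set Q := Cfsg.pCore 2 Cx(t)
  let π : Cx(t) →* Sp := e.toMonoidHom.comp (QuotientGroup.mk' Q)
  have su : Function.Surjective π := e.surjective.comp (QuotientGroup.mk'_surjective _)
  have ke : ∀ g, π g = 1 ↔ g ∈ Q := fun g => by simp [π]
  have h1 : Cfsg.pPrimeCore 2 Cx(t) = ⊥ := by
    have := (Cfsg.pPrimeCore 2 Cx(t)).normal_of_characteristic.map π su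
    have := odd_normal ((Cfsg.pPrimeCore 2 Cx(t)).map π)
      ((CfH7.coprime_card_pPrimeCore 2 _).coprime_dvd_left (card_map_dvd _ _))
    exact eq_bot_iff.2 fun x hx => disjoint_def.1 CfH7.disjoint_pCore_pPrimeCore ((ke x).1 (this.le ⟨x, hx, rfl⟩)) hx
  have h2 : Cfsg.pPrimePCore 2 Cx(t) = Q := CfH7.comap_pCore_of_ker_isPGroup (QuotientGroup.mk'_surjective _) (by
    rw [QuotientGroup.ker_mk', h1]; exact IsPGroup.of_bot)
  have hF : Cz(Q) ≤ Q := by
    unfold Cfsg.IsPConstrained at hcon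
    rw [h2] at hcon
    exact (Cz_anti (map_subtype_le _)).trans (hcon default)
  obtain ⟨z0, h0⟩ := exists_es2 hQ
  have cz : ∀ g : Cx(t), (∀ q : Q, g * q = q * g) → g = 1 ∨ g = z0 := fun g hg => by
    have : g ∈ Q := hF fun q hq => (hg ⟨q, hq⟩).symm
    exact (h0.center ⟨g, this⟩ fun y => Subtype.ext (hg y)).imp (congrArg Subtype.val) (congrArg Subtype.val)
  have z1 : t ≠ 1 := fun e => by rw [e, orderOf_one] at ht; omega
  have e0 : t = z0 := congrArg Subtype.val ((cz ⟨t, mem_Cx.2 rfl⟩ fun q => Subtype.ext (mem_Cx.1 q.1.2).symm).resolve_left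
    fun e => z1 (congrArg Subtype.val e))
  have key : ∀ {T : Type} [Group T] (Z : T) (ι : T →* Q), Function.Bijective ι → ι Z = z0 →
      Sx t Z ((Cx(t)).subtype.comp (Q.subtype.comp ι)) π := fun Z ι i1 i2 => by
    have rg : ((Cx(t)).subtype.comp (Q.subtype.comp ι)).range = Q.map (Cx(t)).subtype := by
      rw [MonoidHom.range_comp, MonoidHom.range_comp, MonoidHom.range_eq_top.2 i1.2, ← MonoidHom.range_eq_map, range_subtype]
    have e1 : ((ι Z : Cx(t)) : G) = t := by rw [i2, ← e0]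
    refine ⟨(subtype_injective _).comp ((subtype_injective _).comp i1.1), e1, fun g hg s => ?_, fun g hg => ?_, su,
      fun g => (ke g).trans ?_⟩
    · exact rg.ge ⟨_, Q.normal_of_characteristic.conj_mem _ (ι s).2 ⟨g, mem_Cx.2 hg⟩, rfl⟩
    · refine (cz ⟨g, mem_Cx.2 ((congrArg (g * ·) e1.symm).trans ((hg Z).trans (congrArg (· * g) e1)))⟩ fun q => ?_).imp
        (congrArg Subtype.val) fun e => (congrArg Subtype.val e).trans e0.symm
      obtain ⟨s, rfl⟩ := i1.2 q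
      exact Subtype.ext (hg s)
    · rw [rg]; exact ⟨fun k => ⟨g, k, rfl⟩, fun ⟨x, k, f⟩ => Subtype.ext f ▸ k⟩
  exact (es512 h0 hcard).imp (fun ⟨ι, i1, i2⟩ => ⟨_, _, key _ ι i1 i2⟩) fun ⟨ι, i1, i2⟩ => ⟨_, _, key _ ι i1 i2⟩

end CfH5.Nat
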