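import Cfsg.Agent.OD.Pre
import Cfsg.Agent.H5.IndChar
import Cfsg.Agent.H4.Kernel

/-! Characters of extraspecial groups. -/

set_option autoImplicit false
open scoped ComplexConjugate
open Cfsg CfH4

namespace CfH5

universe u v

variable {P : Type u} [Group P] {p : ℕ}

theorem extraspecial_mem_zpowers [Fact p.Prime] (hP : IsExtraspecial p P) {z a : P}
    (hz : z ∈ Subgroup.center P) (hz1 : z ≠ 1) (ha : a ∈ Subgroup.center P) :
    a ∈ Subgroup.zpowers z := by
  obtain ⟨k, hk⟩ := mem_zpowers_of_prime_card (G := Subgroup.center P) hP.2 (g := ⟨z, hz⟩)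
    (fun h => hz1 (congrArg Subtype.val h)) (g' := ⟨a, ha⟩)
  exact ⟨k, congrArg Subtype.val hk⟩

theorem extraspecial_vanish (hP : IsExtraspecial p P) {θ : P → ℂ} (hθ : IsClassFunction P θ)
    (hz : ∀ z ∈ Subgroup.center P, z ≠ 1 → ∃ c : ℂ, c ≠ 1 ∧ ∀ x, θ (z * x) = c * θ x) {x : P}
    (hx : x ∉ Subgroup.center P) : θ x = 0 := by
  rw [Subgroup.mem_center_iff] at hx
  push Not at hx
  obtain ⟨g, hg⟩ := hx
  have h1 : g * x * g⁻¹ * x⁻¹ ∈ Subgroup.center P := by
    rw [← hP.1.2.2]
    exact Subgroup.commutator_mem_commutator (Subgroup.mem_top g) (Subgroup.mem_top x)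
  obtain ⟨c, hc, h⟩ := hz _ h1 (fun h => hg (by
    rwa [mul_inv_eq_one, mul_inv_eq_iff_eq_mul] at h))
  have h2 := h x
  rw [inv_mul_cancel_right, hθ] at h2
  have h3 : (c - 1) * θ x = 0 := by linear_combination -h2
  exact (mul_eq_zero.1 h3).resolve_left (sub_ne_zero.2 hc)

theorem classInner_self_of_vanish {G : Type u} [Group G] [Fintype G] (Z : Subgroup G) {θ : G → ℂ}
    {d : ℝ} (h0 : ∀ x, x ∉ Z → θ x = 0) (h1 : ∀ z ∈ Z, ‖θ z‖ = d) :
    classInner θ θ = (d : ℂ) ^ 2 / Z.index := by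
  classical
  rw [classInner_def]
  have : ∀ g, θ g * conj (θ g) = extendByZero Z (fun _ => (d : ℂ) ^ 2) g := by
    intro g
    by_cases hg : g ∈ Z
    · rw [ebz_of_mem Z _ hg, Complex.mul_conj, Complex.normSq_eq_norm_sq, h1 g hg]; simp
    · rw [ebz_of_not_mem Z _ hg, h0 g hg, zero_mul]
  simp only [this, sum_ebz, Finset.sum_const, Finset.card_univ, Fintype.card_eq_nat_card,
    nsmul_eq_mul, ← card_div_card_eq_index]
  have := natCard_ne_zero G
  have := natCard_ne_zero Z
  field_simp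

theorem extraspecial_index_center [Finite P] [Fact p.Prime] (hP : IsExtraspecial p P) {n : ℕ}
    (hcard : Nat.card P = p ^ (2 * n + 1)) : (Subgroup.center P).index = (p ^ n) ^ 2 := by
  have := (Subgroup.center P).card_mul_index
  rw [hP.2, hcard, pow_succ'] at this
  rw [Nat.eq_of_mul_eq_mul_left (Fact.out : p.Prime).pos this, ← pow_mul, mul_comm]

/-- An irreducible character of an extraspecial group which is not linear vanishes off the
centre. -/
theorem extraspecial_irr_vanish [Finite P] [Fact p.Prime] (hP : IsExtraspecial p P) {χ : P → ℂ}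
    (hχ : IsIrrCharacter P χ) (h1 : χ 1 ≠ 1) {x : P} (hx : x ∉ Subgroup.center P) : χ x = 0 := by
  refine extraspecial_vanish hP hχ.classFun (fun z hz hz1 => ?_) hx
  obtain ⟨c, -, hc⟩ := hχ.center_le_charCenter hz
  refine ⟨c, ?_, hc⟩
  rintro rfl
  apply h1
  refine hχ.apply_one_of_commutator fun g hg => apply_eq_of_mem_charKer ?_
  rw [hP.1.2.2] at hg
  have h2 : z ∈ charKer χ := fun x => by rw [hc, one_mul]
  exact (Subgroup.zpowers_le.2 h2) (extraspecial_mem_zpowers hP hz hz1 hg)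

theorem extraspecial_irr_degree [Finite P] [Fact p.Prime] (hP : IsExtraspecial p P) {n : ℕ}
    (hcard : Nat.card P = p ^ (2 * n + 1)) {χ : P → ℂ} (hχ : IsIrrCharacter P χ) (h1 : χ 1 ≠ 1) :
    χ 1 = (p : ℂ) ^ n := by
  have := Fintype.ofFinite P
  have h2 := classInner_self_of_vanish (Subgroup.center P) (d := deg χ)
    (fun x hx => extraspecial_irr_vanish hP hχ h1 hx) (fun z hz => by
      rw [norm_apply_eq_of_mem_charCenter (hχ.center_le_charCenter hz), ← hχ.isCharacter.deg_eq]
      simp)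
  rw [hχ.classInner_self, extraspecial_index_center hP hcard, eq_comm, div_eq_one_iff_eq
    (by exact_mod_cast (pow_pos (pow_pos (Fact.out : p.Prime).pos n) 2).ne')] at h2
  have h3 : deg χ ^ 2 = (p ^ n) ^ 2 := by exact_mod_cast h2
  rw [← hχ.isCharacter.deg_eq, Nat.pow_left_injective two_ne_zero h3, Nat.cast_pow]

end CfH5
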