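import Cfsg.Agent.H3.Jw0
import Cfsg.Agent.H4.Extra2

/-! The quadratic module attached to a normal extraspecial subgroup. -/

set_option autoImplicit false
set_option linter.unusedSectionVars false

namespace CfH5.JC

open Subgroup CfH9 CfH4

universe u
variable {C : Type u} [Group C] {Q : Subgroup C} {z a b g : C}

def ez (z : C) (x : ZMod 2) : C := z ^ x.val

theorem z2c : ∀ x : ZMod 2, x = 0 ∨ x = 1 := by decide
theorem ez0 : ez z 0 = 1 := pow_zero z
theorem ez1 : ez z 1 = z := pow_one z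

structure EX (z : C) (Q : Subgroup C) : Prop where
  zQ : z ∈ Q
  z1 : z ≠ 1
  zc : ∀ g, g * z = z * g
  cm : ∀ a ∈ Q, ∀ b ∈ Q, a * b = b * a ∨ a * b = z * (b * a)
  nm : Q.Normal
  ct : ∀ g, (∀ a ∈ Q, g * a = a * g) → g = 1 ∨ g = z

namespace EX
variable (h : EX z Q)
include h

theorem z2 : z * z = 1 :=
  (h.ct _ fun a _ => by rw [mul_assoc, ← h.zc a, ← mul_assoc, ← h.zc a, mul_assoc]).resolve_right
    fun e => h.z1 (mul_eq_left.1 e)
theorem zz (x : C) : z * (z * x) = x := by rw [← mul_assoc, h.z2, one_mul]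
theorem zne (x : C) : z * x ≠ x := fun e => h.z1 (mul_eq_right.1 e)
theorem lc (x y : C) : x * (z * y) = z * (x * y) := by rw [← mul_assoc, h.zc, mul_assoc]
theorem es : ES2 (⟨z, h.zQ⟩ : Q) where
  ne := fun e => h.z1 (congrArg Subtype.val e)
  cent := fun x => Subtype.ext (h.zc _).symm
  sq := Subtype.ext h.z2
  comm := fun x y => (h.cm _ x.2 _ y.2).imp Subtype.ext Subtype.ext
  center := fun x e => (h.ct x fun a ha => congrArg Subtype.val (e ⟨a, ha⟩)).imp Subtype.ext Subtype.ext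
theorem sq (ha : a ∈ Q) : a * a = 1 ∨ a * a = z :=
  (h.es.sq_eq ⟨a, ha⟩).imp (congrArg Subtype.val) (congrArg Subtype.val)
theorem eza (x y : ZMod 2) : ez z (x + y) = ez z x * ez z y := by
  rcases z2c x with rfl | rfl <;> rcases z2c y with rfl | rfl <;>
    simp only [zero_add, add_zero, ez0, ez1, one_mul, mul_one, show (1 + 1 : ZMod 2) = 0 from rfl, h.z2]
theorem ezc (x : ZMod 2) (g : C) : g * ez z x = ez z x * g := (Commute.pow_right (h.zc g) _).eq
theorem ezl (x : ZMod 2) (g y : C) : g * (ez z x * y) = ez z x * (g * y) := by rw [← mul_assoc, h.ezc, mul_assoc]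
theorem ezi {x y : ZMod 2} (e : ez z x = ez z y) : x = y := by
  rcases z2c x with rfl | rfl <;> rcases z2c y with rfl | rfl <;> first | rfl | skip
  · exact absurd (ez1.symm.trans (e.symm.trans ez0)) h.z1
  · exact absurd (ez1.symm.trans (e.trans ez0)) h.z1
theorem pz (n : ℕ) : z ^ n = z ^ (n % 2) := by
  conv_lhs => rw [← Nat.div_add_mod n 2, pow_add, pow_mul, pow_two, h.z2, one_pow, one_mul]
theorem ezn (n : ℕ) : ez z (n : ZMod 2) = z ^ n := by rw [ez, ZMod.val_natCast, ← h.pz]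
theorem ev (n : ℕ) (e : z ^ n = 1) : n % 2 = 0 := by
  rw [h.pz] at e
  rcases Nat.mod_two_eq_zero_or_one n with f | f
  · exact f
  · rw [f, pow_one] at e; exact absurd e h.z1
end EX

structure MD {U : Type u} [AddCommGroup U] (z : C) (Q : Subgroup C) (p : C → U) (μ : C →* Equiv.Perm U) (q : U → ZMod 2)
    (B : U →+ U →+ ZMod 2) : Prop extends EX z Q where
  pm : ∀ a ∈ Q, ∀ b ∈ Q, p (a * b) = p a + p b
  p0 : ∀ a ∈ Q, p a = 0 ↔ a = 1 ∨ a = z
  ps : ∀ v, ∃ a ∈ Q, p a = v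
  pr : ∀ g, ∀ a ∈ Q, μ g (p a) = p (g * a * g⁻¹)
  pb : ∀ a ∈ Q, ∀ b ∈ Q, a * b = ez z (B (p a) (p b)) * (b * a)
  pq : ∀ a ∈ Q, a * a = ez z (q (p a))
  pc : Nat.card Q = Nat.card U * 2

theorem EX.md (h : EX z Q) : ∃ (U : Type u) (_ : AddCommGroup U) (p : C → U) (μ : C →* Equiv.Perm U) (q : U → ZMod 2)
    (B : U →+ U →+ ZMod 2), MD z Q p μ q B := by
  classical
  have := h.nm
  letI : CommGroup (Q ⧸ center Q) := { (inferInstance : Group (Q ⧸ center Q)) with
    mul_comm := fun a b => by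
      obtain ⟨a, rfl⟩ := QuotientGroup.mk_surjective a
      obtain ⟨b, rfl⟩ := QuotientGroup.mk_surjective b
      rw [← QuotientGroup.mk_mul, ← QuotientGroup.mk_mul]
      rcases h.es.comm a b with e | e <;> rw [e]
      rw [QuotientGroup.mk_mul, (QuotientGroup.eq_one_iff _).2 h.es.z_mem_center, one_mul] }
  have hφ : ∀ g : C, center Q ≤ (center Q).comap (MulAut.conjNormal g : MulAut Q).toMonoidHom := fun g x hx => by
    rcases h.es.mem_center_iff.1 hx with rfl | rfl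
    · exact one_mem _
    · exact h.es.mem_center_iff.2 (Or.inr (Subtype.ext (mul_inv_eq_iff_eq_mul.2 (h.zc g))))
  obtain ⟨U, _, p, ρ, pm, p0, ps, pr, pc⟩ : ∃ (V : Type u) (_ : AddCommGroup V) (p : C → V) (ρ : C → V → V),
      (∀ a ∈ Q, ∀ b ∈ Q, p (a * b) = p a + p b) ∧ (∀ a ∈ Q, p a = 0 ↔ a = 1 ∨ a = z) ∧ (∀ v, ∃ a ∈ Q, p a = v) ∧
      (∀ g, ∀ a ∈ Q, ρ g (p a) = p (g * a * g⁻¹)) ∧ Nat.card Q = Nat.card V * 2 := by
    refine ⟨Additive (Q ⧸ center Q), inferInstance, fun g => if hg : g ∈ Q then Additive.ofMul (QuotientGroup.mk ⟨g, hg⟩) else 0,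
      fun g => MonoidHom.toAdditive (QuotientGroup.map _ _ _ (hφ g)),
      fun a ha b hb => ?_, fun a ha => ?_, fun v => ?_, fun g a ha => ?_, ?_⟩
    · simp only [dif_pos ha, dif_pos hb, dif_pos (mul_mem ha hb)]; rfl
    · simp only [dif_pos ha]
      exact ((QuotientGroup.eq_one_iff _).trans h.es.mem_center_iff).trans (or_congr Subtype.ext_iff Subtype.ext_iff)
    · obtain ⟨a, e⟩ := QuotientGroup.mk_surjective (Additive.toMul v)
      exact ⟨a, a.2, by simp only [dif_pos a.2]; exact e⟩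
    · simp only [dif_pos ha, dif_pos (h.nm.conj_mem a ha g)]; rfl
    · rw [← h.es.card_center]; exact card_eq_card_quotient_mul_card_subgroup _
  choose s hs sp using ps
  have pe : ∀ a ∈ Q, s (p a) = a ∨ s (p a) = z * a := fun a ha => by
    have e := pm _ (mul_mem (hs (p a)) (inv_mem ha)) a ha
    rw [inv_mul_cancel_right, sp, right_eq_add, p0 _ (mul_mem (hs _) (inv_mem ha))] at e
    exact e.imp mul_inv_eq_one.1 mul_inv_eq_iff_eq_mul.1
  let μ : C →* Function.End U := ⟨⟨ρ, funext fun v => by rw [← sp v, pr _ _ (hs v), one_mul, inv_one, mul_one]; rfl⟩, fun x y => funext fun v => by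
    show ρ (x * y) v = ρ x (ρ y v)
    rw [← sp v, pr _ _ (hs v), pr _ _ (hs v), pr _ _ (h.nm.conj_mem _ (hs v) y)]; congr 1; group⟩
  let B : U → U → ZMod 2 := fun u v => if s u * s v = s v * s u then 0 else 1
  have pb : ∀ a ∈ Q, ∀ b ∈ Q, a * b = ez z (B (p a) (p b)) * (b * a) := fun a ha b hb => by
    have : s (p a) * s (p b) = s (p b) * s (p a) ↔ a * b = b * a := by
      rcases pe a ha with e | e <;> rcases pe b hb with f | f <;> simp only [e, f, mul_assoc, h.lc, mul_right_inj]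
    simp only [B, this]
    split_ifs with c
    · rw [ez0, one_mul, c]
    · rw [ez1]; exact (h.cm a ha b hb).resolve_left c
  have b1 : ∀ u u' v, B (u + u') v = B u v + B u' v := fun u u' v => h.ezi (mul_right_cancel (b := s v * (s u * s u')) (by
    have := pb _ (mul_mem (hs u) (hs u')) _ (hs v)
    rw [pm _ (hs u) _ (hs u'), sp, sp, sp] at this
    rw [← this, mul_assoc, pb _ (hs u') _ (hs v), h.ezl, ← mul_assoc (s u), pb _ (hs u) _ (hs v), sp, sp, sp, add_comm, h.eza]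
    group))
  have b2 : ∀ u v, B u v = B v u := fun u v => by simp only [B, eq_comm]
  refine ⟨U, inferInstance, p, μ.toHomPerm, fun u => if s u * s u = 1 then 0 else 1,
    AddMonoidHom.mk' (fun u => AddMonoidHom.mk' (B u) fun v v' => by rw [b2, b1, b2 v, b2 v']) fun u u' => by ext v; exact b1 u u' v,
    h, pm, p0, fun v => ⟨_, hs v, sp v⟩, pr, pb, fun a ha => ?_, pc⟩
  have : s (p a) * s (p a) = a * a := by
    rcases pe a ha with e | e <;> simp only [e, mul_assoc, h.lc, h.zz]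
  simp only [this]
  split_ifs with c
  · rw [ez0, c]
  · rw [ez1]; exact (h.sq ha).resolve_left c

namespace MD
variable {U : Type u} [AddCommGroup U] {p : C → U} {μ : C →* Equiv.Perm U} {q : U → ZMod 2} {B : U →+ U →+ ZMod 2}
  (h : MD z Q p μ q B)
include h

theorem cj (g : C) (ha : a ∈ Q) : g * a * g⁻¹ ∈ Q := h.nm.conj_mem a ha g
theorem pe (ha : a ∈ Q) (hb : b ∈ Q) (e : p a = p b) : a = b ∨ a = z * b := by
  have f := h.pm _ (mul_mem ha (inv_mem hb)) b hb
  rw [inv_mul_cancel_right, e, right_eq_add, h.p0 _ (mul_mem ha (inv_mem hb))] at f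
  exact f.imp mul_inv_eq_one.1 mul_inv_eq_iff_eq_mul.1
theorem pez (x : ZMod 2) (ha : a ∈ Q) : p (ez z x * a) = p a := by
  rcases z2c x with rfl | rfl
  · rw [ez0, one_mul]
  · rw [ez1, h.pm _ h.zQ _ ha, (h.p0 _ h.zQ).2 (Or.inr rfl), zero_add]
theorem add (g : C) (u v : U) : μ g (u + v) = μ g u + μ g v := by
  obtain ⟨a, ha, rfl⟩ := h.ps u
  obtain ⟨b, hb, rfl⟩ := h.ps v
  rw [← h.pm a ha b hb, h.pr _ _ (mul_mem ha hb), h.pr _ _ ha, h.pr _ _ hb, ← h.pm _ (h.cj g ha) _ (h.cj g hb), conj_mul]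
theorem two (u : U) : u + u = 0 := by
  obtain ⟨a, ha, rfl⟩ := h.ps u
  rw [← h.pm a ha a ha, h.p0 _ (mul_mem ha ha)]
  exact h.sq ha
theorem hq (u v : U) : q (u + v) = q u + q v + B u v := by
  obtain ⟨a, ha, rfl⟩ := h.ps u
  obtain ⟨b, hb, rfl⟩ := h.ps v
  apply h.ezi
  rw [add_comm (p a), ← h.pm b hb a ha, ← h.pq _ (mul_mem hb ha), mul_assoc, ← mul_assoc a, h.pb a ha b hb, mul_assoc, h.ezl, mul_assoc,
    h.pq a ha, ← mul_assoc b, h.pq b hb, ← h.eza, ← h.eza]
  congr 1; abel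
theorem nd (u : U) (e : ∀ v, B u v = 0) : u = 0 := by
  obtain ⟨a, ha, rfl⟩ := h.ps u
  exact (h.p0 a ha).2 (h.ct a fun b hb => by rw [h.pb a ha b hb, e, ez0, one_mul])
theorem inv (g : C) (u : U) : q (μ g u) = q u := by
  obtain ⟨a, ha, rfl⟩ := h.ps u
  apply h.ezi
  rw [h.pr g a ha, ← h.pq _ (h.cj g ha), conj_mul, h.pq a ha, h.ezc, mul_inv_cancel_right]
theorem ker (ha : a ∈ Q) : μ a = 1 := Equiv.ext fun u => by
  obtain ⟨b, hb, rfl⟩ := h.ps u
  rw [h.pr a b hb, h.pb a ha b hb, mul_assoc, mul_inv_cancel_right, h.pez _ hb]; rfl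
theorem triv (e : μ g = 1) (ha : a ∈ Q) : g * a * g⁻¹ = a ∨ g * a * g⁻¹ = z * a :=
  h.pe (h.cj g ha) ha (by rw [← h.pr g a ha, e]; rfl)
theorem sqk (e : μ g = 1) : g * g = 1 ∨ g * g = z := h.ct _ fun a ha => mul_inv_eq_iff_eq_mul.1 (by
  rw [show g * g * a * (g * g)⁻¹ = g * (g * a * g⁻¹) * g⁻¹ by group]
  rcases h.triv e ha with f | f
  · rw [f, f]
  · rw [f, h.lc, mul_assoc, f, h.zz])
theorem odd (e : μ g = 1) (f : g ^ 3 = 1) : g = 1 := by
  rw [pow_succ, pow_two] at f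
  rcases h.sqk e with c | c <;> rw [c] at f
  · rwa [one_mul] at f
  · have := eq_inv_of_mul_eq_one_right f
    rw [this, ← mul_inv_rev, h.z2, inv_one] at c
    exact absurd c.symm h.z1
end MD

end CfH5.JC
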