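import Cfsg.Agent.H5.JC1

/-! The canonical section and the coded model of the extraspecial group. -/

set_option autoImplicit false
set_option maxRecDepth 100000
set_option linter.unusedSectionVars false

namespace CfH5.JC

open Subgroup CfH9 CfH6 CfH3.J4 CfH3.He

theorem qq_xor (a b : ℕ) : qq (a ^^^ b) = qq a ^^^ qq b ^^^ bb a b := by
  have h : ∀ x y, lo6 x &&& hi6 y < 64 := fun x y => Nat.lt_of_le_of_lt Nat.and_le_left (lo6_lt _)
  have h' : ∀ x y, hi6 x &&& lo6 y < 64 := fun x y => Nat.lt_of_le_of_lt Nat.and_le_left (hi6_lt _)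
  show par (lo6 (a ^^^ b) &&& hi6 (a ^^^ b)) = par (lo6 a &&& hi6 a) ^^^ par (lo6 b &&& hi6 b) ^^^
    par ((lo6 a &&& hi6 b) ^^^ (hi6 a &&& lo6 b))
  rw [← par_xor (h _ _) (h _ _), ← par_xor (Nat.xor_lt_two_pow (n := 6) (h _ _) (h _ _)) (Nat.xor_lt_two_pow (n := 6) (h _ _) (h' _ _)),
    lo6_xor, hi6_xor, Nat.and_xor_distrib_right, Nat.and_xor_distrib_left, Nat.and_xor_distrib_left, Nat.and_comm (hi6 a)]
  congr 1
  ac_rfl
theorem cast_xor (x y : ℕ) : ((x ^^^ y : ℕ) : ZMod 2) = x + y := by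
  rw [← Nat.cast_add, ZMod.natCast_eq_natCast_iff', Nat.xor_mod_two_eq]
theorem xor12 {a b : ℕ} (ha : a < 4096) (hb : b < 4096) : a ^^^ b < 4096 := Nat.xor_lt_two_pow (n := 12) ha hb
theorem bb_lo (a : ℕ) {b : ℕ} (hb : b < 8192) : bb a (lo b) = bb a b := by
  rcases (one_spec hb).2.1 with e | e
  · rw [e]
  · conv_rhs => rw [← e, bb_xor', bb_comm a 4096, bb_top (x := 1) (by omega), Nat.xor_zero]
theorem lin {U : Type*} [AddCommGroup U] {F F' : ℕ → U} (h : ∀ a < 4096, ∀ b < 4096, F (a ^^^ b) = F a + F b)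
    (h' : ∀ a < 4096, ∀ b < 4096, F' (a ^^^ b) = F' a + F' b) (e : ∀ b ∈ B12, F b = F' b) : ∀ c < 4096, F c = F' c := by
  have h0 : F 0 = F' 0 := by
    have := h 0 (by omega) 0 (by omega)
    have := h' 0 (by omega) 0 (by omega)
    simp_all
  intro c hc
  have := ind (P := fun c => F (lo c) = F' (lo c)) h0 h0 (fun b hb => by rw [lo_of_lt (b12 b hb), e b hb])
    (fun a _ b _ h1 h2 => by rw [lo_mq, h _ (lo_lt _) _ (lo_lt _), h' _ (lo_lt _) _ (lo_lt _), h1, h2]) c (by omega)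
  rwa [lo_of_lt hc] at this
noncomputable def weq (u w : List ℕ) : Bool :=
  u.all (fun x => Nat.blt x 7) && w.all (fun x => Nat.blt x 7) && B12.all fun b => Nat.beq (wu u b) (wu w b)
def tr (w : List ℕ) : List ℕ := w.flatMap fun i => kw i 1
def RL : List (List ℕ) := [[0, 2, 0, 2, 0, 2], [1, 2, 1, 2, 1, 2], [2, 3, 2, 3, 2, 3], [3, 4, 3, 4, 3, 4], RW ++ RW ++ RW]
theorem chk : (weq RW [6] = true ∧ weq [5, 6] [6, 6, 5] = true ∧ weq [5, 5] [] = true ∧ CfH3.J4.sg RW = 0 ∧ RW ∈ M22B.rels) ∧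
    (∀ i < 5, weq [5, i] (kw i 1 ++ [5]) = true ∧ weq [i, i] [] = true ∧ ∀ b ∈ B12, ext (mA i) b = au i b) ∧
    (∀ b ∈ B12, ext mK b = au 5 b ∧ ext mR b = au 6 b ∧ au 6 (au 6 b) = au 7 b ∧ b ^^^ au 6 b = au 7 b) ∧
    (∀ w ∈ RL, (∀ x ∈ w, x < 5) ∧ weq w [] = true ∧ CfH3.J4.sg w = 0 ∧ weq (tr w) [] = true ∧ CfH3.J4.sg (tr w) = 0) ∧
    al (fun c => Nat.beq (Nat.shiftRight (ap 6 c) 12) (Nat.shiftRight c 12)) 8192 = true := by decide +kernel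

universe u
variable {C : Type u} [Group C] {Q : Subgroup C} {z a b g r s t : C} {U : Type u} [AddCommGroup U] {p : C → U}
  {μ : C →* Equiv.Perm U} {q : U → ZMod 2} {B : U →+ U →+ ZMod 2} {u v : U} {φ : ℕ → U}

def Can (Q : Subgroup C) (p : C → U) (r s : C) (u : U) : Prop := s ∈ Q ∧ p s = u ∧ s * (r * s * r⁻¹) * (r⁻¹ * s * r⁻¹⁻¹) = 1

namespace MD
variable (h : MD z Q p μ q B)
include h

theorem bs (u v : U) : B u v = B v u := by
  have := h.hq u v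
  rwa [add_comm u, h.hq, add_comm (q v), add_right_inj, eq_comm] at this
theorem bi (g : C) (u v : U) : B (μ g u) (μ g v) = B u v := by
  have := h.hq (μ g u) (μ g v)
  rwa [← h.add, h.inv, h.inv, h.inv, h.hq, add_right_inj, eq_comm] at this
theorem nz (x : ZMod 2) (r s : C) : ez z x * s * (r * (ez z x * s) * r⁻¹) * (r⁻¹ * (ez z x * s) * r⁻¹⁻¹) =
    ez z x * (s * (r * s * r⁻¹) * (r⁻¹ * s * r⁻¹⁻¹)) := by
  rcases z2c x with rfl | rfl <;> simp only [ez0, ez1, one_mul, mul_assoc, h.lc, h.zz]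
theorem cu (h1 : Can Q p r s u) (h2 : Can Q p r t u) : s = t := (h.pe h1.1 h2.1 (h1.2.1.trans h2.2.1.symm)).resolve_right fun e => by
  have := h.nz 1 r t
  rw [ez1, ← e, h1.2.2, h2.2.2, mul_one] at this
  exact h.z1 this.symm
theorem cc (e : g * r = r * g) (h1 : Can Q p r s u) : Can Q p r (g * s * g⁻¹) (μ g u) :=
  ⟨h.cj g h1.1, by rw [← h.pr g s h1.1, h1.2.1], by
    have e1 : r = g * r * g⁻¹ := eq_mul_inv_iff_mul_eq.2 e.symm
    calc _ = g * s * g⁻¹ * (g * r * g⁻¹ * (g * s * g⁻¹) * (g * r * g⁻¹)⁻¹) * ((g * r * g⁻¹)⁻¹ * (g * s * g⁻¹) * (g * r * g⁻¹)⁻¹⁻¹) := by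
          rw [← e1]
      _ = g * (s * (r * s * r⁻¹) * (r⁻¹ * s * r⁻¹⁻¹)) * g⁻¹ := by group
      _ = 1 := by rw [h1.2.2]; group⟩
variable (hr : ∀ u, u + μ r u = μ r⁻¹ u)
include hr
theorem ce (u : U) : ∃ s, Can Q p r s u := by
  obtain ⟨a, ha, rfl⟩ := h.ps u
  have h1 := mul_mem ha (h.cj r ha)
  have := (h.p0 _ (mul_mem h1 (h.cj r⁻¹ ha))).1 (by
    rw [h.pm _ h1 _ (h.cj _ ha), h.pm _ ha _ (h.cj _ ha), ← h.pr _ _ ha, ← h.pr _ _ ha, hr, h.two])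
  rcases this with e | e
  · exact ⟨a, ha, rfl, e⟩
  · exact ⟨ez z 1 * a, mul_mem (pow_mem h.zQ _) ha, h.pez _ ha, by rw [h.nz, e, ez1, h.z2]⟩
theorem cmul (h1 : Can Q p r s u) (h2 : Can Q p r t v) : Can Q p r (ez z (B (μ r⁻¹ u) v) * (s * t)) (u + v) := by
  obtain ⟨hs, rfl, e1⟩ := h1
  obtain ⟨ht, rfl, e2⟩ := h2
  refine ⟨mul_mem (pow_mem h.zQ _) (mul_mem hs ht), by rw [h.pez _ (mul_mem hs ht), h.pm _ hs _ ht], ?_⟩
  rw [h.nz, ← conj_mul, ← conj_mul]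
  have a1 := h.pb _ ht _ (h.cj r hs)
  have a2 := h.pb _ (mul_mem ht (h.cj r ht)) _ (h.cj r⁻¹ hs)
  rw [h.pm _ ht _ (h.cj r ht), ← h.pr _ _ ht, hr, ← h.pr _ _ hs, h.bi] at a2
  rw [← h.pr _ _ hs] at a1
  generalize r * s * r⁻¹ = s1 at *
  generalize r⁻¹ * s * r⁻¹⁻¹ = s2 at *
  generalize r * t * r⁻¹ = t1 at *
  generalize r⁻¹ * t * r⁻¹⁻¹ = t2 at *
  calc _ = ez z (B (μ r⁻¹ (p s)) (p t)) * (s * (t * s1 * (t1 * (s2 * t2)))) := by simp only [mul_assoc]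
    _ = ez z (B (μ r⁻¹ (p s)) (p t)) * (ez z (B (p t) (μ r (p s))) * (s * (s1 * (t * t1 * s2 * t2)))) := by
      rw [a1, mul_assoc (ez z _) (s1 * t), h.ezl _ s]; simp only [mul_assoc]
    _ = ez z (B (μ r⁻¹ (p s)) (p t)) * (ez z (B (p t) (μ r (p s))) * (ez z (B (p t) (p s)) * (s * s1 * s2 * (t * t1 * t2)))) := by
      rw [a2, mul_assoc (ez _ _), h.ezl _ s1, h.ezl _ s]; simp only [mul_assoc]
    _ = 1 := by
      rw [e1, e2, mul_one, mul_one, ← h.eza, ← map_add, add_comm (μ r _), hr, h.bs (p t), ← h.eza, CharTwo.add_self_eq_zero, ez0]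
theorem fix (e : g * r = r * g) (f : μ g = 1) : g = 1 ∨ g = z := h.ct g fun a ha => by
  obtain ⟨s, hs⟩ := h.ce hr (p a)
  have h1 := h.cc e hs
  rw [f] at h1
  have := mul_inv_eq_iff_eq_mul.1 (h.cu h1 hs)
  rcases h.pe ha hs.1 hs.2.1.symm with c | c <;> rw [c]
  · exact this
  · rw [h.lc, this, mul_assoc]
omit hr

variable (fa : ∀ a < 4096, ∀ b < 4096, φ (a ^^^ b) = φ a + φ b) (fs : ∀ u, ∃ c < 4096, φ c = u)
include fa
theorem au1 {i : ℕ} (hi : i < 25) (e : ∀ b ∈ B12, μ g (φ b) = φ (au i b)) : ∀ c < 4096, μ g (φ c) = φ (au i c) :=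
  lin (fun a ha b hb => by rw [fa a ha b hb, h.add]) (fun a _ b _ => by rw [au_xor hi, fa _ (au_lt _ _) _ (au_lt _ _)]) e
include fs
theorem weq_sound {L : ℕ → C} (hL : ∀ i < 7, ∀ c < 4096, μ (L i) (φ c) = φ (au i c)) {w w' : List ℕ} (e : weq w w' = true) :
    μ (evw L w) = μ (evw L w') := by
  have k : ∀ w : List ℕ, w.all (fun x => Nat.blt x 7) = true → ∀ c < 4096, wu w c < 4096 ∧ μ (evw L w) (φ c) = φ (wu w c) :=
    fun w hw c hc => by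
    induction w with
    | nil => exact ⟨hc, by rw [evw_nil, map_one]; rfl⟩
    | cons i w ih =>
      rw [List.all_cons, Bool.and_eq_true, Nat.blt_eq] at hw
      rw [wu_cons, blt_t (by omega), cond_true, evw_cons, map_mul, Equiv.Perm.mul_apply, (ih hw.2).2]
      exact ⟨au_lt _ _, hL i hw.1 _ (ih hw.2).1⟩
  rw [weq, Bool.and_eq_true, Bool.and_eq_true] at e
  ext u
  obtain ⟨c, hc, rfl⟩ := fs u
  exact lin (F := fun c => μ (evw L w) (φ c)) (F' := fun c => μ (evw L w') (φ c)) (fun a ha b hb => by rw [fa a ha b hb, h.add])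
    (fun a ha b hb => by rw [fa a ha b hb, h.add]) (fun b hb => by
      rw [(k w e.1.1 b (b12 b hb)).2, (k w' e.1.2 b (b12 b hb)).2, Nat.eq_of_beq_eq_true (List.all_eq_true.1 e.2 b hb)]) c hc
variable (r3 : r ^ 3 = 1) (ra : ∀ c < 4096, μ r (φ c) = φ (au 6 c))
include r3 ra
theorem r7 : (∀ c < 4096, μ r⁻¹ (φ c) = φ (au 7 c)) ∧ ∀ u, u + μ r u = μ r⁻¹ u := by
  have k := h.au1 fa (g := r⁻¹) (i := 7) (by omega) fun b hb => by
    rw [inv_eq_of_mul_eq_one_left (show r * r * r = 1 by rw [← r3, pow_succ, pow_two]), map_mul, Equiv.Perm.mul_apply, ra b (b12 b hb),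
      ra _ (au_lt _ _), (chk.2.2.1 b hb).2.2.1]
  refine ⟨k, fun u => ?_⟩
  obtain ⟨c, hc, rfl⟩ := fs u
  exact lin (F := fun c => φ c + μ r (φ c)) (F' := fun c => μ r⁻¹ (φ c)) (fun a ha b hb => by rw [fa a ha b hb, h.add]; abel)
    (fun a ha b hb => by rw [fa a ha b hb, h.add]) (fun b hb => by
      rw [ra b (b12 b hb), k b (b12 b hb), ← fa b (b12 b hb) _ (au_lt _ _), (chk.2.2.1 b hb).2.2.2]) c hc
theorem model (fq : ∀ c < 4096, q (φ c) = (qq c : ℕ)) : ∃ ψ : ℕ → C, Q0 z ψ ∧ (∀ c, ψ c ∈ Q ∧ p (ψ c) = φ (lo c)) ∧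
    (∀ a ∈ Q, InQ ψ a) ∧ Act ψ r (ap 6) := by
  obtain ⟨r7, hr⟩ := h.r7 fa fs r3 ra
  choose σ hσ using h.ce hr
  have fb : ∀ a < 4096, ∀ b < 4096, B (φ a) (φ b) = (bb a b : ℕ) := fun a ha b hb => by
    have := h.hq (φ a) (φ b)
    rwa [← fa a ha b hb, fq _ (xor12 ha hb), fq a ha, fq b hb, qq_xor, cast_xor, cast_xor, add_right_inj, eq_comm] at this
  have f0 : φ 0 = 0 := by simpa using fa 0 (by omega) 0 (by omega)
  have D : Q0 z fun c => ez z (c >>> 12 : ℕ) * σ (φ (lo c)) := ⟨fun {a b} ha hb => by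
    rw [lo_mq, fa _ (lo_lt _) _ (lo_lt _), h.cu (hσ _) (h.cmul hr (hσ _) (hσ _)), r7 _ (lo_lt _), fb _ (au_lt _ _) _ (lo_lt _), au_lo,
      bb_lo _ hb, mq_eq, Nat.shiftRight_xor_distrib, Nat.shiftRight_xor_distrib, cast_xor, cast_xor,
      show (4096 * bb (au 7 a) b) >>> 12 = bb (au 7 a) b by rw [Nat.shiftRight_eq_div_pow]; omega, ← mul_assoc, ← h.eza, add_assoc,
      CharTwo.add_self_eq_zero, add_zero, h.eza, mul_assoc, mul_assoc, h.ezl _ (σ _)], by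
    rw [show lo 4096 = 0 from rfl, f0, h.cu (hσ 0) (t := 1) ⟨one_mem _, (h.p0 _ (one_mem _)).2 (Or.inl rfl), by simp⟩, mul_one]
    exact ez1, h.z1⟩
  refine ⟨_, D, fun c => ⟨mul_mem (pow_mem h.zQ _) (hσ _).1, by rw [h.pez _ (hσ _).1, (hσ _).2.1]⟩, fun a ha => ?_, fun c hc => ⟨ap_lt _ _, ?_⟩⟩
  · obtain ⟨c, hc, e⟩ := fs (p a)
    have k : ez z (c >>> 12 : ℕ) * σ (φ (lo c)) = σ (p a) := by
      rw [show c >>> 12 = 0 by rw [Nat.shiftRight_eq_div_pow]; omega, lo_of_lt hc, e, Nat.cast_zero, ez0, one_mul]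
    rcases h.pe ha (hσ (p a)).1 (hσ _).2.1.symm with f | f
    · exact ⟨c, by omega, k.trans f.symm⟩
    · exact ⟨c ^^^ 4096, xor13 (by omega) (by omega), (D.xz (by omega)).1.trans (by rw [k, ← f])⟩
  · have := Nat.eq_of_beq_eq_true (al_iff.1 chk.2.2.2.2 c hc)
    show _ = ez z (ap 6 c >>> 12 : ℕ) * σ (φ (lo (ap 6 c)))
    rw [show ap 6 c >>> 12 = c >>> 12 from this, lo_ap, ← au_lo, ← ra _ (lo_lt c), ← h.cu (h.cc rfl (hσ _)) (hσ _), h.ezl, mul_assoc]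
end MD

end CfH5.JC
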