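import Cfsg.Agent.H5.JC2
import Cfsg.Agent.OD.Helper5x7f40a59c2e

/-! Assembly of the coded model of the centraliser. -/

set_option autoImplicit false
set_option maxRecDepth 100000
set_option linter.unusedSectionVars false

namespace CfH5.JC

open Subgroup CfH9 CfH6 CfH3.J4 CfH3.He

universe u
variable {C : Type u} [Group C] {Q M : Subgroup C} {z a b g r k y : C} {U : Type u} [AddCommGroup U] {p : C → U}
  {μ : C →* Equiv.Perm U} {q : U → ZMod 2} {B : U →+ U →+ ZMod 2} {φ : ℕ → U} {π : C → M22B.G}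

theorem zp3 (r3 : r ^ 3 = 1) (hy : y ∈ zpowers r) : y ^ 3 = 1 := by
  obtain ⟨j, rfl⟩ := hy
  show (r ^ j) ^ 3 = 1
  rw [← zpow_natCast, ← zpow_mul, mul_comm, zpow_mul, zpow_natCast, r3, one_zpow]
theorem zpc (e : g * r = r * g) (hy : y ∈ zpowers r) : g * y = y * g := by
  obtain ⟨j, rfl⟩ := hy
  exact (Commute.zpow_right e j).eq

theorem par0 {κ : ℕ → ℕ} (hκ : ∀ i < 5, κ i < 2) (par : ∀ w ∈ RL, (w.map κ).sum % 2 = 0) : ∀ i < 5, κ i = 0 := by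
  have k : ∀ a < 2, ∀ b < 2, ∀ c < 2, ∀ d < 2, ∀ e < 2, (∀ w ∈ RL, (w.map fun i => [a, b, c, d, e].getD i 0).sum % 2 = 0) →
    ∀ i < 5, [a, b, c, d, e].getD i 0 = 0 := fun a _ b _ c _ d _ e _ => by
    interval_cases a <;> interval_cases b <;> interval_cases c <;> interval_cases d <;> interval_cases e <;> decide +kernel
  have e : ∀ i < 5, [κ 0, κ 1, κ 2, κ 3, κ 4].getD i 0 = κ i := fun i hi => by interval_cases i <;> rfl
  intro i hi
  rw [← e i hi]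
  exact k _ (hκ 0 (by omega)) _ (hκ 1 (by omega)) _ (hκ 2 (by omega)) _ (hκ 3 (by omega)) _ (hκ 4 (by omega))
    (fun w hw => (List.map_congr_left fun x hx => e x ((chk.2.2.2.1 w hw).1 x hx)).symm ▸ par w hw) i hi

theorem MD.lift (h : MD z Q p μ q B) (hX : M22X.{u}) (r3 : r ^ 3 = 1) (hr : ∀ u, u + μ r u = μ r⁻¹ u) (hQM : Q ≤ M) (rM : r ∈ M)
    (hπ : ∀ a ∈ M, ∀ b ∈ M, π (a * b) = π a * π b) (hN : ∀ m ∈ M, π m = 1 ↔ ∃ a ∈ Q, ∃ y ∈ zpowers r, a * y = m)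
    (hs : ∀ y, ∃ m ∈ M, m * r = r * m ∧ π m = y) : ∃ (ev : ℕ → C) (ε : ℕ), ε < 2 ∧
    (∀ x < 5, ev x ∈ M ∧ ev x * r = r * ev x ∧ ev x * ev x = 1 ∧ π (ev x) = M22B.el x) ∧
    ∀ w : List ℕ, (∀ x ∈ w, x < 5) → evw M22B.el w = 1 → ∃ y ∈ zpowers r, evw ev w = z ^ (ε * CfH3.J4.sg w) * y := by
  let K : Subgroup C := M ⊓ Cx(r)
  let R : Subgroup K := (zpowers r).subgroupOf K
  have : R.Normal := ⟨fun n hn g => by
    show g.1 * n.1 * g.1⁻¹ ∈ zpowers r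
    rwa [zpc (y := n.1) (mem_Cx.1 g.2.2) hn, mul_inv_cancel_right]⟩
  let ρ : K →* M22B.G := MonoidHom.mk' (fun m => π m) fun a b => hπ _ a.2.1 _ b.2.1
  let z' : K := ⟨z, hQM h.zQ, mem_Cx.2 (h.zc r).symm⟩
  have hρ : ∀ x ∈ R, ρ x = 1 := fun x hx => (hN _ x.2.1).2 ⟨1, one_mem _, x, hx, one_mul _⟩
  obtain ⟨e, ε, h1, h2, h3⟩ := hX (z' : K ⧸ R) (QuotientGroup.lift R ρ hρ) (fun y => by
      obtain ⟨m, hm, e, f⟩ := hs y
      exact ⟨(⟨m, hm, mem_Cx.2 e⟩ : K), f⟩)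
    (by rw [← QuotientGroup.mk_mul, show z' * z' = 1 from Subtype.ext h.z2]; rfl)
    (fun g => by
      obtain ⟨g, rfl⟩ := QuotientGroup.mk_surjective g
      rw [← QuotientGroup.mk_mul, ← QuotientGroup.mk_mul, show g * z' = z' * g from Subtype.ext (h.zc _)])
    (fun g hg => by
      obtain ⟨g, rfl⟩ := QuotientGroup.mk_surjective g
      obtain ⟨a, ha, y, hy, e⟩ := (hN _ g.2.1).1 hg
      have := h.fix hr (g := a) (by
        rw [eq_mul_inv_of_mul_eq e, mul_assoc, ← zpc rfl (inv_mem hy), ← mul_assoc, mem_Cx.1 g.2.2, mul_assoc]) (h.ker ha)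
      refine this.imp (fun c => (QuotientGroup.eq_one_iff _).2 ?_) fun c => (QuotientGroup.eq.2 ?_).symm
      · show g.1 ∈ zpowers r
        rwa [← e, c, one_mul]
      · show z⁻¹ * g.1 ∈ zpowers r
        rwa [← e, c, inv_mul_cancel_left])
  choose s hs using fun x => QuotientGroup.mk_surjective (e x)
  have k : ∀ x < 5, ((s x ^ 3 : K) : K ⧸ R) = e x := fun x hx => by
    rw [QuotientGroup.mk_pow, hs, pow_succ, pow_two, (h2 x hx).2, one_mul]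
  refine ⟨fun x => (s x ^ 3 : K), ε, h1, fun x hx => ⟨(s x ^ 3).2.1, mem_Cx.1 (s x ^ 3).2.2, ?_, ?_⟩, fun w hw e => ?_⟩
  · have := zp3 r3 ((QuotientGroup.eq_one_iff (N := R) (s x * s x)).1 (by rw [QuotientGroup.mk_mul, hs, (h2 x hx).2]))
    rw [← this]
    show (s x).1 ^ 3 * (s x).1 ^ 3 = ((s x).1 * (s x).1) ^ 3
    rw [← pow_add, ← pow_two, ← pow_mul]
  · rw [← (h2 x hx).1, ← k x hx]; rfl
  · have := h3 w hw e
    rw [← evw_congr k hw, ← QuotientGroup.mk_pow, show evw (fun x => ((s x ^ 3 : K) : K ⧸ R)) w = _ from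
      (map_evw (QuotientGroup.mk' R) _ w).symm, eq_comm, QuotientGroup.mk'_apply] at this
    refine ⟨_, (QuotientGroup.eq (s := R)).1 this, ?_⟩
    rw [show evw (fun x => ((s x ^ 3 : K) : C)) w = _ from (map_evw K.subtype (fun x => s x ^ 3) w).symm]
    simp [z']

theorem MD.core (h : MD z Q p μ q B) (hX : M22X.{u}) (r3 : r ^ 3 = 1) (r1 : r ≠ 1) (hQM : Q ≤ M) (rM : r ∈ M) (hM : M.index = 2)
    (hπ : ∀ a ∈ M, ∀ b ∈ M, π (a * b) = π a * π b) (hN : ∀ m ∈ M, π m = 1 ↔ ∃ a ∈ Q, ∃ y ∈ zpowers r, a * y = m)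
    (hK : ∀ m ∈ M, μ m = 1 → π m = 1) (hs : ∀ y, ∃ m ∈ M, m * r = r * m ∧ π m = y)
    (fa : ∀ a < 4096, ∀ b < 4096, φ (a ^^^ b) = φ a + φ b) (fs : ∀ u, ∃ c < 4096, φ c = u) (fq : ∀ c < 4096, q (φ c) = (qq c : ℕ))
    (ra : ∀ c < 4096, μ r (φ c) = φ (ext mR c))
    (hA : ∀ x < 5, ∀ m ∈ M, m * r = r * m → π m = M22B.el x → ∃ y ∈ zpowers r, ∀ c < 4096, μ (m * y) (φ c) = φ (ext (mA x) c))
    (hk : k ∉ M) (kr : k * r * k⁻¹ = r ∨ k * r * k⁻¹ = r⁻¹) (ka : ∀ c < 4096, μ k (φ c) = φ (ext mK c))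
    (hc : Nat.card C = 21799895040) : ∃ (ψ ev : ℕ → C) (e1 e2 : ℕ), CD z ψ ev k e1 e2 := by
  replace ra := h.au1 fa (i := 6) (by omega) fun b hb => (ra b (b12 b hb)).trans (congrArg φ (chk.2.2.1 b hb).2.1)
  replace ka := h.au1 fa (i := 5) (by omega) fun b hb => (ka b (b12 b hb)).trans (congrArg φ (chk.2.2.1 b hb).1)
  obtain ⟨-, hr⟩ := h.r7 fa fs r3 ra
  obtain ⟨ψ, D, pψ, sψ, ar⟩ := h.model fa fs r3 ra fq
  obtain ⟨ev, ε, hε, e1, e2⟩ := h.lift hX r3 hr hQM rM hπ hN hs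
  have od : ∀ y ∈ zpowers r, μ y = 1 → y = 1 := fun y hy e => h.odd e (zp3 r3 hy)
  have ct : ∀ g : C, g ∈ Cx(z) := fun g => mem_Cx.2 (h.zc g)
  choose! Y hY aY using fun x hx => hA x hx (ev x) (e1 x hx).1 (e1 x hx).2.1 (e1 x hx).2.2.2
  obtain ⟨L, L1, L5, L6⟩ : ∃ L : ℕ → C, (∀ i < 5, L i = ev i * Y i) ∧ L 5 = k ∧ L 6 = r :=
    ⟨fun i => if i < 5 then ev i * Y i else if i = 5 then k else r, fun i hi => if_pos hi, rfl, rfl⟩
  have hL : ∀ i < 7, ∀ c < 4096, μ (L i) (φ c) = φ (au i c) := fun i hi => by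
    by_cases c : i < 5
    · rw [L1 i c]
      exact h.au1 fa (by omega) fun b hb => (aY i c b (b12 b hb)).trans (congrArg φ ((chk.2.1 i c).2.2 b hb))
    · obtain rfl | rfl : i = 5 ∨ i = 6 := by omega
      exacts [L5 ▸ ka, L6 ▸ ra]
  have W := fun {w w' : List ℕ} => h.weq_sound fa fs hL (w := w) (w' := w')
  replace L1 : ∀ i < 5, L i = ev i := fun i hi => by
    have := W (chk.2.1 i hi).2.1
    rw [evw_cons, evw_cons, evw_nil, mul_one, map_one, L1 i hi, mul_assoc, ← mul_assoc (Y i), ← zpc (e1 i hi).2.1 (hY i hi), ← mul_assoc,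
      ← mul_assoc, (e1 i hi).2.2.1, one_mul] at this
    have c := zp3 r3 (hY i hi)
    rw [pow_succ, pow_two, od _ (mul_mem (hY i hi) (hY i hi)) this, one_mul] at c
    rw [L1 i hi, c, mul_one]
  have EW : ∀ {w : List ℕ}, (∀ x ∈ w, x < 5) → evw L w = evw ev w := fun hw => evw_congr L1 hw
  have mw : ∀ w : List ℕ, (∀ x ∈ w, x < 5) → evw ev w ∈ M ∧ π (evw ev w) = evw M22B.el w ∧ evw ev w * r = r * evw ev w := fun w hw => by
    induction w with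
    | nil => exact ⟨one_mem _, (hN _ (one_mem _)).2 ⟨1, one_mem _, 1, one_mem _, one_mul _⟩, by simp⟩
    | cons i w ih =>
      rw [List.forall_mem_cons] at hw
      obtain ⟨a1, a2, a3⟩ := ih hw.2
      obtain ⟨b1, b2, -, b3⟩ := e1 i hw.1
      rw [evw_cons, evw_cons, hπ _ b1 _ a1, a2, b3, mul_assoc, a3, ← mul_assoc, b2, mul_assoc]
      exact ⟨mul_mem b1 a1, rfl, rfl⟩
  have sgn : ∀ w : List ℕ, (∀ x ∈ w, x < 5) → μ (evw ev w) = 1 → evw ev w = z ^ (ε * CfH3.J4.sg w) := fun w hw e => by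
    obtain ⟨y, hy, f⟩ := e2 w hw ((mw w hw).2.1.symm.trans (hK _ (mw w hw).1 e))
    rw [f, map_mul, h.ker (pow_mem h.zQ _), one_mul] at e
    rw [f, od y hy e, mul_one]
  have hR : evw ev RW = r := by
    obtain ⟨y, hy, f⟩ := e2 RW (by decide) (M22B.hrel _ chk.1.2.2.2.2)
    rw [chk.1.2.2.2.1, mul_zero, pow_zero, one_mul] at f
    have := W chk.1.1
    rw [EW (by decide), f, evw_cons, evw_nil, mul_one, L6, ← mul_inv_eq_one, ← map_inv, ← map_mul] at this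
    rw [f, ← mul_inv_eq_one, od _ (mul_mem hy (inv_mem (mem_zpowers r))) this]
  replace kr : k * r * k⁻¹ = r⁻¹ := kr.resolve_left fun c => r1 (od r (mem_zpowers r) (by
    have := W chk.1.2.1
    simp only [evw_cons, evw_nil, mul_one, L5, L6] at this
    rwa [mul_inv_eq_iff_eq_mul.1 c, map_mul, map_mul μ r (r * k), map_mul, right_eq_mul] at this))
  have kr' : k * r⁻¹ * k⁻¹ = r := by rw [← conj_inv, kr, inv_inv]
  have fx : ∀ g, g * r = r * g → μ g = 1 → ∃ e < 2, g = z ^ e := fun g a b => (h.fix hr a b).elim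
    (fun c => ⟨0, by omega, c.trans (pow_zero z).symm⟩) fun c => ⟨1, by omega, c.trans (pow_one z).symm⟩
  obtain ⟨e', he', kk⟩ := fx (k * k) (mul_inv_eq_iff_eq_mul.1 (by
    rw [show k * k * r * (k * k)⁻¹ = k * (k * r * k⁻¹) * k⁻¹ by group, kr, kr'])) (by
    simpa only [evw_cons, evw_nil, mul_one, L5, map_one] using W chk.1.2.2.1)
  have kc : ∀ i < 5, ∃ e < 2, k * ev i * k⁻¹ = z ^ e * evw ev (kw i 1) := fun i hi => by
    have := W (chk.2.1 i hi).1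
    rw [evw_append, EW (kw_lt i 1)] at this
    simp only [evw_cons, evw_nil, mul_one, L5, L1 i hi] at this
    have c1 : Commute (k * ev i * k⁻¹) r := by
      rw [← kr']; exact (Commute.inv_right (e1 i hi).2.1).conj k
    obtain ⟨e, he, f⟩ := fx (k * ev i * k⁻¹ * (evw ev (kw i 1))⁻¹) (c1.mul_left (Commute.inv_left (mw _ (kw_lt i 1)).2.2)).eq (by
      rw [mul_assoc, ← mul_inv_rev, map_mul, map_inv, this, mul_inv_cancel])
    exact ⟨e, he, mul_inv_eq_iff_eq_mul.1 f⟩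
  choose! κ hκ kc using kc
  have kw' : ∀ w : List ℕ, (∀ x ∈ w, x < 5) → k * evw ev w * k⁻¹ = z ^ (w.map κ).sum * evw ev (tr w) := fun w hw => by
    induction w with
    | nil => simp [tr]
    | cons i w ih =>
      rw [List.forall_mem_cons] at hw
      rw [evw_cons, ← conj_mul, ih hw.2, kc i hw.1, tr, tr, List.flatMap_cons, evw_append, List.map_cons, List.sum_cons, pow_add,
        mul_assoc, mul_assoc, ← mul_assoc (evw _ _), (Commute.pow_right (h.zc _) _).eq, mul_assoc]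
  have par : ∀ w ∈ RL, (w.map κ).sum % 2 = 0 := fun w hw => by
    obtain ⟨a1, a2, a3, a4, a5⟩ := chk.2.2.2.1 w hw
    have a6 : ∀ x ∈ tr w, x < 5 := fun x hx => by
      obtain ⟨i, -, hi⟩ := List.mem_flatMap.1 hx
      exact kw_lt i 1 x hi
    have := kw' w a1
    rw [sgn w a1 (by rw [← EW a1, W a2]; exact map_one μ), sgn _ a6 (by rw [← EW a6, W a4]; exact map_one μ), a3, a5] at this
    exact h.ev _ (by simpa using this.symm)
  have κ0 := par0 hκ par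
  refine ⟨ψ, ev, ε, e', D, fun g e => h.ct g fun a ha => ?_, fun i hi => (e1 i hi).2.2.1, fun i _ => ct _, ct _, fun i hi c hc => ?_,
    by rw [hR]; exact ar, fun i hi => ?_, by rw [hR]; exact kr, fun i hi => ?_, kk, fun w hw e => sgn w hw ?_, fun H h1 h2 h3 g _ => ?_, ?_,
    fun g _ => ?_, hε, he'⟩
  · obtain ⟨c, hc, rfl⟩ := sψ a ha
    exact e c hc
  · have : l0 ev k i = L i := by
      by_cases c : i < 5
      · rw [l0_lt c, L1 i c]
      · obtain rfl : i = 5 := by omega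
        exact L5.symm
    refine h.pe (h.cj _ (pψ c).1) (pψ _).1 ?_
    rw [← h.pr _ _ (pψ c).1, (pψ c).2, (pψ _).2, this, hL i (by omega) _ (lo_lt c), au_lo, lo_of_lt (au_lt _ _)]
  · rw [hR, (e1 i hi).2.1, mul_inv_cancel_right]
  · rw [← mul_inv_eq_iff_eq_mul, kc i hi, κ0 i hi, pow_zero, one_mul]
  · obtain ⟨c, -, e⟩ := e
    exact h.ker (e ▸ (pψ c).1)
  · have : Finite M22B.G := Nat.finite_of_card_ne_zero (by rw [M22G.card]; omega)
    have hM' : M ≤ H := fun m hm => by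
      obtain ⟨x, ⟨x1, x2⟩, x3⟩ := mem_of_gens M22B.htop (MonoidHom.id _) ⟨⟨{y | ∃ x, (x ∈ H ∧ x ∈ M) ∧ π x = y}, by
        rintro _ _ ⟨a, ha, rfl⟩ ⟨b, hb, rfl⟩
        exact ⟨_, ⟨mul_mem ha.1 hb.1, mul_mem ha.2 hb.2⟩, hπ _ ha.2 _ hb.2⟩⟩, 1, ⟨one_mem _, one_mem _⟩, (mw [] (by simp)).2.1⟩
        (fun x hx => ⟨ev x, ⟨h2 x hx, (e1 x hx).1⟩, (e1 x hx).2.2.2⟩) (π m)
      have := hπ _ (mul_mem hm (inv_mem x2)) _ x2
      rw [inv_mul_cancel_right, x3, MonoidHom.id_apply, right_eq_mul] at this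
      obtain ⟨a, ha, y, hy, e⟩ := (hN _ (mul_mem hm (inv_mem x2))).1 this
      obtain ⟨c, hc, rfl⟩ := sψ a ha
      exact (mul_mem_cancel_right (inv_mem x1)).1 (e ▸ mul_mem (h1 c hc) (zpowers_le.2 (by rw [← hR]; exact evw_mem h2 (by decide)) hy))
    by_cases c : g ∈ M
    · exact hM' c
    · exact (mul_mem_cancel_right h3).1 (hM' ((mul_mem_iff_of_index_two hM).2 (iff_of_false c hk)))
  · rw [(eq_top_iff' _).2 ct, card_top, hc]
  · choose! f f1 f2 using fun c => sψ _ (h.cj g (pψ c).1)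
    exact ⟨f, fun c _ => ⟨f1 c, (f2 c).symm⟩⟩

end CfH5.JC
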