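import Cfsg.Agent.H5.Nat4
import Cfsg.Agent.H8.D0

/-! Centralisers `2^(1+8).Sp₆(2)` with the natural action: the involution is isolated. -/

set_option autoImplicit false
set_option maxRecDepth 100000
set_option linter.all false
open CfL hiding Tp Tm Zp Zm hZp hZm cZp cZm es_rels autp autm
open CfH6 CfH6.Co MulAction Subgroup CfH9
open CfH8.C3 (Sp A)
open CfH8.C2
open scoped Matrix

namespace CfH5.Nat

theorem sp_center (M : Sp) (h : ∀ N, N * M = M * N) : M = 1 := by
  have key : ∀ w, M.1 *ᵥ w = w := fun w => by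
    by_cases w0 : w = 0
    · rw [w0, Matrix.mulVec_zero]
    obtain ⟨x, hx⟩ : ∃ x, CfH2.sympB 3 (ZMod 2) x w ≠ 0 := by
      by_contra! k; exact w0 ((CfH2.sympB_nondeg 3).2 w k)
    have e := congrArg (fun N : Sp => N.1 *ᵥ x) (h ⟨_, CfH2.sympTransvection_mem 3 w 1⟩)
    simp only [Submonoid.coe_mul, ← Matrix.mulVec_mulVec, CfH2.sympTransvection_mulVec, Matrix.mulVec_add,
      Matrix.mulVec_smul, one_mul, add_right_inj] at e
    have t : ∀ a : ZMod 2, a = 0 ∨ a = 1 := by decide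
    rw [(t _).resolve_left hx, one_smul] at e
    rcases t (CfH2.sympB 3 (ZMod 2) (M.1 *ᵥ x) w) with f | f <;> rw [f] at e
    · have := congrArg (fun v => (M⁻¹).1 *ᵥ v) e
      simp only [zero_smul, Matrix.mulVec_zero, Matrix.mulVec_mulVec, ← Submonoid.coe_mul, inv_mul_cancel] at this
      exact absurd (by simpa using this.symm) w0
    · rw [← e, one_smul]
  exact Subtype.ext (Matrix.ext_of_mulVec_single fun i => by rw [key, Submonoid.coe_one, Matrix.one_mulVec])

theorem cm_of {T : Tab} {il : List ℕ} {rels : List (List ℕ)} {g : T.Good il rels} {Z : TE g} (zc : ∀ s, Z * s = s * Z)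
    (z2 : Z * Z = 1) (h : ∀ x < T.nc, ∀ a : TE g, T.R x 0 = a.1 → ∀ x < T.nc, ∀ b : TE g, T.R x 0 = b.1 →
      a * b = b * a ∨ a * b = Z * (b * a)) (a b : TE g) : a * b = b * a ∨ a * b = Z * (b * a) := by
  have zz : ∀ x, Z * (Z * x) = x := fun x => by rw [← mul_assoc, z2, one_mul]
  have sy : ∀ {a b}, a * b = b * a ∨ a * b = Z * (b * a) → b * a = a * b ∨ b * a = Z * (a * b) :=
    fun e => e.imp Eq.symm fun e => by rw [e, zz]
  let K : TE g → Subgroup (TE g) := fun b =>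
    { carrier := {a | a * b = b * a ∨ a * b = Z * (b * a)}
      one_mem' := Or.inl (by simp)
      mul_mem' := by
        rintro a c (e | e) (f | f)
        · left; rw [mul_assoc, f, ← mul_assoc, e, mul_assoc]
        · right; rw [mul_assoc, f, ← mul_assoc, ← zc, mul_assoc, ← mul_assoc a, e, mul_assoc]
        · right; rw [mul_assoc, f, ← mul_assoc, e, mul_assoc, mul_assoc]
        · left; rw [mul_assoc, f, ← mul_assoc, ← zc, mul_assoc, ← mul_assoc a, e, mul_assoc, zz, mul_assoc]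
      inv_mem' := by
        rintro a (e | e)
        · exact Or.inl (Commute.inv_left e)
        · right; rw [inv_mul_eq_iff_eq_mul, ← mul_assoc, ← zc, mul_assoc, ← mul_assoc a, e, mul_assoc, zz]; group }
  exact TE.top_of (K b) (fun x hx a e => sy (TE.top_of (K a) (fun x' hx' b e' => sy (h x hx a e x' hx' b e')) b)) a

theorem cmP : ∀ a b : Tp, a * b = b * a ∨ a * b = Zp * (b * a) := cm_of Zc (by decide +kernel) (by decide +kernel)
theorem cmM : ∀ a b : Tm, a * b = b * a ∨ a * b = Zm * (b * a) :=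
  cm_of ((cZm Zm).2 rfl).1 (by decide +kernel) (by decide +kernel)

section
variable {G T : Type*} [Group G] [Finite G] [Group T] {z : G} {Z : T} {ι : T →* G} {π : Cx(z) →* Sp}

theorem lx (h : Sx z Z ι π) (c : (∀ s, Z * s = s * Z) ∧ Z ≠ 1) (m : ∀ a b, a * b = b * a ∨ a * b = Z * (b * a))
    (n : Nat.card T = 512) : LX z ι.range where
  zQ := ⟨Z, h.z0⟩
  z1 := fun e => c.2 (h.inj (by rw [h.z0, e, map_one]))
  zc := by rintro _ ⟨a, rfl⟩; rw [← h.z0, ← map_mul, ← map_mul, c.1]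
  cm := by
    rintro _ ⟨a, rfl⟩ _ ⟨b, rfl⟩
    rw [← h.z0, ← map_mul, ← map_mul, ← map_mul]
    exact (m a b).imp (congrArg ι) (congrArg ι)
  cQ := (Nat.card_congr (ι.ofInjective h.inj).toEquiv).symm.trans n
  nm := by rintro g hg _ ⟨a, rfl⟩; exact h.nm g hg a
  ct := fun g e => h.ct g fun t => e _ ⟨t, rfl⟩

theorem cardC (h : Sx z Z ι π) (l : LX z ι.range) : Nat.card Cx(z) = 512 * 1451520 := by
  rw [← π.ker.card_mul_index, index_ker, MonoidHom.range_eq_top.2 h.sur, card_top, CfH8.C3.card_Sp6,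
    show π.ker = ι.range.subgroupOf Cx(z) from Subgroup.ext h.ker, card_subgroupOf fun a ha => mem_Cx.2 (l.zc a ha), l.cQ]

theorem nat (h : Sx z Z ι π) (l : LX z ι.range) (hn : Nat4 z ι) {u : G} (c : IsConj z u) (u1 : u ≠ z)
    (uz : u * z = z * u) : False := by
  obtain ⟨y, y2, ny⟩ := hn
  refine NS.main ⟨l, ⟨y, rfl⟩, y2, ny, cardC h l, fun c hc e => (h.ker ⟨c, mem_Cx.2 hc⟩).1 (sp_center _ fun N => ?_)⟩
    ⟨c, u1, uz⟩
  obtain ⟨k, rfl⟩ := h.sur N
  rw [← mul_inv_eq_one, mul_inv_rev, ← mul_assoc, ← map_inv, ← map_inv, ← map_mul, ← map_mul, ← map_mul]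
  exact (h.ker _).2 (e k (mem_Cx.1 k.2))
end

variable {G : Type*} [Group G] [Finite G] {z : G} {π : Cx(z) →* Sp}

theorem lxP {ι : Tp →* G} (h : Sx z Zp ι π) : LX z ι.range := lx h ((cZp Zp).2 rfl) cmP TE.card
theorem lxM {ι : Tm →* G} (h : Sx z Zm ι π) : LX z ι.range := lx h ((cZm Zm).2 rfl) cmM TE.card

theorem natP {ι : Tp →* G} (h : Sx z Zp ι π) (hn : Nat4 z ι) {u : G} (c : IsConj z u) (u1 : u ≠ z)
    (uz : u * z = z * u) : False := nat h (lxP h) hn c u1 uz

theorem natM {ι : Tm →* G} (h : Sx z Zm ι π) (hn : Nat4 z ι) {u : G} (c : IsConj z u) (u1 : u ≠ z)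
    (uz : u * z = z * u) : False := nat h (lxM h) hn c u1 uz

end CfH5.Nat
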