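import Cfsg.Agent.H5.Nat1

/-! A normal cyclic subgroup of order four: transitivity on the involutions centralising it. -/

set_option autoImplicit false
set_option linter.unusedSectionVars false

namespace CfH5.Nat

open Subgroup CfH9 CfH4

variable {G : Type*} [Group G] [Finite G] {Q A B K L : Subgroup G} {z y a b c s t u w g x : G}

structure NS (z y : G) (Q : Subgroup G) : Prop extends LX z Q where
  yQ : y ∈ Q
  y2 : y * y = z
  ny : ∀ g, g * z = z * g → g * y * g⁻¹ = y ∨ g * y * g⁻¹ = y⁻¹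
  cC : Nat.card Cx(z) = 512 * 1451520
  zq : ∀ c, c * z = z * c → (∀ k, k * z = z * k → k * c * k⁻¹ * c⁻¹ ∈ Q) → c ∈ Q

structure Inv (y : G) (Q A L : Subgroup G) : Prop where
  le : A ≤ Q ⊓ Cx(y)
  yA : y ∈ A
  lc : L ≤ Cx(y)
  al : A ≤ L
  nr : ∀ g ∈ L, ∀ x ∈ A, g * x * g⁻¹ ∈ A
  ce : ∀ g ∈ L, (∀ x ∈ A, g * x = x * g) → g ∈ zpowers y

namespace NS
variable (h : NS z y Q)
include h

theorem yi : y⁻¹ = z * y := inv_eq_of_mul_eq_one_right (by rw [← mul_assoc, h.zc y h.yQ, mul_assoc, h.y2, h.z2])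
theorem cy (e : g * y = y * g) : g * z = z * g := by rw [← h.y2, ← mul_assoc, e, mul_assoc, e, mul_assoc]
theorem zY : z ∈ zpowers y := h.y2 ▸ mul_mem (mem_zpowers y) (mem_zpowers y)
theorem exx : ∃ x ∈ Q, x * y ≠ y * x := by
  by_contra! k
  rcases h.ct y fun a ha => (k a ha).symm with e | e
  · exact h.z1 (by rw [← h.y2, e, mul_one])
  · exact h.z1 (by rw [← h.y2, e, h.z2])
theorem cY : Nat.card (zpowers y) = 4 := by
  have : Fact (Nat.Prime 2) := Nat.fact_prime_two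
  rw [Nat.card_zpowers]
  exact orderOf_eq_prime_pow (p := 2) (n := 1) (by rw [pow_one, pow_two, h.y2]; exact h.z1)
    (by rw [show 2 ^ (1 + 1) = 2 * 2 from rfl, pow_mul, pow_two y, h.y2, pow_two, h.z2])
theorem cT : Nat.card (Q ⊓ Cx(y) : Subgroup G) = 256 := by
  obtain ⟨x, hx, n⟩ := h.exx
  have := h.half' le_rfl h.yQ hx n
  rw [h.cQ] at this; omega
theorem zT : z ∈ Q ⊓ Cx(y) := ⟨h.zQ, mem_Cx.2 (h.zc y h.yQ).symm⟩
theorem yT : y ∈ Q ⊓ Cx(y) := ⟨h.yQ, mem_Cx.2 rfl⟩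
theorem czT : Q ⊓ Cz(Q ⊓ Cx(y)) = zpowers y := by
  have := h.cc inf_le_left h.zT
  rw [h.cT] at this
  exact (eq_of_le_of_card_ge (zpowers_le.2 (show y ∈ Q ⊓ Cz(Q ⊓ Cx(y)) from ⟨h.yQ, fun a ha => mem_Cx.1 ha.2⟩)) (by rw [h.cY]; omega)).symm
theorem memY (hx : x ∈ zpowers y) : x = 1 ∨ x = z ∨ x = y ∨ x = z * y := by
  obtain ⟨n, rfl⟩ := hx
  have o : orderOf y = 4 := by rw [← Nat.card_zpowers, h.cY]
  have := zpow_mod_orderOf y n
  rw [o] at this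
  have k : n % (4 : ℕ) = 0 ∨ n % (4 : ℕ) = 2 ∨ n % (4 : ℕ) = 1 ∨ n % (4 : ℕ) = 3 := by push_cast; omega
  change y ^ n = 1 ∨ y ^ n = z ∨ y ^ n = y ∨ y ^ n = z * y
  rw [← this, ← h.y2]
  rcases k with k | k | k | k <;> rw [k]
  · simp
  · right; left; exact zpow_two y
  · simp
  · right; right; right; exact (zpow_add_one y 2).trans (by rw [zpow_two])

theorem sqy (hx : x ∈ Q ⊓ Cx(y)) : x * y * (x * y) = z * (x * x) := by
  rw [mul_assoc, ← mul_assoc y, ← mem_Cx.1 hx.2, mul_assoc, h.y2, ← mul_assoc, h.zc _ (mul_mem hx.1 hx.1)]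

theorem fixi (hx : x ∈ Q ⊓ Cx(y)) : x * x = 1 ∨ x * y * (x * y) = 1 :=
  (h.sq hx.1).imp id fun e => by rw [h.sqy hx, e, h.z2]

theorem nT (hg : g * z = z * g) (hx : x ∈ Q ⊓ Cx(y)) : g * x * g⁻¹ ∈ Q ⊓ Cx(y) := by
  refine ⟨h.nm g hg x hx.1, mem_Cx.2 ?_⟩
  have := (cj_comm g).2 (mem_Cx.1 hx.2)
  rcases h.ny g hg with e | e <;> rw [e] at this
  · exact this
  · exact (Commute.inv_right_iff.1 this :)

/-- the centraliser of `C_Q(y)` lies in `Q` -/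
theorem cenT (e : ∀ x ∈ Q ⊓ Cx(y), c * x = x * c) : c ∈ zpowers y := by
  have key : ∀ c, (∀ x ∈ Q ⊓ Cx(y), c * x = x * c) → c ∈ Q ∨ ∀ s ∈ Q, s * y ≠ y * s →
      c * s * c⁻¹ = y * s ∨ c * s * c⁻¹ = z * (y * s) := fun c e => by
    have cz := e z h.zT
    have m : ∀ s ∈ Q, c * s * c⁻¹ * s⁻¹ ∈ zpowers y := fun s hs => h.czT ▸ ⟨Q.mul_mem (h.nm c cz s hs) (inv_mem hs), fun a ha => by
      have a1 := e _ (h.nT (g := s⁻¹) (h.zc _ (inv_mem hs)) ha)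
      have a2 := e a ha
      calc a * (c * s * c⁻¹ * s⁻¹) = (a * c) * s * c⁻¹ * s⁻¹ := by group
        _ = c * s * ((s⁻¹ * a * s⁻¹⁻¹) * c⁻¹) * s⁻¹ := by rw [← a2]; group
        _ = c * s * (c⁻¹ * (s⁻¹ * a * s⁻¹⁻¹)) * s⁻¹ := by rw [(Commute.inv_left a1).eq]
        _ = _ := by group⟩
    by_cases k : ∀ s ∈ Q, c * s * c⁻¹ = s ∨ c * s * c⁻¹ = z * s
    · exact Or.inl (h.inner cz k)
    push Not at k
    obtain ⟨x, hx, n1, n2⟩ := k
    have nx : x * y ≠ y * x := fun f => n1 (by rw [e x ⟨hx, mem_Cx.2 f⟩]; group)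
    refine Or.inr fun s hs ns => ?_
    have f := e _ ⟨Q.mul_mem (inv_mem hx) hs, mem_Cx.2 (h.aa (inv_mem hx) hs h.yQ
      (fun f => nx (Commute.inv_left_iff.1 f :)) ns)⟩
    have : c * s * c⁻¹ = c * x * c⁻¹ * x⁻¹ * s := by
      calc _ = c * x * c⁻¹ * (c * (x⁻¹ * s)) * c⁻¹ := by group
        _ = _ := by rw [f]; group
    rw [this]
    rcases h.memY (m x hx) with p | p | p | p
    · exact absurd (mul_inv_eq_one.1 p) n1
    · exact absurd (mul_inv_eq_iff_eq_mul.1 p) n2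
    · exact Or.inl (by rw [p])
    · exact Or.inr (by rw [p, mul_assoc])
  have cz := e z h.zT
  suffices c ∈ Q from h.czT ▸ ⟨this, fun a ha => (e a ha).symm⟩
  refine (key c e).elim id fun p => h.zq c cz fun k hk => ?_
  have hk' : k⁻¹ * z = z * k⁻¹ := Commute.inv_left hk
  have e' : ∀ x ∈ Q ⊓ Cx(y), k * c * k⁻¹ * x = x * (k * c * k⁻¹) := fun x hx => by
    have := (cj_comm k).2 (e _ (h.nT hk' hx))
    simpa [mul_assoc] using this
  rcases key _ e' with q | q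
  · have := h.nm _ hk' _ q
    rw [show k⁻¹ * (k * c * k⁻¹) * k⁻¹⁻¹ = c by group] at this
    exact mul_mem q (inv_mem this)
  have cz' := e' z h.zT
  have : c⁻¹ * (k * c * k⁻¹) ∈ Q := h.inner ((Commute.inv_left cz).mul_left cz') fun s hs => by
    rw [show c⁻¹ * (k * c * k⁻¹) * s * (c⁻¹ * (k * c * k⁻¹))⁻¹ = c⁻¹ * (k * c * k⁻¹ * s * (k * c * k⁻¹)⁻¹) * c by group]
    by_cases n : s * y = y * s
    · left; rw [e' s ⟨hs, mem_Cx.2 n⟩, mul_inv_cancel_right, mul_assoc, ← e s ⟨hs, mem_Cx.2 n⟩]; group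
    have k1 : c⁻¹ * (c * s * c⁻¹) * c = s := by group
    have k2 : c⁻¹ * (z * (c * s * c⁻¹)) * c = z * s := by rw [← mul_assoc, (Commute.inv_left cz).eq]; group
    rcases p s hs n with p | p <;> rcases q s hs n with q | q <;> rw [q]
    · left; rw [← p, k1]
    · right; rw [← p, k2]
    · right; rw [← h.zz (y * s), ← p, k2]
    · left; rw [← p, k1]
  have := h.nm c cz _ this
  rwa [show c * (c⁻¹ * (k * c * k⁻¹)) * c⁻¹ = k * c * k⁻¹ * c⁻¹ by group] at this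

theorem cnt (hA : A ≤ Q ⊓ Cx(y)) (hB : B ≤ A) (hy : y ∈ B) :
    2 * {x | x ∈ A ∧ x ∉ B ∧ x * x = 1}.ncard + Nat.card B ≤ Nat.card A := by
  set S := {x | x ∈ A ∧ x ∉ B ∧ x * x = 1}
  have d : Disjoint S ((· * y) '' S) := Set.disjoint_left.2 (by
    rintro _ k ⟨x, m, rfl⟩
    have := h.sqy (hA m.1)
    rw [k.2.2, m.2.2, mul_one] at this
    exact h.z1 this.symm)
  have l : S ∪ (· * y) '' S ⊆ (A : Set G) \ B := by
    rintro _ (k | ⟨x, m, rfl⟩)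
    · exact ⟨k.1, k.2.1⟩
    · exact ⟨mul_mem m.1 (hB hy), fun e => m.2.1 ((mul_mem_cancel_right hy).1 e)⟩
  have := Set.ncard_le_ncard l
  rw [Set.ncard_union_eq d, Set.ncard_image_of_injective _ (mul_left_injective y), Set.ncard_sdiff hB] at this
  have := card_le_of_le hB
  change _ + (B : Set G).ncard ≤ (A : Set G).ncard
  change (B : Set G).ncard ≤ (A : Set G).ncard at this
  omega

theorem stp (I : Inv y Q A L) {n m : ℕ} (hA : Nat.card A = 4 * n)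
    (ih : ∀ A' L', Inv y Q A' L' → Nat.card A' = n → Nat.card L' ≤ m) (ha : a ∈ A) (na : a ∉ zpowers y) :
    Nat.card (L ⊓ Cx(a) : Subgroup G) ≤ n * m := by
  have AQ : A ≤ Q := I.le.trans inf_le_left
  obtain ⟨b, hb, ab, b2⟩ : ∃ b ∈ A, b * a ≠ a * b ∧ b * b = 1 := by
    obtain ⟨s, hs, n⟩ : ∃ s ∈ A, a * s ≠ s * a := by by_contra! k; exact na (I.ce a (I.al ha) k)
    rcases h.fixi (I.le hs) with e | e
    · exact ⟨s, hs, n.symm, e⟩
    · exact ⟨_, mul_mem hs I.yA, fun f => n (by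
        rw [mul_assoc, ← mem_Cx.1 (I.le ha).2, ← mul_assoc, ← mul_assoc] at f; exact (mul_right_cancel f).symm), e⟩
  have c1 := h.half' AQ (AQ ha) hb ab
  have c2 := h.half' (A := A ⊓ Cx(a)) (inf_le_left.trans AQ) (AQ hb) ⟨ha, mem_Cx.2 rfl⟩ ab.symm
  have ya : y ∈ A ⊓ Cx(a) := ⟨I.yA, mem_Cx.2 (mem_Cx.1 (I.le ha).2).symm⟩
  have c3 := h.cnt I.le inf_le_left ya
  have cj : ∀ {g s x : G}, g ∈ Cx(s) → (g * x * g⁻¹ ∈ Cx(s) ↔ x ∈ Cx(s)) := fun k =>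
    (mul_mem_cancel_right (inv_mem k)).trans (mul_mem_cancel_left k)
  refine (orb_le (L := L ⊓ Cx(a)) (b := b) (S := {x | x ∈ A ∧ x ∉ A ⊓ Cx(a) ∧ x * x = 1}) fun g k => ⟨I.nr g k.1 b hb,
    fun e => ab (mem_Cx.1 ((cj k.2).1 e.2)), by rw [← cjm, b2]; simp⟩).trans (Nat.mul_le_mul (by omega)
    (ih (A ⊓ Cx(a) ⊓ Cx(b)) (L ⊓ Cx(a) ⊓ Cx(b)) ⟨fun x k => I.le k.1.1, ⟨ya, mem_Cx.2 (mem_Cx.1 (I.le hb).2).symm⟩, fun x k => I.lc k.1.1,
      fun x k => ⟨⟨I.al k.1.1, k.1.2⟩, k.2⟩, fun g k x m => ⟨⟨I.nr g k.1.1 x m.1.1, (cj k.1.2).2 m.1.2⟩, (cj k.2).2 m.2⟩,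
      fun g k e => I.ce g k.1.1 ?_⟩ (by omega)))
  have ga : a ∈ Cx(g) := mem_Cx.2 (mem_Cx.1 k.1.2).symm
  have gb : b ∈ Cx(g) := mem_Cx.2 (mem_Cx.1 k.2).symm
  have k1 : ∀ s ∈ A ⊓ Cx(a), s ∈ Cx(g) := fun s hs => by
    by_cases n : s * b = b * s
    · exact mem_Cx.2 (e s ⟨hs, mem_Cx.2 n⟩).symm
    · exact (mul_mem_cancel_right ga).1 (mem_Cx.2 (e _ ⟨mul_mem hs ⟨ha, mem_Cx.2 rfl⟩,
        mem_Cx.2 (h.aa (AQ hs.1) (AQ ha) (AQ hb) n ab.symm)⟩).symm)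
  intro s hs
  by_cases n : s * a = a * s
  · exact (mem_Cx.1 (k1 s ⟨hs, mem_Cx.2 n⟩)).symm
  · exact (mem_Cx.1 ((mul_mem_cancel_right gb).1 (k1 _ ⟨mul_mem hs hb,
      mem_Cx.2 (h.aa (AQ hs) (AQ hb) (AQ ha) n ab)⟩))).symm

theorem orbI (I : Inv y Q A L) (ha : a ∈ A) (na : a ∉ zpowers y) (a2 : a * a = 1) (hg : g ∈ L) :
    g * a * g⁻¹ ∈ {x | x ∈ A ∧ x ∉ zpowers y ∧ x * x = 1} :=
  ⟨I.nr g hg a ha, fun e => na (by
    have : g ∈ Cz(zpowers y) := by rw [Cz_zpowers]; exact I.lc hg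
    have := this _ e
    rw [inv_mul_cancel_right, mul_assoc, mul_right_inj] at this
    rwa [this, ← mul_assoc]), by rw [← cjm, a2]; simp⟩

theorem stp2 (I : Inv y Q A L) {n m : ℕ} (hA : Nat.card A = 4 * n) (hn : 1 < n)
    (ih : ∀ A' L', Inv y Q A' L' → Nat.card A' = n → Nat.card L' ≤ m) : Nat.card L ≤ (2 * n - 2) * (n * m) := by
  obtain ⟨a, ha, na, a2⟩ : ∃ a ∈ A, a ∉ zpowers y ∧ a * a = 1 := by
    obtain ⟨s, hs, n⟩ := SetLike.not_le_iff_exists.1 (show ¬ A ≤ zpowers y from fun l => by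
      have := card_le_of_le l; rw [h.cY] at this; omega)
    rcases h.fixi (I.le hs) with e | e
    · exact ⟨s, hs, n, e⟩
    · exact ⟨_, mul_mem hs I.yA, fun f => n ((mul_mem_cancel_right (mem_zpowers y)).1 f), e⟩
  have := h.cnt I.le (zpowers_le.2 I.yA) (mem_zpowers y)
  rw [h.cY] at this
  exact (orb_le fun g k => h.orbI I ha na a2 k).trans (Nat.mul_le_mul (by omega) (h.stp I hA ih ha na))

theorem tr (ha : a ∈ Q ⊓ Cx(y)) (na : a ∉ zpowers y) (a2 : a * a = 1) (hb : b ∈ Q ⊓ Cx(y)) (nb : b ∉ zpowers y)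
    (b2 : b * b = 1) : IsConj a b := by
  have b0 : ∀ A L, Inv y Q A L → Nat.card A = 4 → Nat.card L ≤ 4 := fun A L I e => by
    rw [← h.cY]
    refine card_le_of_le fun g k => I.ce g k fun x hx => ?_
    rw [← eq_of_le_of_card_ge (zpowers_le.2 I.yA) (by rw [h.cY, e])] at hx
    have : g ∈ Cz(zpowers y) := by rw [Cz_zpowers]; exact I.lc k
    exact (this x hx).symm
  have b1 : ∀ A L, Inv y Q A L → Nat.card A = 16 → Nat.card L ≤ 96 := fun A L I e => h.stp2 I (n := 4) e (by decide) b0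
  have b2' : ∀ A L, Inv y Q A L → Nat.card A = 64 → Nat.card L ≤ 46080 := fun A L I e =>
    h.stp2 I (n := 16) e (by decide) b1
  have I : Inv y Q (Q ⊓ Cx(y)) Cx(y) := ⟨le_rfl, h.yT, le_rfl, inf_le_right,
    fun g k x => h.nT (h.cy (mem_Cx.1 k)), fun g _ => h.cenT⟩
  have c1 := h.stp I (n := 64) h.cT b2' ha na
  have c2 := h.cnt le_rfl (zpowers_le.2 h.yT) (mem_zpowers y)
  have c3 := orb Cx(y) a
  have c4 : Nat.card Cx(z) ≤ 2 * Nat.card Cx(y) := idx2 (fun g k => mem_Cx.2 (h.cy (mem_Cx.1 k))) fun a ha b hb => by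
    rcases h.ny a (mem_Cx.1 ha) with e | e
    · exact Or.inl (mem_Cx'.2 e)
    rcases h.ny b (mem_Cx.1 hb) with f | f
    · exact Or.inr (Or.inl (mem_Cx'.2 f))
    refine Or.inr (Or.inr (mem_Cx'.2 ?_))
    rw [show a * b * y * (a * b)⁻¹ = a * (b * y * b⁻¹) * a⁻¹ by group, f,
      show a * y⁻¹ * a⁻¹ = (a * y * a⁻¹)⁻¹ by group, e, inv_inv]
  rw [h.cY, h.cT] at c2
  rw [h.cC] at c4
  have := Set.eq_of_subset_of_ncard_le (s := {x | ∃ g ∈ Cx(y), g * a * g⁻¹ = x})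
    (t := {x | x ∈ Q ⊓ Cx(y) ∧ x ∉ zpowers y ∧ x * x = 1}) (by rintro _ ⟨g, k, rfl⟩; exact h.orbI I ha na a2 k)
    (by by_contra! k; nlinarith)
  obtain ⟨g, -, e⟩ := this.ge ⟨hb, nb, b2⟩
  exact isConj_iff.2 ⟨g, e⟩

end NS
end CfH5.Nat
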