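import Cfsg.Agent.H5.Nat1
import Cfsg.Agent.OD.Helper5x2ea9a1854a

/-! The module `Q/⟨z⟩` and elements of order four with a single large Jordan block. -/

set_option autoImplicit false
set_option linter.unusedSectionVars false

namespace CfH5.Nat

open Subgroup CfH9 CfH4

theorem jordan {V : Type*} [AddCommGroup V] (h2 : ∀ x : V, x + x = 0) (N : V →+ V) (h4 : ∀ x, N (N (N (N x))) = 0)
    (H : ∀ a b, N (N a) = 0 → N (N b) = 0 → N a = 0 ∨ N b = 0 ∨ N (a + b) = 0) {e : V} (he : N (N (N e)) ≠ 0)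
    (A B : V →+ V) (hA : ∀ x, A (N x) = N (A x)) (hB : ∀ x, B (N x) = N (B x)) : N (A (B e)) = N (B (A e)) := by
  have sw : ∀ a b c : V, a + b = c → a = b + c := fun a b c e => by rw [← e, add_left_comm, h2, add_zero]
  have d1 : ∀ v, N (N v) = 0 → ∃ k : ℕ, N v = k • N (N (N e)) := fun v hv => by
    rcases H v _ hv (h4 e) with k | k | k
    · exact ⟨0, by rw [k, zero_nsmul]⟩
    · exact absurd k he
    · exact ⟨1, by rw [map_add] at k; rw [sw _ _ _ k, add_zero, one_nsmul]⟩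
  have d2 : ∀ v, N (N (N v)) = 0 → ∃ j k : ℕ, N v = j • N (N e) + k • N (N (N e)) := fun v hv => by
    rcases H _ _ hv (h4 e) with k | k | k
    · obtain ⟨k, f⟩ := d1 v k; exact ⟨0, k, by rw [f, zero_nsmul, zero_add]⟩
    · exact absurd k he
    · obtain ⟨k, f⟩ := d1 (v + N e) (by rw [← k, map_add N v]); exact ⟨1, k, by rw [map_add] at f; rw [sw _ _ _ f, one_nsmul]⟩
  have d3 : ∀ v, ∃ i j k : ℕ, N v = i • N e + (j • N (N e) + k • N (N (N e))) := fun v => by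
    rcases H _ _ (h4 v) (h4 e) with k | k | k
    · obtain ⟨j, k, f⟩ := d2 v k; exact ⟨0, j, k, by rw [f, zero_nsmul, zero_add]⟩
    · exact absurd k he
    · obtain ⟨j, k, f⟩ := d2 (v + e) (by rw [← k, map_add N v, map_add N (N v)])
      exact ⟨1, j, k, by rw [map_add] at f; rw [sw _ _ _ f, one_nsmul]⟩
  obtain ⟨i, j, k, f⟩ := d3 (A e)
  obtain ⟨i', j', k', f'⟩ := d3 (B e)
  rw [← hA (B e), ← hB (A e), f, f']
  simp only [map_add, map_nsmul, hA, hB, f, f', h4, nsmul_zero, map_zero]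
  module

universe u
variable {G : Type u} [Group G] [Finite G] {Q A K L : Subgroup G} {z y a b c s t u w g : G}

namespace LX
variable (h : LX z Q)
include h

theorem exV : ∃ (V : Type u) (_ : AddCommGroup V) (p : G → V) (ρ : G → V →+ V),
    (∀ a ∈ Q, ∀ b ∈ Q, p (a * b) = p a + p b) ∧ (∀ a ∈ Q, p a = 0 ↔ a = 1 ∨ a = z) ∧ (∀ v, ∃ a ∈ Q, p a = v) ∧
    ∀ g, g * z = z * g → ∀ a ∈ Q, ρ g (p a) = p (g * a * g⁻¹) := by
  classical
  letI : CommGroup (Q ⧸ center Q) := { (inferInstance : Group (Q ⧸ center Q)) with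
    mul_comm := fun a b => by
      obtain ⟨a, rfl⟩ := QuotientGroup.mk_surjective a
      obtain ⟨b, rfl⟩ := QuotientGroup.mk_surjective b
      rw [← QuotientGroup.mk_mul, ← QuotientGroup.mk_mul]
      rcases h.es.comm a b with e | e <;> rw [e]
      rw [QuotientGroup.mk_mul, (QuotientGroup.eq_one_iff _).2 h.es.z_mem_center, one_mul] }
  let φ : ∀ g, g * z = z * g → Q →* Q := fun g hg =>
    ((MulAut.conj g).toMonoidHom.comp Q.subtype).codRestrict Q fun a => h.nm g hg a a.2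
  have hφ : ∀ g hg, center Q ≤ (center Q).comap (φ g hg) := fun g hg x hx => by
    rcases h.es.mem_center_iff.1 hx with rfl | rfl
    · exact one_mem _
    · exact h.es.mem_center_iff.2 (Or.inr (Subtype.ext (mul_inv_eq_iff_eq_mul.2 hg)))
  refine ⟨Additive (Q ⧸ center Q), inferInstance, fun g => if hg : g ∈ Q then Additive.ofMul (QuotientGroup.mk ⟨g, hg⟩) else 0,
    fun g => if hg : g * z = z * g then MonoidHom.toAdditive (QuotientGroup.map _ _ (φ g hg) (hφ g hg)) else 0,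
    fun a ha b hb => ?_, fun a ha => ?_, fun v => ?_, fun g hg a ha => ?_⟩
  · simp only [dif_pos ha, dif_pos hb, dif_pos (mul_mem ha hb)]; rfl
  · simp only [dif_pos ha]
    exact ((QuotientGroup.eq_one_iff _).trans h.es.mem_center_iff).trans (or_congr Subtype.ext_iff Subtype.ext_iff)
  · obtain ⟨a, e⟩ := QuotientGroup.mk_surjective (Additive.toMul v)
    exact ⟨a, a.2, by simp only [dif_pos a.2]; exact e⟩
  · simp only [dif_pos ha, dif_pos hg, dif_pos (h.nm g hg a ha)]; rfl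

theorem both (ha : a ∈ Q) (hb : b ∈ Q) (hs : s ∈ Q) (e : a * s = s * a ↔ b * s = s * b) : a * b * s = s * (a * b) := by
  by_cases n : a * s = s * a
  · rw [mul_assoc, e.1 n, ← mul_assoc, n, mul_assoc]
  · exact h.aa ha hb hs n fun m => n (e.2 m)

theorem cmFx (hc : c * z = z * c) (hs : s ∈ h.Fx c hc) (ht : t ∈ Q) :
    c * t * c⁻¹ * t⁻¹ * s = s * (c * t * c⁻¹ * t⁻¹) := by
  refine h.both (h.nm c hc t ht) (inv_mem ht) hs.1 (Iff.trans ?_ ((cj_comm c).trans Commute.inv_left_iff.symm))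
  rcases hs.2 with e | e <;> rw [e]
  rw [← mul_assoc _ z, h.zc _ (h.nm c hc t ht), mul_assoc z, mul_assoc z, mul_right_inj]

theorem Fx3 (hc : c * z = z * c) (ha : a ∈ h.Fx c hc) (hb : b ∈ h.Fx c hc) :
    a * c = c * a ∨ b * c = c * b ∨ a * b * c = c * (a * b) := by
  have k : ∀ {s}, c * s * c⁻¹ = s → s * c = c * s := fun e => (mul_inv_eq_iff_eq_mul.1 e).symm
  rcases ha.2 with e | e
  · exact Or.inl (k e)
  rcases hb.2 with f | f
  · exact Or.inr (Or.inl (k f))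
  refine Or.inr (Or.inr (k ?_))
  rw [cjm, e, f, mul_assoc, ← mul_assoc a, h.zc a ha.1, mul_assoc, h.zz]

theorem n2a (hw : w * z = z * w) (wu : w * w = u) (u2 : u * u = 1) (nu : u ∉ Q)
    (e : ∀ t ∈ Q, t * u = u * t → t * w = w * t) : 64 ≤ Nat.card (Q ⊓ Cx(u) : Subgroup G) ∧
    ∀ a b, a * z = z * a → b * z = z * b → a * w = w * a → b * w = w * b → a * b ≠ u * (b * a) := by
  obtain ⟨V, _, p, ρ, pm, p0, ps, pr⟩ := h.exV
  have hu : u * z = z * u := wu ▸ Commute.mul_left hw hw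
  have h2 : ∀ x : V, x + x = 0 := fun x => by
    obtain ⟨a, ha, rfl⟩ := ps x
    rw [← pm a ha a ha, p0 _ (mul_mem ha ha)]; exact h.sq ha
  have sw : ∀ a b c : V, a + b = c → a = b + c := fun a b c e => by rw [← e, add_left_comm, h2, add_zero]
  have p1 : p 1 = 0 := (p0 1 (one_mem _)).2 (Or.inl rfl)
  have pi : ∀ a ∈ Q, p a⁻¹ = p a := fun a ha => by
    rw [sw _ _ _ (pm _ (inv_mem ha) a ha).symm, inv_mul_cancel, p1, add_zero]
  have rm : ∀ g g', g * z = z * g → g' * z = z * g' → ∀ v, ρ (g * g') v = ρ g (ρ g' v) := fun g g' k k' v => by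
    obtain ⟨a, ha, rfl⟩ := ps v
    rw [pr _ (Commute.mul_left k k') a ha, pr _ k' a ha, pr _ k _ (h.nm _ k' a ha)]; congr 1; group
  have r1 : ∀ v, ρ 1 v = v := fun v => by
    obtain ⟨a, ha, rfl⟩ := ps v
    rw [pr 1 (by simp) a ha]; simp
  let N : V →+ V := ρ w + AddMonoidHom.id V
  have n1 : ∀ v, N v = ρ w v + v := fun v => rfl
  have n2 : ∀ v, N (N v) = ρ u v + v := fun v => by
    rw [n1, n1, map_add, ← rm w w hw hw, wu, add_assoc, ← add_assoc (ρ w v), h2, zero_add]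
  have h4 : ∀ v, N (N (N (N v))) = 0 := fun v => by
    rw [n2, n2, map_add, ← rm u u hu hu, u2, r1, add_comm v, h2]
  have fx : ∀ s ∈ Q, N (N (p s)) = 0 ↔ s ∈ h.Fx u hu := fun s hs => by
    rw [n2, pr u hu s hs, ← pi s hs, ← pm _ (h.nm u hu s hs) _ (inv_mem hs), p0 _ (mul_mem (h.nm u hu s hs) (inv_mem hs)),
      mul_inv_eq_one, mul_inv_eq_iff_eq_mul (c := z)]
    exact (and_iff_right hs).symm
  have k1 : ∀ s ∈ Q, s * u = u * s → N (p s) = 0 := fun s hs k => by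
    rw [n1, pr w hw s hs, ← e s hs k, mul_inv_cancel_right, h2]
  have H : ∀ a b, N (N a) = 0 → N (N b) = 0 → N a = 0 ∨ N b = 0 ∨ N (a + b) = 0 := fun a b ka kb => by
    obtain ⟨a, ha, rfl⟩ := ps a
    obtain ⟨b, hb, rfl⟩ := ps b
    rw [← pm a ha b hb]
    exact (h.Fx3 hu ((fx a ha).1 ka) ((fx b hb).1 kb)).imp (k1 a ha) (Or.imp (k1 b hb) (k1 _ (mul_mem ha hb)))
  have H2 : ∀ a ∈ Q, ∀ b ∈ Q, N (N (N (p a))) = 0 → N (N (N (p b))) = 0 →
      a ∈ h.Fx u hu ∨ b ∈ h.Fx u hu ∨ a * b ∈ h.Fx u hu := fun a ha b hb ka kb => by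
    rw [← fx a ha, ← fx b hb, ← fx _ (mul_mem ha hb), pm a ha b hb, map_add N (p a)]
    exact H _ _ ka kb
  let K : Subgroup G :=
    { carrier := {s | s ∈ Q ∧ N (N (N (p s))) = 0}
      one_mem' := ⟨one_mem _, by simp [p1]⟩
      mul_mem' := fun a b => ⟨mul_mem a.1 b.1, by rw [pm _ a.1 _ b.1, map_add, map_add, map_add, a.2, b.2, add_zero]⟩
      inv_mem' := fun a => ⟨inv_mem a.1, by rw [pi _ a.1, a.2]⟩ }
  refine ⟨?_, fun a b az bz aw bw ab => ?_⟩
  · have c1 := h.Fx_le hu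
    have c2 := idx2 (K := h.Fx u hu) (L := K) (fun s hs => ⟨hs.1, by rw [(fx s hs.1).2 hs, map_zero]⟩)
      fun a ha b hb => H2 a ha.1 b hb.1 ha.2 hb.2
    have c3 := idx2 (K := K) (L := Q) (fun s hs => hs.1) fun a ha b hb =>
      (H _ _ (h4 (p a)) (h4 (p b))).imp (fun k => ⟨ha, k⟩) (Or.imp (fun k => ⟨hb, k⟩) fun k =>
        ⟨mul_mem ha hb, by rw [← k, pm a ha b hb, map_add N (p a), map_add N (N (p a))]⟩)
    rw [h.cQ] at c3; omega
  obtain ⟨v, hv⟩ : ∃ v, N (N (N v)) ≠ 0 := by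
    by_contra! k
    obtain ⟨t, ht, nt⟩ : ∃ t ∈ Q, t ∉ h.Fx u hu := by
      by_contra! m; exact nu (h.inner hu fun s hs => (m s hs).2)
    have hb := h.nm w hw t ht
    have hc := h.nm u hu t ht
    have hd := h.nm w hw _ hc
    have k3 := k (p t)
    rw [n2 (p t), pr u hu t ht, map_add, n1, n1, pr w hw _ hc, pr w hw t ht] at k3
    have k4 := h.both hb hd ht (by
      rw [← cj_comm w (b := t) (a := w * (u * t * u⁻¹) * w⁻¹), show w * (w * (u * t * u⁻¹) * w⁻¹) * w⁻¹ =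
        (w * w * u) * t * (w * w * u)⁻¹ by group, wu, u2, one_mul, inv_one, mul_one, eq_comm])
    have k5 := (p0 _ (mul_mem (mul_mem (mul_mem hb hd) ht) hc)).1 (by
      rw [pm _ (mul_mem (mul_mem hb hd) ht) _ hc, pm _ (mul_mem hb hd) _ ht, pm _ hb _ hd, ← k3]; abel)
    have k6 : u * t * u⁻¹ ∈ Cx(t) := (mul_mem_cancel_left (mul_mem (mem_Cx.2 k4) (mem_Cx.2 rfl))).1 (by
      rcases k5 with f | f <;> rw [f]
      · exact one_mem _
      · exact mem_Cx.2 (h.zc t ht).symm)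
    have k7 : t ∈ Cx(u * t * u⁻¹ * t⁻¹) := mem_Cx.2 (mem_Cx.1 (mul_mem k6 (inv_mem (mem_Cx.2 rfl)))).symm
    refine nt ⟨ht, (h.ct (u * t * u⁻¹ * t⁻¹) fun s hs => ?_).imp mul_inv_eq_one.1 mul_inv_eq_iff_eq_mul.1⟩
    rcases H2 s hs t ht (k _) (k _) with m | m | m
    · exact h.cmFx hu m ht
    · exact absurd m nt
    · exact (mem_Cx.1 ((mul_mem_cancel_right k7).1 (mem_Cx.2 (h.cmFx hu m ht).symm))).symm
  have cN : ∀ a, a * z = z * a → a * w = w * a → ∀ x, ρ a (N x) = N (ρ a x) := fun a az aw x => by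
    rw [n1, n1, map_add, ← rm a w az hw, ← rm w a hw az, aw]
  have j := jordan h2 N h4 H hv (ρ a) (ρ b) (cN a az aw) (cN b bz bw)
  have ba : b * a * z = z * (b * a) := Commute.mul_left bz az
  have baw : b * a * w = w * (b * a) := Commute.mul_left bw aw
  rw [← rm a b az bz, ← rm b a bz az, ab, rm u _ hu ba] at j
  have j2 : N (N (N (ρ (b * a) v))) = 0 := by rw [n2 (ρ (b * a) v), map_add, j, h2]
  rw [← cN _ ba baw, ← cN _ ba baw, ← cN _ ba baw] at j2
  have := rm _ _ (Commute.inv_left ba) ba (N (N (N v)))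
  rw [j2, map_zero, inv_mul_cancel, r1] at this
  exact hv this

end LX
end CfH5.Nat
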