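import Cfsg.Agent.H5.Nat2
import Cfsg.Agent.H5.Nat3

/-! With a normal cyclic subgroup of order four in `Q` the involution `z` is isolated. -/

set_option autoImplicit false
set_option linter.unusedSectionVars false

namespace CfH5.Nat

open Subgroup CfH9 CfH4

universe u
variable {G : Type u} [Group G] [Finite G] {Q A K L : Subgroup G} {z y a b c s t u w g k x : G}

structure Cu (z u : G) : Prop where
  c : IsConj z u
  n : u ≠ z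
  m : u * z = z * u

theorem sqc (e : k * x * k⁻¹ = x ∨ k * x * k⁻¹ = x⁻¹) : k * k * x = x * (k * k) := by
  rw [← mul_inv_eq_iff_eq_mul, show k * k * x * (k * k)⁻¹ = k * (k * x * k⁻¹) * k⁻¹ by group]
  rcases e with e | e
  · rw [e, e]
  · rw [e, show k * x⁻¹ * k⁻¹ = (k * x * k⁻¹)⁻¹ by group, e, inv_inv]

theorem back (g : G) : g⁻¹ * a * g * b = b * (g⁻¹ * a * g) ↔ a * (g * b * g⁻¹) = g * b * g⁻¹ * a := by
  rw [← cj_comm g, show g * (g⁻¹ * a * g) * g⁻¹ = a by group]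

theorem Cu.back (c : IsConj z a) (n : a ≠ g * z * g⁻¹) (m : a * (g * z * g⁻¹) = g * z * g⁻¹ * a) : Cu z (g⁻¹ * a * g) :=
  ⟨c.trans (isConj_iff.2 ⟨g⁻¹, by rw [inv_inv]⟩), fun e => n (by rw [← e]; group), (CfH5.Nat.back g).2 m⟩

theorem Cu.sw (c : Cu z (g * z * g⁻¹)) : Cu z (g⁻¹ * z * g) := Cu.back (IsConj.refl z) c.n.symm c.m.symm

namespace NS
variable (h : NS z y Q)
include h

theorem nw (e : k * (g * z * g⁻¹) = g * z * g⁻¹ * k) :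
    k * (g * y * g⁻¹) * k⁻¹ = g * y * g⁻¹ ∨ k * (g * y * g⁻¹) * k⁻¹ = (g * y * g⁻¹)⁻¹ :=
  (h.ny _ ((back g).2 e)).imp (fun e => by nth_rw 2 [← e]; group) fun e => by
    rw [show (g * y * g⁻¹)⁻¹ = g * y⁻¹ * g⁻¹ by group, ← e]; group

theorem w2 : g * y * g⁻¹ * (g * y * g⁻¹) = g * z * g⁻¹ := by rw [← cjm, h.y2]
theorem u2 : g * z * g⁻¹ * (g * z * g⁻¹) = 1 := by rw [← cjm, h.z2]; simp
theorem zw (e : g * z * g⁻¹ * y = y * (g * z * g⁻¹)) : g * y * g⁻¹ * z = z * (g * y * g⁻¹) := by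
  have := sqc (h.nw e.symm); rw [h.y2] at this; exact this.symm
theorem wz (e : g * y * g⁻¹ * z = z * (g * y * g⁻¹)) : g * z * g⁻¹ * y = y * (g * z * g⁻¹) := by
  have := sqc (h.ny _ e); rwa [h.w2] at this

theorem cuw (e : g * z * g⁻¹ * y = y * (g * z * g⁻¹)) (nu : g * z * g⁻¹ ∉ Q) (t : G) (ht : t ∈ Q)
    (m : t * (g * z * g⁻¹) = g * z * g⁻¹ * t) : t * (g * y * g⁻¹) = g * y * g⁻¹ * t := by
  refine mul_inv_eq_iff_eq_mul.1 ((h.nw m).resolve_right fun f => nu ?_)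
  have := mul_mem (h.nm _ (Commute.inv_left (h.zw e)) t ht) (inv_mem ht)
  rw [inv_inv, mul_assoc, mul_assoc, ← mul_assoc t, f, ← mul_inv_rev, h.w2] at this
  exact inv_mem_iff.1 this

theorem na (c : Cu z u) (e : u * y = y * u) :
    ∃ a ∈ Q ⊓ Cx(u) ⊓ Cx(y), ∃ b ∈ Q ⊓ Cx(u) ⊓ Cx(y), a * b ≠ b * a := by
  have l : Q ⊓ Cx(u) ⊓ Cx(y) ≤ Q := fun x k => k.1.1
  have hz : z ∈ Q ⊓ Cx(u) ⊓ Cx(y) := ⟨⟨h.zQ, mem_Cx.2 c.m.symm⟩, h.zT.2⟩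
  have c1 := h.half (A := Q ⊓ Cx(u)) inf_le_left h.yQ
  by_cases nu : u ∈ Q
  · have := h.half le_rfl nu
    exact h.nab l hz (by rw [h.cQ] at this; omega)
  obtain ⟨g, rfl⟩ := isConj_iff.1 c.c
  have hw := h.zw e
  have c2 := (h.n2a hw h.w2 h.u2 nu (h.cuw e nu)).1
  by_contra! k
  refine nu (h.inner c.m fun s hs => ?_)
  have w2 := h.w2 (g := g)
  set w := g * y * g⁻¹
  have q := mul_mem (h.nm w hw s hs) (inv_mem hs)
  have m := h.selfc l hz (by omega) k q fun a ha => (h.cmFx hw ⟨ha.1.1, Or.inl (by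
    rw [← h.cuw e nu a ha.1.1 (mem_Cx.1 ha.1.2), mul_inv_cancel_right])⟩ hs).symm
  have f : _ * w = w * _ := h.cuw e nu _ q (mem_Cx.1 m.1.2)
  have : g * z * g⁻¹ * s * (g * z * g⁻¹)⁻¹ = w * s * w⁻¹ * s⁻¹ * (w * s * w⁻¹ * s⁻¹) * s := by
    rw [← w2]
    calc _ = w * (w * s * w⁻¹ * s⁻¹) * s * w⁻¹ := by group
      _ = _ := by rw [← f]; group
  rw [this]
  exact (h.sq q).imp (fun e => by rw [e, one_mul]) fun e => by rw [e]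

theorem n2 (c : Cu z u) (e : u * y = y * u) : u ∈ Q := by
  by_contra nu
  obtain ⟨g, rfl⟩ := isConj_iff.1 c.c
  have hw := h.zw e
  obtain ⟨a, ha, b, hb, n⟩ := h.na c.sw ((back g).2 hw.symm)
  have k : ∀ {a}, a ∈ Cx(g⁻¹ * z * g) → g * a * g⁻¹ * z = z * (g * a * g⁻¹) := fun k =>
    ((back g).1 (mem_Cx.1 k).symm).symm
  refine (h.n2a hw h.w2 h.u2 nu (h.cuw e nu)).2 _ _ (k ha.1.2) (k hb.1.2) ((cj_comm g).2 (mem_Cx.1 ha.2))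
    ((cj_comm g).2 (mem_Cx.1 hb.2)) ?_
  rw [← cjm, ← cjm, ← cjm, h.anti ha.1.1 hb.1.1 n]

theorem n3 (c : Cu z u) (e : u * y = y * u) : False := by
  have uQ := h.n2 c e
  obtain ⟨g, rfl⟩ := isConj_iff.1 c.c
  have hw := h.zw e
  have w2 := h.w2 (g := g)
  have u2 := h.u2 (g := g)
  have nw := fun k => h.nw (g := g) (k := k)
  have n2 := fun a (c : IsConj z a) n m (e : a * (g * y * g⁻¹) = _) => h.n2 (Cu.back (g := g) c n m) ((back g).2 e)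
  have bk : ∀ a b, g⁻¹ * a * g ∈ Q → g⁻¹ * b * g ∈ Q → a * b ≠ b * a → a * b = g * z * g⁻¹ * (b * a) := fun a b ha hb n => by
    have := h.anti ha hb fun f => n (by simpa [mul_assoc] using (cj_comm g).2 f)
    calc a * b = g * (g⁻¹ * a * g * (g⁻¹ * b * g)) * g⁻¹ := by group
      _ = _ := by rw [this]; group
  generalize g * z * g⁻¹ = u at *
  set w := g * y * g⁻¹
  have yw : y * w = w * y := by
    rcases nw y e.symm with f | f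
    · exact mul_inv_eq_iff_eq_mul.1 f
    rcases h.ny w hw with f' | f'
    · exact (mul_inv_eq_iff_eq_mul.1 f').symm
    refine absurd ?_ c.n
    calc u = (w * w)⁻¹ := by rw [w2, inv_eq_of_mul_eq_one_right u2]
      _ = y * (w * y * w⁻¹)⁻¹ := by rw [mul_inv_rev]; nth_rw 1 [← f]; group
      _ = z := by rw [f', inv_inv, h.y2]
  have c1 := h.half (A := Q ⊓ Cx(y)) inf_le_left uQ
  have c2 := idx2 (K := Q ⊓ Cx(y) ⊓ Cx(u) ⊓ Cx(w)) (L := Q ⊓ Cx(y) ⊓ Cx(u)) inf_le_left fun a ha b hb => by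
    rcases nw a (mem_Cx.1 ha.2) with e | e
    · exact Or.inl ⟨ha, mem_Cx'.2 e⟩
    rcases nw b (mem_Cx.1 hb.2) with f | f
    · exact Or.inr (Or.inl ⟨hb, mem_Cx'.2 f⟩)
    refine Or.inr (Or.inr ⟨mul_mem ha hb, mem_Cx'.2 ?_⟩)
    rw [show a * b * w * (a * b)⁻¹ = a * (b * w * b⁻¹) * a⁻¹ by group, f,
      show a * w⁻¹ * a⁻¹ = (a * w * a⁻¹)⁻¹ by group, e, inv_inv]
  rw [h.cT] at c1
  set K := Q ⊓ Cx(y) ⊓ Cx(u) ⊓ Cx(w)
  have yK : y ∈ K := ⟨⟨h.yT, mem_Cx.2 e.symm⟩, mem_Cx.2 yw⟩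
  have fix : ∀ a ∈ K, ∀ b ∈ K, a * b ≠ b * a → ∃ a ∈ K, a * a = 1 ∧ b * a ≠ a * b := fun a ha b hb n => by
    rcases h.fixi ha.1.1 with f | f
    · exact ⟨a, ha, f, n.symm⟩
    · exact ⟨_, mul_mem ha yK, f, fun f => n (by
        rw [mul_assoc, ← mem_Cx.1 hb.1.1.2, ← mul_assoc, ← mul_assoc] at f; exact (mul_right_cancel f).symm)⟩
  obtain ⟨a, ha, b, hb, n⟩ := h.nab (A := K) (fun x k => k.1.1.1) ⟨⟨h.zT, mem_Cx.2 c.m.symm⟩, mem_Cx.2 hw.symm⟩ (by omega)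
  obtain ⟨a, ha, a2, n⟩ := fix a ha b hb n
  obtain ⟨b, hb, b2, n⟩ := fix b hb a ha n
  have uY : u ∉ zpowers y := fun k => by
    rcases h.memY k with f | f | f | f
    · exact h.z1 (isConj_one_left.1 (f ▸ c.c))
    · exact c.n f
    · exact h.z1 (by rw [← h.y2, ← f, u2])
    · exact h.z1 (by rw [← h.y2, ← inv_eq_one, mul_inv_rev, h.yi, ← f, u2])
  have k : ∀ a ∈ K, ∀ b ∈ K, a * a = 1 → a * b ≠ b * a → g⁻¹ * a * g ∈ Q := fun a ha b hb a2 n =>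
    n2 a (c.c.trans (h.tr ⟨uQ, mem_Cx.2 e⟩ uY u2 ha.1.1 (fun k => n (by
      have : b ∈ Cz(zpowers y) := by rw [Cz_zpowers]; exact hb.1.1.2
      exact this a k)) a2)) (fun f => n (f ▸ (mem_Cx.1 hb.1.2).symm)) (mem_Cx.1 ha.1.2) (mem_Cx.1 ha.2)
  have := bk a b (k a ha b hb a2 n) (k b hb a ha b2 n.symm) n
  rw [h.anti ha.1.1.1 hb.1.1.1 n] at this
  exact c.n (mul_right_cancel this).symm

theorem star (c : Cu z u) (e : u * y ≠ y * u) : 16 ≤ Nat.card (Q ⊓ Cx(u) : Subgroup G) ∧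
    ∀ t ∈ Q ⊓ Cx(u) ⊓ Cx(y), IsConj z (t * u) := by
  have el : ∀ t ∈ Q ⊓ Cx(u), t * t = 1 := fun t ht => (h.sq ht.1).resolve_right fun f => by
    obtain ⟨g, rfl⟩ := isConj_iff.1 c.c
    exact e (h.wz (f ▸ (sqc (h.nw (mem_Cx.1 ht.2))).symm))
  have ab : ∀ s ∈ Q ⊓ Cx(u), ∀ t ∈ Q ⊓ Cx(u), s * t = t * s := fun s hs t ht => by
    rw [← inv_eq_of_mul_eq_one_right (el _ (mul_mem hs ht)), mul_inv_rev, inv_eq_of_mul_eq_one_right (el s hs),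
      inv_eq_of_mul_eq_one_right (el t ht)]
  have u2 : u * u = 1 := by obtain ⟨g, rfl⟩ := isConj_iff.1 c.c; exact h.u2
  have ui := inv_eq_of_mul_eq_one_right u2
  have yF : y ∈ h.Fx u c.m := ⟨h.yQ, h.yi ▸ h.ny u c.m⟩
  have EF : Q ⊓ Cx(u) ≤ h.Fx u c.m := fun a ha => ⟨ha.1, Or.inl (by rw [← mem_Cx.1 ha.2]; group)⟩
  have c1 := h.Fx_le c.m
  have c2 := dbl EF yF fun k => e (mem_Cx.1 k.2).symm
  have c3 := h.cc (A := h.Fx u c.m) (fun x k => k.1) (EF ⟨h.zQ, mem_Cx.2 c.m.symm⟩)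
  have c4 := orb Q u
  rw [h.cQ, ← Set.ncard_image_of_injective _ (mul_right_injective u)] at c4
  set O := (fun x => u * x) '' {x | ∃ g ∈ Q, g * u * g⁻¹ = x}
  have hO : ∀ x ∈ O, ∃ t ∈ Q, x = u * t * u⁻¹ * t⁻¹ := by
    rintro _ ⟨_, ⟨t, ht, rfl⟩, rfl⟩; exact ⟨t, ht, by rw [ui]; group⟩
  have o1 : O ⊆ (Q ⊓ Cz(h.Fx u c.m) : Subgroup G) := fun x hx => by
    obtain ⟨t, ht, rfl⟩ := hO x hx
    exact ⟨Q.mul_mem (h.nm u c.m t ht) (inv_mem ht), fun s hs => (h.cmFx c.m hs ht).symm⟩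
  have o2 : O ⊆ h.Fx u c.m := fun x hx => by
    have xQ := (o1 hx).1
    obtain ⟨t, ht, f⟩ := hO x hx
    have : u * x * u⁻¹ = x⁻¹ := by
      rw [f, show u * (u * t * u⁻¹ * t⁻¹) * u⁻¹ = (u * u) * t * (u⁻¹ * t⁻¹ * u⁻¹) by group, u2, ui]; group; simp [ui]
    refine ⟨xQ, this ▸ (h.sq xQ).imp inv_eq_of_mul_eq_one_right fun f => inv_eq_of_mul_eq_one_right ?_⟩
    rw [← mul_assoc, h.zc x xQ, mul_assoc, f, h.z2]
  have c5 : O.ncard ≤ Nat.card (h.Fx u c.m) := Set.ncard_le_ncard o2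
  refine ⟨by nlinarith, fun t ht => ?_⟩
  have := (Set.eq_of_subset_of_ncard_le o1 (by
    change Nat.card (Q ⊓ Cz(h.Fx u c.m) : Subgroup G) ≤ _
    by_contra! k; rw [c1.antisymm c2] at c3
    nlinarith [Nat.mul_lt_mul_of_pos_right k (Nat.card_pos (α := (Q ⊓ Cx(u) : Subgroup G)))])).ge (show t ∈ Q ⊓ Cz(h.Fx u c.m) from ⟨ht.1.1, fun s hs => by
      rcases h.Fx3 c.m hs yF with f | f | f
      · exact ab s ⟨hs.1, mem_Cx.2 f⟩ t ht.1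
      · exact absurd f.symm e
      · have := ab _ ⟨Q.mul_mem hs.1 h.yQ, mem_Cx.2 f⟩ t ht.1
        rw [mul_assoc, ← mem_Cx.1 ht.2, ← mul_assoc, ← mul_assoc] at this
        exact mul_right_cancel this⟩)
  obtain ⟨_, ⟨s, -, rfl⟩, f⟩ := this
  refine c.c.trans (isConj_iff.2 ⟨s, ?_⟩)
  rw [mem_Cx.1 ht.1.2, ← f, ← mul_assoc, u2, one_mul]

theorem main (c : Cu z u) : False := by
  have e : ∀ {u}, Cu z u → u * y ≠ y * u := fun c => h.n3 c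
  obtain ⟨c1, k⟩ := h.star c (e c)
  obtain ⟨g, rfl⟩ := isConj_iff.1 c.c
  have c2 := h.half (A := Q ⊓ Cx(g * z * g⁻¹)) inf_le_left h.yQ
  have c3 := h.cc le_rfl h.zQ
  rw [h.cQ] at c3
  obtain ⟨t, ht, nt⟩ := SetLike.not_le_iff_exists.1 (show ¬ Q ⊓ Cx(g * z * g⁻¹) ⊓ Cx(y) ≤ Q ⊓ Cz(Q) from fun l => by
    have := card_le_of_le l; omega)
  have zK : z ∈ Q ⊓ Cx(g * z * g⁻¹) ⊓ Cx(y) := ⟨⟨h.zQ, mem_Cx.2 c.m.symm⟩, h.zT.2⟩
  obtain ⟨t, ht, t1, tw⟩ : ∃ t ∈ Q ⊓ Cx(g * z * g⁻¹) ⊓ Cx(y), t ≠ 1 ∧ t * (g * y * g⁻¹) = g * y * g⁻¹ * t := by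
    rcases h.nw (mem_Cx.1 ht.1.2) with f | f
    · exact ⟨t, ht, fun f => nt (f ▸ one_mem _), mul_inv_eq_iff_eq_mul.1 f⟩
    have f' := (h.nw c.m.symm).resolve_left fun f => e c (h.wz (mul_inv_eq_iff_eq_mul.1 f).symm)
    refine ⟨t * z, mul_mem ht zK, fun f => nt (eq_inv_of_mul_eq_one_left f ▸ inv_mem ⟨h.zQ, h.zc⟩),
      mul_inv_eq_iff_eq_mul.1 ?_⟩
    generalize g * y * g⁻¹ = w at *
    rw [show t * z * w * (t * z)⁻¹ = t * (z * w * z⁻¹) * t⁻¹ by group, f',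
      show t * w⁻¹ * t⁻¹ = (t * w * t⁻¹)⁻¹ by group, f, inv_inv]
  exact e (Cu.back (k t ht) (fun f => t1 (mul_eq_right.1 f)) (Commute.mul_left (mem_Cx.1 ht.1.2) rfl))
    ((back g).2 (Commute.mul_left tw ((cj_comm g).2 (h.zc y h.yQ).symm)))

end NS
end CfH5.Nat
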