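import Cfsg.Agent.H6.N23a
import Cfsg.Agent.H9.Basic2
import Cfsg.Agent.H9.SylIn

/-! Class counting in a simple group of order `|M₂₃|`. -/

set_option autoImplicit false

namespace CfH5.M23

open CfH9 Subgroup CfH6.M23

universe u

variable {G : Type*} [Group G]

theorem ncard_carrier (a : G) : (ConjClasses.mk a).carrier.ncard = (Cx(a)).index := by
  rw [← ConjAct.orbit_eq_carrier_conjClasses, ← MulAction.index_stabilizer,
    ConjAct.stabilizer_eq_centralizer]
  rfl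

theorem class_ext [Finite G] (L : List G) (hp : L.Pairwise fun a b => ¬ IsConj a b)
    (hk : Nat.card (ConjClasses G) = L.length + 1) :
    ∃ h : G, (∀ g, IsConj h g ∨ ∃ a ∈ L, IsConj a g) ∧
      (Cx(h)).index + (L.map fun a => (Cx(a)).index).sum = Nat.card G := by
  classical
  haveI := Fintype.ofFinite (ConjClasses G)
  rw [Nat.card_eq_fintype_card] at hk
  have nd : (L.map ConjClasses.mk).Nodup := by
    rw [List.Nodup, List.pairwise_map]
    exact hp.imp fun h e => h (ConjClasses.mk_eq_mk_iff_isConj.1 e)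
  obtain ⟨c, hc⟩ : ∃ c, c ∉ (L.map ConjClasses.mk).toFinset := by
    by_contra hh
    push Not at hh
    have := Finset.eq_univ_of_forall hh
    have e := List.toFinset_card_of_nodup nd
    rw [this, Finset.card_univ, List.length_map] at e
    omega
  obtain ⟨h, rfl⟩ := ConjClasses.mk_surjective c
  have nd' : ((h :: L).map ConjClasses.mk).Nodup := by
    rw [List.map_cons, List.nodup_cons]
    exact ⟨fun e => hc (List.mem_toFinset.2 e), nd⟩
  have eu : ((h :: L).map ConjClasses.mk).toFinset = Finset.univ := by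
    apply Finset.eq_univ_of_card
    rw [List.toFinset_card_of_nodup nd', List.length_map, List.length_cons, hk]
  refine ⟨h, fun g => ?_, ?_⟩
  · have : ConjClasses.mk g ∈ ((h :: L).map ConjClasses.mk).toFinset := eu ▸ Finset.mem_univ _
    rw [List.mem_toFinset, List.mem_map] at this
    obtain ⟨a, ha, e⟩ := this
    rcases List.mem_cons.1 ha with rfl | ha
    · exact Or.inl (ConjClasses.mk_eq_mk_iff_isConj.1 e)
    · exact Or.inr ⟨a, ha, ConjClasses.mk_eq_mk_iff_isConj.1 e⟩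
  · rw [← Group.sum_card_conj_classes_eq_card G, finsum_eq_sum_of_fintype, ← eu,
      List.sum_toFinset _ nd', List.map_map, List.map_cons, List.sum_cons]
    simp only [Function.comp_def, ncard_carrier]

theorem cconj {a b : G} (h : IsConj a b) : Nat.card Cx(a) = Nat.card Cx(b) := by
  obtain ⟨g, rfl⟩ := isConj_iff.1 h
  rw [← cj_Cx, card_cj]

theorem oconj {a b : G} (h : IsConj a b) : orderOf a = orderOf b := by
  obtain ⟨g, rfl⟩ := isConj_iff.1 h
  rw [orderOf_conj']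

theorem self_Cx (a : G) : a ∈ Cx(a) := mem_Cx.2 rfl

theorem Cx_symm {a b : G} (h : a ∈ Cx(b)) : b ∈ Cx(a) := mem_Cx.2 (mem_Cx.1 h).symm

theorem ndvd [Finite G] {p c : ℕ} (hp : p.Prime) (hc : ∀ u : G, orderOf u = p → Nat.card Cx(u) = c)
    {g : G} (h : ¬ orderOf g ∣ c) : ¬ p ∣ Nat.card Cx(g) := by
  haveI := Fact.mk hp
  intro hd
  obtain ⟨u, hu, ho⟩ := exists_orderOf_eq_prime hd
  exact h (hc u ho ▸ Subgroup.orderOf_dvd_natCard _ (Cx_symm hu))

theorem rm {c m p : ℕ} (hp : p.Prime) (h : c ∣ m * p) (hn : ¬ p ∣ c) : c ∣ m :=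
  ((Nat.Prime.coprime_iff_not_dvd hp).2 hn).symm.dvd_of_dvd_mul_right h

theorem cyc [Finite G] {a b : G} (hb : b ∈ Cx(a)) (hc : (orderOf a).Coprime (orderOf b))
    (h : Nat.card Cx(a) = orderOf a * orderOf b) : zpowers (a * b) = Cx(a) := by
  refine eq_of_le_of_card_ge (zpowers_le.2 (mul_mem (self_Cx a) hb)) ?_
  rw [h, Nat.card_zpowers, Commute.orderOf_mul_eq_mul_orderOf_of_coprime (mem_Cx.1 hb).symm hc]

theorem ab {H : Subgroup G} {c g : G} (h : zpowers c = H) (hg : g ∈ H) : H ≤ Cx(g) := by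
  subst h
  exact fun x hx => mem_Cx.2 (comm_iff.1 (comm_zpowers c) x hx g hg)

theorem nz {z : G} (hz : orderOf z = 2) : Nm(zpowers z) ≤ Cx(z) := by
  intro g hg
  have s : z ^ (2 : ℤ) = 1 := by
    rw [zpow_ofNat, ← hz, pow_orderOf_eq_one]
  obtain ⟨k, hk⟩ := mem_zpowers_iff.1 (conj_mem_of_mem_normalizer hg (mem_zpowers z))
  rw [mem_Cx', ← hk]
  rcases Int.even_or_odd' k with ⟨j, rfl | rfl⟩
  · rw [zpow_mul, s, one_zpow, eq_comm, conj_eq_one_iff] at hk
    rw [hk, orderOf_one] at hz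
    omega
  · rw [zpow_add, zpow_mul, s, one_zpow, one_mul, zpow_one]

theorem sq [Finite G] {p : ℕ} (hp : p.Prime) {H : Subgroup G} {a : G} (ha : a ∈ H)
    (ho : orderOf a = p) (hd : p ^ 2 ∣ Nat.card H) : p ^ 2 ∣ Nat.card (H ⊓ Cx(a) : Subgroup G) := by
  haveI := Fact.mk hp
  obtain ⟨K, hK, hle⟩ := Sylow.exists_subgroup_card_pow_succ (G := H) (p := p) (n := 1) hd
    (H := zpowers ⟨a, ha⟩) (by rw [Nat.card_zpowers, Subgroup.orderOf_mk, ho, pow_one])
  have hc := IsPGroup.isMulCommutative_of_card_eq_prime_sq (p := p) hK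
  rw [← hK, ← card_map_subtype]
  refine card_dvd_of_le (le_inf (map_subtype_le K) ?_)
  rintro _ ⟨x, hx, rfl⟩
  exact mem_Cx.2 (congrArg Subtype.val (comm_iff.1 hc x hx _ (hle (mem_zpowers _))))

theorem nr [Finite G] {u : G} (h2 : u * u ≠ 1) {k : ℕ} (hk : Odd k)
    (h : Nat.card Nm(zpowers u) = Nat.card Cx(u) * k) : ¬ IsConj u u⁻¹ := by
  intro hc
  obtain ⟨g, hg⟩ := isConj_iff.1 hc
  have gN : g ∈ Nm(zpowers u) := by
    rw [mem_normalizer_iff_cj, cj_zpowers, hg, zpowers_inv]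
  have e := card_mul_relIndex (Cz_le_Nm (zpowers u))
  rw [h, Cz_zpowers] at e
  have e' : (Cx(u)).relIndex Nm(zpowers u) = k := Nat.eq_of_mul_eq_mul_left Nat.card_pos e
  have m : g ^ k ∈ Cx(u) := by
    have := pow_index_mem ((Cz(zpowers u)).subgroupOf Nm(zpowers u)) ⟨g, gN⟩
    rw [mem_subgroupOf, Cz_zpowers] at this
    rw [← e']
    exact this
  have m2 : g ^ 2 ∈ Cx(u) := by
    rw [mem_Cx']
    calc g ^ 2 * u * (g ^ 2)⁻¹ = g * (g * u * g⁻¹) * g⁻¹ := by rw [pow_two]; group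
      _ = g * u⁻¹ * g⁻¹ := by rw [hg]
      _ = (g * u * g⁻¹)⁻¹ := by group
      _ = u := by rw [hg, inv_inv]
  obtain ⟨j, rfl⟩ := hk
  rw [pow_succ, pow_mul, mul_mem_cancel_left (pow_mem m2 j), mem_Cx', hg] at m
  exact h2 (by nth_rewrite 1 [← m]; simp)

theorem ex4 [Finite G] {f : G} (hf : orderOf f = 5) (h1 : Nat.card Cx(f) = 15)
    (h2 : Nat.card Nm(zpowers f) = 60) : ∃ v : G, orderOf v = 4 := by
  have e := card_mul_relIndex (Cz_le_Nm (zpowers f))
  rw [h2, Cz_zpowers, h1] at e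
  let φ := (zpowers f).normalizerMonoidHom
  have hr : Nat.card φ.range = 4 := by
    rw [← index_ker, normalizerMonoidHom_ker, Cz_zpowers]
    change (Cx(f)).relIndex _ = 4
    omega
  haveI : IsCyclic (MulAut (zpowers f)) := by
    have := ZMod.isCyclic_units_prime (p := Nat.card (zpowers f)) (by
      rw [Nat.card_zpowers, hf]; norm_num)
    exact isCyclic_of_injective (IsCyclic.mulAutMulEquiv (zpowers f)).toMonoidHom
      (IsCyclic.mulAutMulEquiv (zpowers f)).injective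
  obtain ⟨y, hg⟩ := isCyclic_iff_exists_orderOf_eq_natCard.1
    (inferInstance : IsCyclic φ.range)
  obtain ⟨n, hn⟩ := y.2
  rw [hr, ← Subgroup.orderOf_coe, ← hn] at hg
  have hd : 4 ∣ orderOf (n : G) := by
    rw [Subgroup.orderOf_coe, ← hg]
    exact orderOf_map_dvd φ n
  exact ⟨_, orderOf_pow_orderOf_div (orderOf_pos _).ne' hd⟩

def P6 (c6 c : ℕ) : Bool := c % 18 == 0 && c % c6 == 0 && (c % 4 != 0 || c6 % 4 == 0)

def chk (cz cx cv c6 : ℕ) : Bool :=
  let r := 2504447 - 10200960 / cz - 10200960 / cx - 10200960 / cv - 10200960 / c6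
  let ch := 10200960 / r
  10200960 % r != 0 || cz % c6 != 0 || !(P6 c6 cx || P6 c6 ch) || (ch % 7 == 0 && ch % 14 != 0) ||
    (cz == 2688 && cx == 180 && c6 == 12 && 32 % ch == 0)

def dv (n : ℕ) : List ℕ := (List.range (n + 1)).filter fun d => n % d == 0

theorem mem_dv {n d : ℕ} (hn : 0 < n) (h : d ∣ n) : d ∈ dv n := by
  simp only [dv, List.mem_filter, List.mem_range, beq_iff_eq]
  exact ⟨Nat.lt_succ_of_le (Nat.le_of_dvd hn h), Nat.mod_eq_zero_of_dvd h⟩

theorem chk_all : ((dv 192).all fun a => (dv 128).all fun b => (dv 288).all fun c =>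
    (dv 192).all fun d => chk (42 * a) (45 * b) (4 * c) (6 * d)) = true := by decide +kernel

theorem arith {cz cx cv c6 ch c' iz ix iv i6 ih : ℕ} (z1 : cz ∣ 8064) (z2 : 42 ∣ cz) (x1 : cx ∣ 5760)
    (x2 : 45 ∣ cx) (v1 : cv ∣ 1152) (v2 : 4 ∣ cv) (s1 : c6 ∣ 1152) (s2 : 6 ∣ c6)
    (ez : cz * iz = 10200960) (ex : cx * ix = 10200960) (ev : cv * iv = 10200960)
    (e6 : c6 * i6 = 10200960) (eh : ch * ih = 10200960) (es : ih + iz + ix + iv + i6 = 2504447)
    (f1 : c6 ∣ cz) (f2 : c' = cx ∨ c' = ch) (f3 : 18 ∣ c') (f4 : c6 ∣ c') (f5 : 4 ∣ c' → 4 ∣ c6)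
    (f6 : 7 ∣ ch → 14 ∣ ch) : cz = 2688 ∧ cx = 180 ∧ c6 = 12 ∧ ch ∣ 32 := by
  have q : ∀ {c i : ℕ}, c * i = 10200960 → 10200960 / c = i := by
    intro c i h
    rw [← h]
    exact Nat.mul_div_cancel_left _ (Nat.pos_of_ne_zero (by rintro rfl; simp at h))
  have h := chk_all
  simp only [List.all_eq_true] at h
  obtain ⟨a, rfl⟩ := z2
  obtain ⟨b, rfl⟩ := x2
  obtain ⟨c, rfl⟩ := v2
  obtain ⟨d, rfl⟩ := s2
  have h' := h a (mem_dv (by norm_num) (Nat.dvd_of_mul_dvd_mul_left (by norm_num) (z1 : _ ∣ 42 * 192)))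
    b (mem_dv (by norm_num) (Nat.dvd_of_mul_dvd_mul_left (by norm_num) (x1 : _ ∣ 45 * 128)))
    c (mem_dv (by norm_num) (Nat.dvd_of_mul_dvd_mul_left (by norm_num) (v1 : _ ∣ 4 * 288)))
    d (mem_dv (by norm_num) (Nat.dvd_of_mul_dvd_mul_left (by norm_num) (s1 : _ ∣ 6 * 192)))
  have er : 2504447 - iz - ix - iv - i6 = ih := by omega
  have p6 : P6 (6 * d) c' = true := by
    simp only [P6, Bool.and_eq_true, Bool.or_eq_true, beq_iff_eq, bne_iff_ne, ne_eq,
      ← Nat.dvd_iff_mod_eq_zero]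
    exact ⟨⟨f3, f4⟩, imp_iff_not_or.1 f5⟩
  have p7 : (P6 (6 * d) (45 * b) || P6 (6 * d) ch) = true := by
    rcases f2 with rfl | rfl <;> simp [p6]
  simp only [chk, q ez, q ex, q ev, q e6, er, q (mul_comm ch ih ▸ eh), p7, Bool.and_eq_true,
    Bool.or_eq_true, beq_iff_eq, bne_iff_ne, ne_eq, ← Nat.dvd_iff_mod_eq_zero, Bool.not_true,
    Bool.false_eq_true, or_false] at h'
  rcases h' with ((h' | h') | h') | h'
  · exact absurd (Dvd.intro_left _ eh) h'
  · exact absurd f1 h'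
  · exact absurd (f6 h'.1) h'.2
  · exact ⟨h'.1.1.1, h'.1.1.2, h'.1.2, h'.2⟩

set_option maxHeartbeats 1600000 in
theorem q1 : Q1.{u} := by
  intro G _ _ L
  have N := L.card
  have ex : ∀ p : ℕ, p.Prime → ∀ H : Subgroup G, p ∣ Nat.card H → ∃ x ∈ H, orderOf x = p :=
    fun p hp H h => by
      haveI := Fact.mk hp
      exact exists_orderOf_eq_prime h
  have Nt : Nat.card (⊤ : Subgroup G) = 10200960 := by rw [card_top, N]
  have p2 := Nat.prime_two
  have p3 := Nat.prime_three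
  have p5 := Nat.prime_five
  have p7 : Nat.Prime 7 := by norm_num
  have p11 : Nat.Prime 11 := by norm_num
  have p23 : Nat.Prime 23 := by norm_num
  have sq1 : ∀ {g : G}, ¬ orderOf g ∣ 2 → g * g ≠ 1 := fun {g} h e =>
    h (orderOf_dvd_of_pow_eq_one (by rw [pow_two, e]))
  obtain ⟨u, -, hu⟩ := ex 23 p23 ⊤ (by rw [Nt]; norm_num)
  obtain ⟨w, -, hw⟩ := ex 11 p11 ⊤ (by rw [Nt]; norm_num)
  obtain ⟨s, -, hs⟩ := ex 7 p7 ⊤ (by rw [Nt]; norm_num)
  obtain ⟨f, -, hf⟩ := ex 5 p5 ⊤ (by rw [Nt]; norm_num)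
  obtain ⟨z, zs, hz⟩ := ex 2 p2 Cx(s) (by rw [L.c7 s hs]; norm_num)
  obtain ⟨x, xf, hx⟩ := ex 3 p3 Cx(f) (by rw [L.c5 f hf]; norm_num)
  obtain ⟨y, ys, hy⟩ := ex 3 p3 Nm(zpowers s) (by rw [L.n7 s hs]; norm_num)
  obtain ⟨v, hv⟩ := ex4 hf (L.c5 f hf) (L.n5 f hf)
  have om : ∀ {a b : G} {m n : ℕ}, b ∈ Cx(a) → orderOf a = m → orderOf b = n → m.Coprime n →
      orderOf (a * b) = m * n := by
    rintro a b _ _ h rfl rfl hc
    exact Commute.orderOf_mul_eq_mul_orderOf_of_coprime (mem_Cx.1 h).symm hc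
  have c14 : ∀ {s z : G}, orderOf s = 7 → orderOf z = 2 → z ∈ Cx(s) → zpowers (s * z) = Cx(s) :=
    fun {s z} hs hz h => cyc h (by rw [hs, hz]; norm_num) (by rw [L.c7 s hs, hs, hz])
  have Nz : Nm(zpowers s) ≤ Cx(z) := by
    refine ((Nm_le_Nm_Cz _).trans ?_).trans (nz hz)
    rw [Cz_zpowers]
    exact Nm_le_Nm_of_isCyclic (c14 hs hz zs ▸ inferInstance) (zpowers_le.2 zs)
  have yz : y ∈ Cx(z) := Nz ys
  have zs' : z ∈ Cx(s⁻¹) := Cx_symm (inv_mem (Cx_symm zs))
  have hsz : orderOf (s * z) = 14 := om zs hs hz (by norm_num)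
  have hsz' : orderOf (s⁻¹ * z) = 14 := om zs' (by rw [orderOf_inv, hs]) hz (by norm_num)
  have hfx : orderOf (f * x) = 15 := om xf hf hx (by norm_num)
  have hfx' : orderOf (f * x⁻¹) = 15 := om (inv_mem xf) hf (by rw [orderOf_inv, hx]) (by norm_num)
  have hzy : orderOf (z * y) = 6 := om yz hz hy (by norm_num)
  have n7 : ∀ s : G, orderOf s = 7 → ¬ IsConj s s⁻¹ := fun s hs =>
    nr (k := 3) (sq1 (by rw [hs]; norm_num)) (by decide) (by rw [L.c7 s hs, L.n7 s hs])
  have n1 : ¬ IsConj u u⁻¹ :=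
    nr (k := 11) (sq1 (by rw [hu]; norm_num)) (by decide) (by rw [L.c23 u hu, L.n23 u hu])
  have n2 : ¬ IsConj w w⁻¹ :=
    nr (k := 5) (sq1 (by rw [hw]; norm_num)) (by decide) (by rw [L.c11 w hw, L.n11 w hw])
  have n3 := n7 s hs
  have pw : ∀ {a b : G} {m n : ℕ}, b ∈ Cx(a) → orderOf b ∣ n → orderOf a = m → n % m = 1 →
      (a * b) ^ n = a := by
    rintro a b _ n h hb rfl e
    rw [Commute.mul_pow (mem_Cx.1 h).symm, orderOf_dvd_iff_pow_eq_one.1 hb, mul_one,
      ← pow_mod_orderOf, e, pow_one]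
  have e1 : (s * z) ^ 8 = s := pw zs (by rw [hz]; norm_num) hs (by norm_num)
  have e2 : (s⁻¹ * z) ^ 8 = s⁻¹ := pw zs' (by rw [hz]; norm_num) (by rw [orderOf_inv, hs]) (by norm_num)
  have e3 : (f * x) ^ 6 = f := pw xf (by rw [hx]; norm_num) hf (by norm_num)
  have e4 : (f * x⁻¹) ^ 6 = f :=
    pw (inv_mem xf) (by rw [orderOf_inv, hx]; norm_num) hf (by norm_num)
  have n4 : ¬ IsConj (s * z) (s⁻¹ * z) := fun h => n3 (by simpa only [e1, e2] using h.pow 8)
  have c15 : zpowers (f * x) = Cx(f) := cyc xf (by rw [hf, hx]; norm_num) (by rw [L.c5 f hf, hf, hx])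
  have n5 : ¬ IsConj (f * x) (f * x⁻¹) := by
    intro h
    obtain ⟨g, hg⟩ := isConj_iff.1 h
    have gf : g ∈ Cx(f) := by
      rw [mem_Cx']
      conv_lhs => rw [← e3, ← conj_pow, hg, e4]
    rw [mem_Cx'.1 (ab c15 (mul_mem (self_Cx f) xf) gf), mul_right_inj] at hg
    exact sq1 (g := x) (by rw [hx]; norm_num) (by nth_rewrite 1 [hg]; simp)
  obtain ⟨h, hcl, hsum⟩ := class_ext
    [1, u, u⁻¹, w, w⁻¹, s, s⁻¹, s * z, s⁻¹ * z, f, f * x, f * x⁻¹, z, x, v, z * y] (by
      refine List.Pairwise.imp (R := fun a b => orderOf a ≠ orderOf b ∨ ¬ IsConj a b)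
        (fun h e => h.elim (fun h => h (oconj e)) fun h => h e) ?_
      simp only [List.pairwise_cons, List.mem_cons, forall_eq_or_imp, List.not_mem_nil,
        orderOf_one, orderOf_inv, hu, hw, hs, hf, hz, hx, hv, hsz, hsz', hfx, hfx', hzy, n1, n2, n3,
        n4, n5, false_imp_iff, implies_true, List.Pairwise.nil, not_false_eq_true, or_true]
      norm_num) (by rw [L.k17]; rfl)
  have ci : ∀ g : G, Nat.card Cx(g) * (Cx(g)).index = 10200960 := fun g => by
    rw [card_mul_index, N]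
  have ix : ∀ {g : G} {c : ℕ}, Nat.card Cx(g) = c → (Cx(g)).index = 10200960 / c := by
    rintro g _ rfl
    rw [← ci g, Nat.mul_div_cancel_left _ Nat.card_pos]
  have cp : ∀ {a g : G} {n : ℕ}, g ^ n = a → Cx(g) ≤ Cx(a) := by
    rintro _ g n rfl k hk
    exact Cx_symm (pow_mem (Cx_symm hk) n)
  have ce : ∀ {a g c : G} {n : ℕ}, g ^ n = a → g ∈ Cx(a) → zpowers c = Cx(a) →
      Nat.card Cx(g) = Nat.card Cx(a) := fun e hg hc => by
    rw [le_antisymm (cp e) (ab hc hg)]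
  have i1 : (Cx((1 : G))).index = 1 := by
    rw [index_eq_one, eq_top_iff]
    exact fun g _ => mem_Cx.2 (by simp)
  have hs' : orderOf s⁻¹ = 7 := by rw [orderOf_inv, hs]
  simp only [List.map_cons, List.map_nil, List.sum_cons, List.sum_nil, i1, N, ix (L.c23 u hu),
    ix (L.c23 u⁻¹ (by rw [orderOf_inv, hu])), ix (L.c11 w hw),
    ix (L.c11 w⁻¹ (by rw [orderOf_inv, hw])), ix (L.c7 s hs), ix (L.c7 _ hs'), ix (L.c5 f hf),
    ix ((ce e1 (mul_mem (self_Cx s) zs) (c14 hs hz zs)).trans (L.c7 s hs)),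
    ix ((ce e2 (mul_mem (self_Cx _) zs') (c14 hs' hz zs')).trans (L.c7 _ hs')),
    ix ((ce e3 (mul_mem (self_Cx f) xf) c15).trans (L.c5 f hf)),
    ix ((ce e4 (mul_mem (self_Cx f) (inv_mem xf)) c15).trans (L.c5 f hf))] at hsum
  have cl : ∀ g : G, IsConj h g ∨ orderOf g ∈ [1, 23, 11, 7, 14, 5, 15, 4] ∨ IsConj z g ∨
      IsConj x g ∨ IsConj (z * y) g := by
    intro g
    rcases hcl g with e | ⟨a, ha, e⟩
    · exact Or.inl e
    right
    have o := oconj e
    simp only [List.mem_cons, List.not_mem_nil, or_false] at ha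
    rcases ha with rfl | rfl | rfl | rfl | rfl | rfl | rfl | rfl | rfl | rfl | rfl | rfl | rfl |
      rfl | rfl | rfl
    all_goals first
      | exact Or.inr (Or.inl e)
      | exact Or.inr (Or.inr (Or.inl e))
      | exact Or.inr (Or.inr (Or.inr e))
      | (left; rw [← o]; simp [hu, hw, hs, hf, hv, hsz, hsz', hfx, hfx'])
  have d0 : ∀ {g : G}, orderOf g ∈ [2, 3, 4, 6] → Nat.card Cx(g) ∣ 40320 := by
    intro g hg
    have a := ndvd p23 L.c23 (g := g) (by
      revert hg; generalize orderOf g = o; intro hg; fin_cases hg <;> norm_num)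
    have b := ndvd p11 L.c11 (g := g) (by
      revert hg; generalize orderOf g = o; intro hg; fin_cases hg <;> norm_num)
    exact rm p11 (rm p23 (Dvd.intro _ (ci g)) a : _ ∣ 40320 * 11) b
  have od : ∀ {g a : G} {n : ℕ}, orderOf a = n → a ∈ Cx(g) → n ∣ Nat.card Cx(g) := by
    rintro g a _ rfl h
    exact Subgroup.orderOf_dvd_natCard _ h
  have nine : ∀ {g : G}, orderOf g = 3 → 9 ∣ Nat.card Cx(g) := fun {g} hg => by
    have := sq p3 (mem_top g) hg (by rw [Nt]; norm_num)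
    rwa [top_inf_eq] at this
  have d1 : ∀ {g : G}, orderOf g ∈ [4, 6] → Nat.card Cx(g) ∣ 1152 := by
    intro g hg
    have a := ndvd p7 L.c7 (g := g) (by
      revert hg; generalize orderOf g = o; intro hg; fin_cases hg <;> norm_num)
    have b := ndvd p5 L.c5 (g := g) (by
      revert hg; generalize orderOf g = o; intro hg; fin_cases hg <;> norm_num)
    exact rm p5 (rm p7 (d0 (by
      revert hg; generalize orderOf g = o; intro hg; fin_cases hg <;> norm_num)) a : _ ∣ 1152 * 5) b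
  have e5 : (z * y) ^ 3 = z := pw yz (by rw [hy]) hz (by norm_num)
  have e6 : (z * y) ^ 4 = y := by
    rw [← mem_Cx.1 yz]
    exact pw (Cx_symm yz) (by rw [hz]; norm_num) hy (by norm_num)
  obtain ⟨r1, r2, r3, r4⟩ := arith (c' := Nat.card Cx(y))
    (rm p5 (d0 (g := z) (by rw [hz]; norm_num)) (ndvd p5 L.c5 (by rw [hz]; norm_num)))
    (L.n7 s hs ▸ card_dvd_of_le Nz)
    (rm p7 (d0 (g := x) (by rw [hx]; norm_num)) (ndvd p7 L.c7 (by rw [hx]; norm_num)))
    (Nat.Coprime.mul_dvd_of_dvd_of_dvd (by norm_num : Nat.Coprime 9 5) (nine hx)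
      (od hf (Cx_symm xf)))
    (d1 (g := v) (by rw [hv]; norm_num)) (od hv (self_Cx v))
    (d1 (g := z * y) (by rw [hzy]; norm_num)) (od hzy (self_Cx _))
    (ci z) (ci x) (ci v) (ci (z * y)) (ci h) (by omega) (card_dvd_of_le (cp e5))
    (by
      rcases cl y with e | e | e | e | e
      · exact Or.inr (cconj e).symm
      · rw [hy] at e; norm_num at e
      · have := oconj e; omega
      · exact Or.inl (cconj e).symm
      · have := oconj e; omega)
    (Nat.Coprime.mul_dvd_of_dvd_of_dvd (by norm_num : Nat.Coprime 9 2) (nine hy)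
      (od hz (Cx_symm yz)))
    (card_dvd_of_le (cp e6))
    (fun h4 => (sq p2 (Cx_symm yz) hz h4).trans (card_dvd_of_le fun g hg =>
      Cx_symm (mul_mem (Cx_symm hg.2) (Cx_symm hg.1))))
    (fun h7 => by
      obtain ⟨s', hs1, hs2⟩ := ex 7 p7 _ h7
      obtain ⟨z', hz1, hz2⟩ := ex 2 p2 Cx(s') (by rw [L.c7 s' hs2]; norm_num)
      exact L.c7 s' hs2 ▸ card_dvd_of_le (ab (c14 hs2 hz2 hz1) (Cx_symm hs1)))
  have oh : orderOf h ∣ 32 := (od rfl (self_Cx h)).trans r4
  have cl' : ∀ (g : G) (n : ℕ), orderOf g = n → ¬ n ∣ 32 → n ∉ [1, 23, 11, 7, 14, 5, 15, 4] →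
      (n = 2 ∧ IsConj z g) ∨ (n = 3 ∧ IsConj x g) ∨ (n = 6 ∧ IsConj (z * y) g) := by
    rintro g _ rfl h1 h2
    rcases cl g with e | e | e | e | e
    · exact absurd (oconj e ▸ oh) h1
    · exact absurd e h2
    · exact Or.inl ⟨oconj e ▸ hz, e⟩
    · exact Or.inr (Or.inl ⟨oconj e ▸ hx, e⟩)
    · exact Or.inr (Or.inr ⟨oconj e ▸ hzy, e⟩)
  have k3 : ∀ g : G, orderOf g = 3 → IsConj x g := fun g hg => by
    simpa only [Nat.reduceEqDiff, false_and, true_and, false_or, or_false] using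
      cl' g 3 hg (by norm_num) (by norm_num)
  have k6 : ∀ g : G, orderOf g = 6 → IsConj (z * y) g := fun g hg => by
    simpa only [Nat.reduceEqDiff, false_and, true_and, false_or, or_false] using
      cl' g 6 hg (by norm_num) (by norm_num)
  refine ⟨L, fun a b ha hb => (k3 a ha).symm.trans (k3 b hb), fun a ha => cconj (k3 a ha) ▸ r2,
    fun a b ha hb => (k6 a ha).symm.trans (k6 b hb), fun a ha => cconj (k6 a ha) ▸ r3,
    fun a b ha hb hab => ?_, fun g hg => ?_, fun g hg => ?_, ?_⟩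
  · have m : b ∈ Cx(a) := mem_Cx.2 hab.symm
    have := (k6 _ (om m ha hb (by norm_num))).pow 3
    rw [e5, pw m (by rw [hb]) ha (by norm_num)] at this
    exact cconj this ▸ r1
  · have := cl' g 9 hg (by norm_num) (by norm_num)
    omega
  · have := cl' g 12 hg (by norm_num) (by norm_num)
    omega
  · rintro ⟨g, hg⟩
    have o8 : orderOf h = 8 := by
      rcases cl g with e | e | e | e | e
      · exact oconj e ▸ hg
      · rw [hg] at e; norm_num at e
      all_goals have := oconj e; omega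
    have k2 : ∀ a : G, orderOf a = 2 → IsConj z a := fun a ha => by
      rcases cl a with e | e | e | e | e
      · have := oconj e; omega
      · rw [ha] at e; norm_num at e
      · exact e
      all_goals have := oconj e; omega
    exact fun a b ha hb => (k2 a ha).symm.trans (k2 b hb)

end CfH5.M23
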