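import Cfsg.Agent.H6.N23Q0
import Cfsg.Agent.H7.PA3
import Cfsg.Agent.H8.PA1
import Cfsg.Agent.H8.PA4
/-! The automizer of a subgroup of order seven in a simple group of order `10200960`. -/
set_option autoImplicit false
open Cfsg CfH4 CfH4.GA CfH9 CfH4.D1 CfH4.PA CfH8.PA Subgroup Finset
open scoped ComplexConjugate
namespace CfH5.M23
universe u
variable {G : Type u} [Group G] [Finite G]

theorem core2 [IsSimpleGroup G] (nc : ¬ ∀ a b : G, a * b = b * a) (h2 : 2 ∣ Nat.card G) {p : ℕ} [hp : Fact p.Prime]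
    (p2 : p ≠ 2) {x : G} (h : Syl p x) (he : e p x = 2) : ∃ d, 1 < d ∧ d ∣ Nat.card G ∧ d + 1 ∣ Nat.card G ∧
      ∃ c, c * c = Nat.card Cx(x) * Nat.card G * (d * (d + 1)) := by
  classical
  have S := sys nc
  obtain ⟨s, -⟩ := cinv (G := G) (k := 0) h2
  have V := fun i => (val nc s i).1
  have D : ∀ i : Ir G, (i.1 : G → ℂ) 1 = ((dg i : ℤ) : ℂ) := fun i => by
    rw [Int.cast_natCast]; exact i.1.2.isCharacter.deg_eq.symm
  have a1 := gr h (one_ne_zero (α := ZMod p)) one_ne_zero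
  rw [if_pos (by rw [mul_inv_cancel₀ one_ne_zero]; exact (EH h).one_mem), he] at a1
  obtain ⟨a, b, ab, ua, ub, dab, z⟩ := CfH7.PA.two_ent (u := fun i : Ir G => u x (1 : ZMod p) i.1) (d := dg)
    (by push_cast at a1; linarith) (ln h one_ne_zero PReg.one D) fun i => (S.dv i).2
  refine ⟨dg b, (S.dv b).2, (S.dv b).1, dab ▸ (S.dv a).1, ?_⟩
  have R : PReg p s.1 := by
    change (orderOf s.1).Coprime p
    rw [s.2]; exact (Nat.coprime_primes Nat.prime_two hp.out).2 p2.symm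
  have l := ln h one_ne_zero R V
  have q := h.quad (s := s.1) (by have := pow_orderOf_eq_one s.1; rwa [s.2, pow_two] at this) p2 one_ne_zero
  rw [Fintype.sum_eq_add a b ab fun i hi => by rw [z i hi.1 hi.2, zero_mul], ua, ub] at l
  rw [sum_Ir, h.u_triv one_ne_zero, Fintype.sum_eq_add a b ab fun i hi => by
    rw [z i hi.1 hi.2, Int.cast_zero, zero_mul], ua, ub] at q
  have va : vv s.1 a = vv s.1 b + 1 := by linarith
  simp only [V, D, triv_apply, map_div₀, map_mul, map_intCast, map_one, va, dab] at q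
  have lt := (abs_lt.1 ((S.inv s).lt b)).2
  generalize vv s.1 b = v at q lt
  have d1 := (S.dv b).2
  generalize dg b = d at q lt d1
  generalize Nat.card (Syl.A x s.1) = r at q
  generalize Nat.card Cx(x) = C at q
  generalize Nat.card G = g at q
  have d0 : (d : ℂ) ≠ 0 := Nat.cast_ne_zero.2 (by omega)
  have d0' : (d : ℂ) + 1 ≠ 0 := by exact_mod_cast Nat.succ_ne_zero d
  have k : (((C * g * (d * (d + 1)) : ℕ) * (d - v) ^ 2 : ℤ) : ℂ) = (((r * (d * (d + 1)) : ℤ) ^ 2 : ℤ) : ℂ) := by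
    push_cast at q ⊢
    field_simp at q
    linear_combination (-(d * (d + 1) : ℂ)) * q
  have k := Int.cast_injective k
  obtain ⟨t, ht⟩ := (Int.pow_dvd_pow_iff two_ne_zero).1 (Dvd.intro_left _ k)
  rw [ht, mul_pow, mul_comm, mul_right_inj' (pow_ne_zero _ (by omega))] at k
  exact ⟨t.natAbs, by exact_mod_cast (Int.natAbs_mul_self' t).trans ((pow_two t).symm.trans k.symm)⟩

theorem dlt : ∀ a < 57, ∀ b < 57, 57 * a + b ∣ 10200960 → 57 * a + b + 1 ∣ 10200960 → 57 * a + b < 385 := by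
  decide +kernel

theorem num3 : ∀ K ∈ Nat.divisors 576, ∀ d < 385, 1 < d → d ∣ 10200960 →
    d + 1 ∣ 10200960 → Nat.sqrt (7 * K * 10200960 * (d * (d + 1))) * Nat.sqrt (7 * K * 10200960 * (d * (d + 1))) ≠
      7 * K * 10200960 * (d * (d + 1)) := by decide +kernel

theorem syl_of [IsSimpleGroup G] {p : ℕ} [hp : Fact p.Prime] (h2 : ¬ p ^ 2 ∣ Nat.card G) (hG : Nat.card G ≠ p) {x : G}
    (hx : orderOf x = p) : Syl p x := by
  obtain ⟨K, -, -, -, -, -, -, -, -, k4⟩ := CfH8.MG.g5 hp.out h2 hG hx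
  exact ⟨hx, k4⟩

theorem ndv [IsSimpleGroup G] {p c n m : ℕ} [hp : Fact p.Prime] (h2 : ¬ p ^ 2 ∣ Nat.card G) (hG : Nat.card G ≠ p)
    (h : CfLm.CN G p c n) {y : G} (hy : orderOf y = m) (hm : ¬ m ∣ c) : ¬ p ∣ Nat.card Cx(y) := fun d => by
  obtain ⟨x, hx⟩ := exists_prime_orderOf_dvd_card' (G := G) p (d.trans (card_subgroup_dvd_card _))
  exact hm ((h x hx).1 ▸ swp (syl_of h2 hG hx) hy d)

theorem r3 : CfH6.QC.R3.{u} := fun {G} _ _ hs hG h23 h11 h5 y hy he => by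
  obtain ⟨K, k1, -, -, -, k2, -, -, -, k4⟩ := CfH8.MG.g5 (by norm_num) (by rw [hG]; norm_num) (by rw [hG]; norm_num) hy
  obtain ⟨d, d1, d2, d3, c⟩ := core2 (ncm (by rw [hG]; norm_num)) (by rw [hG]; norm_num) (p := 7) (by norm_num)
    ⟨hy, k4⟩ he
  have n23 := ndv (by rw [hG]; norm_num) (by rw [hG]; norm_num) h23 hy (by norm_num)
  have n11 := ndv (by rw [hG]; norm_num) (by rw [hG]; norm_num) h11 hy (by norm_num)
  have n5 := ndv (by rw [hG]; norm_num) (by rw [hG]; norm_num) h5 hy (by norm_num)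
  rw [show Nat.card {t : ZMod 7 // IsConj y (y ^ t.val)} = 2 from he, hG] at k2
  rw [k1] at c n23 n11 n5
  rw [hG] at c d2 d3
  have k3 : K ∣ 23 * (11 * (5 * 576)) :=
    Nat.dvd_of_mul_dvd_mul_left (by norm_num) (show 7 * 2 * K ∣ 7 * 2 * (23 * (11 * (5 * 576))) from k2)
  have cp : ∀ {q : ℕ}, q.Prime → ¬ q ∣ 7 * K → K.Coprime q := fun hq n =>
    ((Nat.Prime.coprime_iff_not_dvd hq).2 fun e => n (e.mul_left 7)).symm
  have k5 := (cp (by norm_num) n5).dvd_of_dvd_mul_left ((cp (by norm_num) n11).dvd_of_dvd_mul_left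
    ((cp (by norm_num) n23).dvd_of_dvd_mul_left k3))
  have := Nat.le_of_dvd (by norm_num) (Nat.Coprime.mul_dvd_of_dvd_of_dvd (by simp) d2 d3)
  have d4 : d < 3194 := by nlinarith
  have d5 := dlt (d / 57) (by omega) (d % 57) (by omega)
  rw [Nat.div_add_mod] at d5
  exact num3 K (Nat.mem_divisors.2 ⟨k5, by norm_num⟩) d (d5 d2 d3) d1 d2 d3 ((Nat.exists_mul_self _).1 c)

end CfH5.M23
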