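import Cfsg.Agent.OD.Pre
import Cfsg.Agent.H5.TIFN

/-! Coherent sets of characters for a TI subgroup with Frobenius normalizer. -/

set_option autoImplicit false
open scoped ComplexConjugate
open Cfsg CfH4

namespace CfH5

universe u v

section
variable {L : Type u} [Group L] [Fintype L] {G : Type v} [Group G] [Fintype G]
  {S : Set (L → ℂ)} {τ : (L → ℂ) → (G → ℂ)}

theorem mem_zspan {X : Type*} {S : Set (X → ℂ)} {χ : X → ℂ} (h : χ ∈ S) : χ ∈ zspan S :=
  Submodule.subset_span h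

theorem comb_mem_zspan {X : Type*} {S : Set (X → ℂ)} {χ ξ : X → ℂ} (h : χ ∈ S) (h' : ξ ∈ S)
    (a b : ℤ) : a • χ - b • ξ ∈ zspan S :=
  (Submodule.span ℤ S).sub_mem (Submodule.smul_mem _ _ (mem_zspan h))
    (Submodule.smul_mem _ _ (mem_zspan h'))

theorem isometry_comb (hτ : IsLinearIsometryOn (zspan S) τ) {χ ξ : L → ℂ} (h : χ ∈ S) (h' : ξ ∈ S)
    (a b : ℤ) : τ (a • χ - b • ξ) = a • τ χ - b • τ ξ := by
  rw [sub_eq_add_neg, ← neg_zsmul, hτ.1 _ (Submodule.smul_mem (Submodule.span ℤ S) _ (mem_zspan h))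
    _ (Submodule.smul_mem (Submodule.span ℤ S) _ (mem_zspan h')), hτ.2.1 _ (mem_zspan h),
    hτ.2.1 _ (mem_zspan h'), neg_zsmul, sub_eq_add_neg]

end

variable {G : Type u} [Group G] [Fintype G] (K N : Subgroup G) [Fintype N]
  {S : Set (N → ℂ)} {τ : (N → ℂ) → (G → ℂ)}

theorem star_comb_eq_indFun (hS : ∀ χ ∈ S, IsCharacter N χ) (hτ : IsLinearIsometryOn (zspan S) τ)
    (hext : ∀ α ∈ zspanOn S ({1}ᶜ : Set N), τ α = indFun N α) {χ ξ : N → ℂ} (h : χ ∈ S)
    (h' : ξ ∈ S) : ξ 1 • τ χ - χ 1 • τ ξ = indFun N (ξ 1 • χ - χ 1 • ξ) := by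
  obtain ⟨a, ha⟩ := (hS χ h).exists_degree
  obtain ⟨b, hb⟩ := (hS ξ h').exists_degree
  have h1 := isometry_comb hτ h h' b a
  rw [hext _ ⟨comb_mem_zspan h h' _ _, fun x hx => by
    have : x = 1 := by simpa using hx
    simp [this, ha, hb, mul_comm]⟩] at h1
  simp only [← Int.cast_smul_eq_zsmul ℂ, Int.cast_natCast] at h1
  rw [ha, hb, h1]

/-- If `ψ` has the same inner products with the `τ χ` as `η` has with the `χ`, then `ψ - η` is a
constant integer on the nonidentity elements of `K`. -/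
theorem tifn_const (hS : S = {χ : N → ℂ | IsIrrCharacter N χ ∧ ∃ k : N, (k : G) ∈ K ∧ χ k ≠ χ 1})
    (hne : S.Nonempty) (hτ : IsLinearIsometryOn (zspan S) τ)
    (hext : ∀ α ∈ zspanOn S ({1}ᶜ : Set N), τ α = indFun N α) {ψ : G → ℂ} {η : N → ℂ}
    (hψ : IsGeneralizedCharacter G ψ) (hη : IsGeneralizedCharacter N η)
    (h : ∀ χ ∈ S, classInner ψ (τ χ) = classInner η χ) :
    ∃ d : ℤ, ∀ k : N, (k : G) ∈ K → k ≠ 1 → ψ k - η k = d := by
  classical
  obtain ⟨χ0, h0⟩ := hne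
  have hirr : ∀ χ ∈ S, IsIrrCharacter N χ := fun χ hχ => (hS ▸ hχ).1
  have hΘ : IsGeneralizedCharacter N ((fun x : N => ψ x) - η) := (hψ.res N).sub hη
  set Θ : N → ℂ := (fun x : N => ψ x) - η with hΘdef
  have h1 : ∀ χ ∈ S, classInner Θ χ = classInner Θ χ0 / χ0 1 * χ 1 := by
    intro χ hχ
    have h2 := congrArg (classInner ψ)
      (star_comb_eq_indFun N (fun χ hχ => (hirr χ hχ).isCharacter) hτ hext hχ h0)
    rw [classInner_indFun_right N _ hψ.classFun] at h2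
    simp only [classInner_sub_right, classInner_smul_right, h χ hχ, h χ0 h0,
      conj_irr_one ⟨χ, hirr χ hχ⟩, conj_irr_one ⟨χ0, hirr χ0 h0⟩] at h2
    have := (hirr χ0 h0).apply_one_ne_zero
    simp only [hΘdef, classInner_sub_left]
    field_simp
    linear_combination -h2
  have h2 := fun (k : N) (hk : (k : G) ∈ K) (hk1 : k ≠ 1) => const_of_inner_prop (K.subgroupOf N)
    hΘ.classFun _ (fun χ hχ hχ' => h1 χ (hS ▸ ⟨hχ, hχ'⟩)) hk hk1
  by_cases hK : ∃ k : N, (k : G) ∈ K ∧ k ≠ 1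
  · obtain ⟨k, hk, hk1⟩ := hK
    have h3 : Θ k ∈ (algebraMap ℚ ℂ).range := by
      rw [h2 k hk hk1]
      have hd : ∀ χ : N → ℂ, IsIrrCharacter N χ → χ 1 ∈ (algebraMap ℚ ℂ).range := fun χ hχ => by
        rw [← hχ.isCharacter.deg_eq]; exact natCast_mem _ _
      have hi : ∀ χ : N → ℂ, IsIrrCharacter N χ → classInner Θ χ ∈ (algebraMap ℚ ℂ).range :=
        fun χ hχ => by rw [← zmult_eq hΘ hχ.isGen]; exact intCast_mem _ _
      refine sum_mem fun χ _ => ?_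
      split_ifs
      · exact zero_mem _
      · refine mul_mem (sub_mem (hi _ χ.2) (mul_mem ?_ (hd _ χ.2))) (hd _ χ.2)
        exact (algebraMap ℚ ℂ).fieldRange.div_mem (hi _ (hirr _ h0)) (hd _ (hirr _ h0))
    obtain ⟨q, hq⟩ := h3
    obtain ⟨d, rfl⟩ := int_of_isIntegral_rat (q := q) (by
      have := isIntegral_genChar hΘ k
      rwa [← hq] at this)
    refine ⟨d, fun k' hk' hk1' => ?_⟩
    have h4 : Θ k' = Θ k := (h2 k' hk' hk1').trans (h2 k hk hk1).symm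
    rw [← hq] at h4
    simpa [hΘdef] using h4
  · exact ⟨0, fun k hk hk1 => (hK ⟨k, hk, hk1⟩).elim⟩

end CfH5
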