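import Cfsg.Agent.H8.W0
import Cfsg.Agent.H8.JComp4
import Cfsg.Agent.H4.D8b
import Cfsg.Agent.H3.SmallGroups
/-! The configuration with a dihedral Sylow subgroup of order eight. -/
set_option autoImplicit false
namespace CfH5.W
open Subgroup CfH9 Cfsg CfH8 CfH8.W
open CfH7 (OZ)
universe u
variable {G : Type*} [Group G] [Finite G]

theorem cw {T K : Subgroup G} (g : GH T) (o : Orb T K K) (hW : pCoreOf 2 K = wOf K) (hC : T ⊓ Cz(K) = ⊥) :
    T ≤ Nm(wOf K) ∧ T ⊓ Cz(wOf K) = wOf K := by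
  have jc := o.jc
  have hTK : T ≤ Nm(K) := fun t ht => mem_normalizer_of_cj_le (by rcases o.orb t ht with e | e <;> exact e.le)
  have hTW := hTK.trans (Nm_le_Nm_wOf K)
  have WC : wOf K ≤ Cz(wOf K) := by nth_rewrite 1 [← hW]; exact pCoreOf_le_Cz_wOf K
  refine ⟨hTW, (eq_of_le_of_card_ge (le_inf (g.syl.le_of_le_Nm (isPGroup_wOf K) le_top hTW) WC) ?_).symm⟩
  obtain ⟨d, hd, dW⟩ := SetLike.not_le_iff_exists.1 (jc.not_le (isPGroup_wOf K))
  have eK : wOf K ⊔ zpowers d = K := (jc.eq_or_eq (hW ▸ le_sup_left) (sup_le (wOf_le K) (zpowers_le.2 hd))).resolve_left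
    fun e => dW (hW ▸ e ▸ mem_sup_right (mem_zpowers d))
  refine Nat.card_le_card_of_injective (fun c => ⟨d⁻¹ * c * d * (c : G)⁻¹, ?_⟩) fun a b e => ?_
  · refine (jc.inf_Cz_wOf.trans hW).le (mi ?_ (mul_mem ?_ (inv_mem (mem_inf.1 c.2).2)))
    · have := mul_mem (inv_mem hd) ((mem_normalizer_iff.1 (hTK c.2.1) d).1 hd)
      simpa only [mul_assoc] using this
    · have := (mem_normalizer_iff.1 (mem_Nm_Cz (inv_mem (le_Nm_wOf K hd))) c).1 c.2.2
      rwa [inv_inv] at this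
  · have e1 : d⁻¹ * a * d * (a : G)⁻¹ = d⁻¹ * b * d * (b : G)⁻¹ := congrArg Subtype.val e
    have : (b : G)⁻¹ * a ∈ T ⊓ Cz(K) := by
      refine mi (mul_mem (inv_mem (mem_inf.1 b.2).1) (mem_inf.1 a.2).1) (Cz_anti eK.ge ?_)
      rw [Cz_sup, Cz_zpowers]
      refine mi (mul_mem (inv_mem (mem_inf.1 b.2).2) (mem_inf.1 a.2).2) (mem_Cx.2 ?_)
      calc (b : G)⁻¹ * a * d = (b : G)⁻¹ * d * (d⁻¹ * a * d * (a : G)⁻¹) * a := by group
        _ = d * ((b : G)⁻¹ * a) := by rw [e1]; group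
    rw [hC, mem_bot, inv_mul_eq_one] at this
    exact Subtype.ext this.symm

theorem d8 {T W : Subgroup G} (zc : Cz(OZ 2 T) ≤ T) (hn : T ≤ Nm(W)) (el : IsElementaryAbelian 2 W)
    (h4 : Nat.card W = 4) (hC : T ⊓ Cz(W) = W) {a : G} (ha : a ∈ T) (a2 : a * a = 1) (aW : a ∉ W) (pT : IsPGroup 2 T) :
    ∃ z, orderOf z = 2 ∧ Cx(z) = T ∧ Nonempty (T ≃* DihedralGroup 4) := by
  have WT : W ≤ T := hC.ge.trans inf_le_left
  have sq : ∀ x ∈ W, x * x = 1 := fun x hx => by rw [← pow_two]; exact el.2 x hx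
  have cm : ∀ x ∈ W, ∀ y ∈ W, x * y = y * x := fun x hx y hy => (mem_centralizer_iff.1 (hC.ge hy).2 x hx)
  have cj : ∀ t ∈ T, ∀ x ∈ W, t * x * t⁻¹ ∈ W := fun t ht x hx => (mem_normalizer_iff.1 (hn ht) x).1 hx
  have ai : a⁻¹ = a := inv_eq_of_mul_eq_one_right a2
  obtain ⟨⟨z, zW, zT⟩, z1⟩ := ne_bot_iff_exists_ne_one.1 (CfH9.inf_Cz_ne_bot pT (CfH7.elemAb_isPGroup el) hn
    fun e => by rw [e, card_bot] at h4; omega)
  replace z1 : z ≠ 1 := fun e => z1 (Subtype.ext e)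
  have zc' : ∀ t ∈ T, t * z = z * t := mem_centralizer_iff.1 zT
  obtain ⟨w, hw, wa⟩ : ∃ w ∈ W, w * a ≠ a * w := by
    by_contra c
    push Not at c
    exact aW (hC.le ⟨ha, mem_centralizer_iff.2 c⟩)
  have w1 : w ≠ 1 := fun e => wa (by simp [e])
  have zw : z ≠ w := fun e => wa (e ▸ (zc' a ha).symm)
  have F := fun x (hx : x ∈ W) => four_cases el h4.le zW hw z1 w1 zw hx
  have cW : ∀ t ∈ T, t * w * t⁻¹ = w → t ∈ W := fun t ht e => hC.le ⟨ht, mem_centralizer_iff.2 fun x hx => by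
    have e' := mul_inv_eq_iff_eq_mul.1 e
    rcases F x hx with rfl | rfl | rfl | rfl
    · simp
    · exact (zc' t ht).symm
    · exact e'.symm
    · rw [mul_assoc, ← e', ← mul_assoc, ← zc' t ht, mul_assoc]⟩
  have nW : ∀ t ∈ T, t ∉ W → t * w * t⁻¹ = z * w := fun t ht tW => by
    rcases F _ (cj t ht w hw) with e | e | e | e
    · exact absurd (by simpa using e) w1
    · rw [mul_inv_eq_iff_eq_mul, ← zc' t ht] at e
      exact absurd (mul_left_cancel e).symm zw
    · exact absurd (cW t ht e) tW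
    · exact e
  have aw := nW a ha aW
  have aT : ∀ t ∈ T, t ∉ W → a * t ∈ W := fun t ht tW => cW _ (mul_mem ha ht) (by
    calc a * t * w * (a * t)⁻¹ = a * (t * w * t⁻¹) * a⁻¹ := by group
      _ = (a * z) * w * a⁻¹ := by rw [nW t ht tW, mul_assoc a z]
      _ = z * (a * w * a⁻¹) := by rw [zc' a ha]; group
      _ = w := by rw [aw, ← mul_assoc, sq z zW, one_mul])
  have h8 : Nat.card T = 8 := by
    rw [← card_mul_relIndex WT, h4, relIndex, index_eq_two_iff'.2 ⟨⟨a, ha⟩, fun b => ?_⟩]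
    by_cases hb : (b : G) ∈ W
    · exact .inr ⟨hb, fun e => aW ((mul_mem_cancel_right hb).1 e)⟩
    · exact .inl ⟨aT b b.2 hb, hb⟩
  have zo : orderOf z = 2 := orderOf_eq_prime (by rw [pow_two, sq z zW]) z1
  have r2 : (a * w) ^ 2 = z := by
    calc (a * w) ^ 2 = a * w * a⁻¹ * w := by rw [ai, pow_two, mul_assoc (a * w)]
      _ = z := by rw [aw, mul_assoc, sq w hw, mul_one]
  let r : T := ⟨a * w, mul_mem ha (WT hw)⟩
  have ro : orderOf r = 4 := by
    rw [← orderOf_coe]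
    refine orderOf_eq_prime_pow (p := 2) (n := 1) (by rw [pow_one, r2]; exact z1) ?_
    rw [show 2 ^ (1 + 1) = 2 * 2 from rfl, pow_mul, r2, pow_two, sq z zW]
  refine ⟨z, zo, le_antisymm (le_trans ?_ zc) fun t ht => mem_Cx.2 (zc' t ht), ?_⟩
  · rw [← Cz_zpowers]
    refine Cz_anti fun x hx => ?_
    have x1 := CfH7.OZ_le_Cz T hx
    have xa := mem_centralizer_iff.1 x1 a ha
    rcases F x (hC.le ⟨CfH7.OZ_le T hx, Cz_anti WT x1⟩) with rfl | rfl | rfl | rfl
    · exact one_mem _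
    · exact mem_zpowers _
    · exact absurd xa.symm wa
    · rw [← mul_assoc, zc' a ha, mul_assoc, mul_assoc] at xa
      exact absurd (mul_left_cancel xa).symm wa
  · have := CfH3.equiv_dihedral (zpowers r) inferInstance (by
      have := (zpowers r).card_mul_index
      rw [Nat.card_zpowers, ro, h8] at this
      omega) fun t ht => Subtype.ext (show (t : G) * t = 1 from by
      by_cases tW : (t : G) ∈ W
      · exact sq _ tW
      have e0 : (t : G) = a * (a * t) := by rw [← mul_assoc, a2, one_mul]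
      rcases F _ (aT t t.2 tW) with e | e | e | e <;> rw [e] at e0
      · rw [e0, mul_one, a2]
      · rw [e0, mul_assoc, ← mul_assoc z, ← zc' a ha, mul_assoc, sq z zW, mul_one, a2]
      · exact absurd ((Subtype.ext e0.symm : r = t) ▸ mem_zpowers r) ht
      · refine absurd ((Subtype.ext ?_ : r ^ 3 = t) ▸ pow_mem (mem_zpowers r) 3) ht
        change (a * w) ^ 3 = t
        rw [pow_succ, r2, e0, ← mul_assoc, ← zc' a ha, mul_assoc])
    rwa [Nat.card_zpowers, ro] at this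

theorem nS {n : ℕ} (hn : 3 ≤ n) [IsSimpleGroup G] (e : G ≃* Equiv.Perm (Fin n)) : False := by
  haveI := e.symm.isSimpleGroup
  haveI : Nontrivial (Fin n) := Fin.nontrivial_iff_two_le.2 (by omega)
  have i := alternatingGroup.index_eq_two (α := Fin n)
  rcases (alternatingGroup.normal (α := Fin n)).eq_bot_or_eq_top with h | h <;> rw [h] at i
  · rw [index_bot, Nat.card_perm, Nat.card_eq_fintype_card, Fintype.card_fin] at i
    have := Nat.factorial_le hn
    rw [i] at this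
    exact absurd this (by decide)
  · rw [index_top] at i; omega

theorem p5 : P5.{u} := by
  intro G _ _ _ hG T K g o hW hC
  have jc := o.jc
  obtain ⟨hn, hc⟩ := cw g o hW hC
  obtain ⟨A, hA, a, ha, e⟩ := jc.exists_maxEl g.pgrp
  obtain ⟨z, zo, zc, ⟨f⟩⟩ := d8 g.zc hn (elemAb_wOf K) jc.cardW hc (hA.le ha) (by rw [← pow_two]; exact hA.el.2 a ha)
    (fun aW => jc.not_le (isPGroup_wOf K) (e.ge.trans ((commutator_mono le_rfl (zpowers_le.2 aW)).trans
      (CfH7.comm_le_right (le_Nm_wOf K))))) g.pgrp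
  rcases CfH4.d8_main z zo (zc ▸ f) with h | ⟨⟨h⟩⟩ | ⟨⟨h⟩⟩ | ⟨⟨h⟩⟩ | h
  · rcases (inferInstance : (pPrimeCore 2 G).Normal).eq_bot_or_eq_top with k | k
    · rw [oddCore, k, sup_bot_eq, zc] at h
      exact absurd (h ▸ le_top) (jc.not_le g.pgrp)
    · have := CfH7.coprime_card_pPrimeCore 2 G
      rw [k, card_top] at this
      exact absurd ((Nat.Coprime.coprime_dvd_left (zo ▸ orderOf_dvd_natCard z) this)) (by decide)
  · exact (nS (by decide) h).elim
  · exact (nS (by decide) h).elim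
  · haveI := h.symm.isSimpleGroup
    refine .inl ⟨ZMod 2, inferInstance, inferInstance, ZMod.card 2, ⟨h.trans ?_⟩⟩
    refine QuotientGroup.quotientBot.symm.trans (QuotientGroup.quotientMulEquivOfEq ?_)
    refine ((inferInstance : (center _).Normal).eq_bot_or_eq_top.resolve_right fun k => hG ⟨⟨fun x y => h.injective ?_⟩⟩).symm
    rw [map_mul, map_mul]
    exact mem_center_iff.1 (k ▸ mem_top (h y)) (h x)
  · exact .inr h

end CfH5.W
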