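import Cfsg.Agent.OD.Pre
import Cfsg.Agent.H5.Zass

/-! Zassenhaus groups with two-point stabilizers of odd order: characters and class counts. -/

set_option autoImplicit false
open Cfsg CfH4 CfH9 CfH7 Subgroup MulAction
open scoped ComplexConjugate

namespace CfH5

universe u v

/-- The number of pairs of elements of order dividing `2` whose product lies in a given class is at
most the order of the group. -/
theorem card_pairs_isConj_le {G : Type u} [Group G] [Fintype G] (s : Finset (G × G)) (g : G)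
    (hs : ∀ p ∈ s, p.1 ^ 2 = 1 ∧ p.2 ^ 2 = 1 ∧ IsConj g (p.1 * p.2)) : s.card ≤ Nat.card G := by
  classical
  have h1 := Finset.card_le_mul_card_image (f := fun p : G × G => p.1 * p.2) s (Nat.card Cx(g)) (by
    intro z hz
    obtain ⟨q, hq, rfl⟩ := Finset.mem_image.1 hz
    obtain ⟨t, ht⟩ := isConj_iff.1 (hs q hq).2.2
    rw [← card_cj t, cj_Cx, ht, Nat.card_eq_fintype_card, ← Finset.card_univ]
    have h2 : ∀ p ∈ s, p.1 * (p.1 * p.2) * p.1⁻¹ = (p.1 * p.2)⁻¹ := fun p hp => by
      rw [← mul_assoc, ← pow_two, (hs p hp).1, one_mul, mul_inv_rev,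
        inv_eq_of_mul_eq_one_right (a := p.2) (pow_two p.2 ▸ (hs p hp).2.1)]
    refine Finset.card_le_card_of_injOn (fun p => if h : p ∈ s ∧ p.1 * p.2 = q.1 * q.2 then
      ⟨q.1⁻¹ * p.1, mem_Cx'.2 ?_⟩ else 1) (fun _ _ => Finset.mem_univ _) ?_
    · have h3 := h2 p h.1
      rw [h.2, ← h2 q hq] at h3
      calc _ = q.1⁻¹ * (p.1 * (q.1 * q.2) * p.1⁻¹) * q.1 := by group
        _ = _ := by rw [h3]; group
    · intro p hp p' hp' h
      simp only [Finset.coe_filter, Set.mem_ofPred_eq] at hp hp'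
      simp only [dif_pos hp, dif_pos hp', Subtype.mk.injEq, mul_right_inj] at h
      exact Prod.ext h (mul_left_cancel (h ▸ hp.2.trans hp'.2.symm)))
  refine h1.trans ?_
  rw [← card_mul_index Cx(g), ← natCard_isConj, Nat.card_eq_fintype_card (α := {x // IsConj g x}),
    Fintype.card_subtype]
  refine Nat.mul_le_mul_left _ (Finset.card_le_card fun z hz => ?_)
  obtain ⟨q, hq, rfl⟩ := Finset.mem_image.1 hz
  simpa [-isConj_iff] using (hs q hq).2.2

namespace Zass
variable {G : Type u} {Ω : Type v} [Group G] [MulAction G Ω] (hZ : IsZassenhausGroup G Ω)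
include hZ

omit hZ in
theorem conj_mem_stab {a b : Ω} {w : G} (hw : w • a = b)
    (y : (stabilizer G b).subgroupOf (stabilizer G a)) : w⁻¹ * y * w ∈ stabilizer G a := by
  have : (y : G) • b = b := y.2
  simp [mul_smul, hw, this, inv_smul_eq_iff]

theorem classInner_ind [Fintype G] {a b : Ω} (hab : a ≠ b) {w : G} (hw : w • a = b)
    [Fintype (stabilizer G a)] [Fintype ((stabilizer G b).subgroupOf (stabilizer G a))]
    {μ ν : stabilizer G a → ℂ} (hμ : IsClassFunction _ μ) (hν : IsClassFunction _ ν) :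
    classInner (indFun (stabilizer G a) μ) (indFun (stabilizer G a) ν) = classInner μ ν +
      classInner (fun y : (stabilizer G b).subgroupOf (stabilizer G a) => μ y)
        (fun y => ν ⟨_, conj_mem_stab hw y⟩) := by
  classical
  rw [classInner_indFun_left _ μ (indFun_isClassFunction _ ν)]
  have h1 := mackey (ι := Bool) (stabilizer G a) (stabilizer G a) (fun i => cond i w 1) (fun g => by
      by_cases hg : g • a = a
      · refine ⟨false, ⟨g, hg, 1, one_mem _, by simp⟩, ?_⟩
        rintro (_ | _) ⟨k, hk, h, hh, rfl⟩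
        · rfl
        · rw [mul_smul, hh, mul_smul] at hg
          exact (hab (smul_left_cancel k (hk.trans (hw ▸ hg).symm))).elim
      · obtain ⟨k, h1, h2⟩ := two hZ hab (Ne.symm hg)
        refine ⟨true, ⟨k, h1, (k * w)⁻¹ * g, ?_, (mul_inv_cancel_left _ _).symm⟩, ?_⟩
        · rw [mem_stabilizer_iff, mul_smul, inv_smul_eq_iff, mul_smul, hw, h2]
        · rintro (_ | _) ⟨k, hk, h, hh, rfl⟩
          · exact (hg (mul_mem (mul_mem hk (one_mem _)) hh)).elim
          · rfl)
    (fun i => cond i ((stabilizer G b).subgroupOf (stabilizer G a)) ⊤) (by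
      rintro (_ | _) y
      · simp
      · simp [mem_subgroupOf, mul_smul, hw, inv_smul_eq_iff]) hν
  simp only [Fintype.sum_bool, cond_true, cond_false, inv_one, one_mul, mul_one] at h1
  have h2 : (fun k : stabilizer G a => indFun (stabilizer G a) ν k) =
      ν + indFun _ (fun y => ν ⟨_, conj_mem_stab hw y⟩) := by
    funext k
    rw [h1, add_comm, indFun_top _ (hν.res ⊤)]
    rfl
  rw [h2, classInner_add_right, classInner_indFun_right _ _ hμ]

theorem exists_two_fpf [Finite G] [Finite Ω] {a b : Ω} (hab : a ≠ b)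
    (hodd : Odd (Nat.card (stabilizer G a ⊓ stabilizer G b : Subgroup G))) :
    ∃ x y : G, (∀ c : Ω, x • c ≠ c) ∧ (∀ c : Ω, y • c ≠ c) ∧ ¬ IsConj x y := by
  classical
  have := Fintype.ofFinite G
  have := pretrans hZ
  by_contra hc
  push Not at hc
  have := Nonempty.intro a
  obtain ⟨h, hh⟩ := Nat.exists_eq_succ_of_ne_zero (Nat.card_pos (α := Ω)).ne'
  obtain ⟨w, hw, -⟩ := two hZ hab hab.symm
  have h1 := classInner_ind hZ hab hw (isClassFunction_const 1) (isClassFunction_const 1)
  have h2 := classInner_permChar_one (stabilizer G a)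
  simp only [classInner_one_one] at h1
  rw [classInner_def, inv_mul_eq_iff_eq_mul₀ (natCard_ne_zero G)] at h1 h2
  simp only [indFun_one_stabilizer, map_natCast, map_one, mul_one] at h1 h2
  let f : G → ℤ := fun g => Nat.card {c : Ω // g • c = c}
  have h3 : ∑ g, f g * f g = Nat.card G * (1 + 1) := by simp only [f]; exact_mod_cast h1
  have h4 : ∑ g, f g = Nat.card G := by simp only [f]; exact_mod_cast h2
  have h5 : ∀ g, (f g * f g - 3 * f g + 2) = (if g = 1 then (h : ℤ) * (h - 1) else 0) +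
      (if ∀ c : Ω, g • c ≠ c then 2 else 0) := by
    intro g
    by_cases hg : g = 1
    · subst hg
      simp only [f, one_smul, Nat.card_subtype_true, hh]
      simp; ring
    by_cases hg' : ∀ c : Ω, g • c ≠ c
    · have : IsEmpty {c : Ω // g • c = c} := ⟨fun c => hg' c c.2⟩
      simp [f, hg, hg']
    · rw [if_neg hg, if_neg hg']
      push Not at hg'
      obtain ⟨c, hc⟩ := hg'
      have : Nonempty {c : Ω // g • c = c} := ⟨⟨c, hc⟩⟩
      have h6 : 0 < Nat.card {c : Ω // g • c = c} := Nat.card_pos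
      have h7 : Nat.card {c : Ω // g • c = c} ≤ 2 := by
        by_contra h7
        have := Fintype.ofFinite {c : Ω // g • c = c}
        rw [Nat.card_eq_fintype_card, not_le, Fintype.two_lt_card_iff] at h7
        obtain ⟨x, y, z, h8, h9, h10⟩ := h7
        rcases fix hZ hg (Subtype.coe_ne_coe.2 h8) x.2 y.2 z.2 with h | h
        · exact h9 (Subtype.ext h.symm)
        · exact h10 (Subtype.ext h.symm)
      simp only [f]
      interval_cases Nat.card {c : Ω // g • c = c} <;> norm_num
  have h6 := Finset.sum_congr rfl fun g (_ : g ∈ Finset.univ) => h5 g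
  simp only [Finset.sum_add_distrib, Finset.sum_sub_distrib, ← Finset.mul_sum, h3, h4,
    Finset.sum_const, Finset.card_univ, Fintype.card_eq_nat_card, Finset.sum_ite_eq',
    Finset.mem_univ, if_true, ← Finset.sum_filter, nsmul_eq_mul] at h6
  have h7 := card_eq hZ hab hh
  have h8 := two_le hZ hh
  have h9 := one_lt_card hZ hab
  generalize Nat.card (stabilizer G a ⊓ stabilizer G b : Subgroup G) = e at *
  have h10 : 3 ≤ e := by obtain ⟨k, rfl⟩ := hodd; omega
  have h11 : 3 * ((h + 1) * h : ℤ) ≤ Nat.card G := by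
    rw [h7]; push_cast; nlinarith [mul_pos (show (0 : ℤ) < h + 1 by positivity) (show (0 : ℤ) < h by
      positivity)]
  rcases (Finset.univ.filter fun g : G => ∀ c : Ω, g • c ≠ c).eq_empty_or_nonempty with h0 | ⟨x, hx⟩
  · rw [h0, Finset.card_empty] at h6; push_cast at h6; nlinarith
  · simp only [Finset.mem_filter, Finset.mem_univ, true_and] at hx
    have h12 : (Finset.univ.filter fun g : G => ∀ c : Ω, g • c ≠ c).card = Cx(x).index := by
      rw [← natCard_isConj, Nat.card_eq_fintype_card, Fintype.card_subtype]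
      congr 1
      ext y
      simp only [Finset.mem_filter, Finset.mem_univ, true_and]
      refine ⟨hc x y hx, fun h c h' => ?_⟩
      obtain ⟨g, rfl⟩ := isConj_iff.1 h
      exact hx (g⁻¹ • c) (by rwa [eq_inv_smul_iff, ← mul_smul, ← mul_smul])
    rw [h12] at h6
    have h13 : (Nat.card Cx(x) : ℤ) * Cx(x).index = Nat.card G := by
      exact_mod_cast card_mul_index Cx(x)
    have h14 : (2 : ℤ) ≤ h := by exact_mod_cast h8
    generalize (Cx(x).index : ℤ) = i at *
    rcases le_or_gt (Nat.card Cx(x) : ℤ) 2 with h15 | h15 <;> nlinarith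

section
variable [Finite Ω] {a b : Ω} (hab : a ≠ b)
  (hodd : Odd (Nat.card (stabilizer G a ⊓ stabilizer G b : Subgroup G)))
  {H : Subgroup G} (hHa : H ≤ stabilizer G a)
  (hHc : Nat.card H + 1 = Nat.card Ω) (hHf : ∀ u ∈ H, u ≠ 1 → ∀ c : Ω, u • c = c → c = a)
include hab hodd hHa hHc hHf

theorem irr_indFun [Fintype G] (hG : commutator G = ⊤) {μ : stabilizer G a → ℂ}
    (hμ : IsCharacter _ μ) (hμ1 : μ 1 = 1) (hμH : ∀ u : stabilizer G a, (u : G) ∈ H → μ u = 1)
    (hne : μ ≠ fun _ => 1) : IsIrrCharacter G (indFun (stabilizer G a) μ) := by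
  classical
  obtain ⟨w, hw, hw'⟩ := two hZ hab hab.symm
  obtain ⟨f, hf⟩ := hμ.exists_hom hμ1
  refine (isCharacter_indFun _ hμ).isIrr_of_classInner_self ?_
  let σ : (stabilizer G b).subgroupOf (stabilizer G a) →* stabilizer G a :=
    { toFun := fun y => ⟨_, conj_mem_stab hw y⟩
      map_one' := by ext; simp
      map_mul' := fun x y => by ext; simp [mul_assoc] }
  rw [classInner_ind hZ hab hw hμ.classFun hμ.classFun, (hμ.isIrr_of_apply_one hμ1).classInner_self,
    add_eq_left]
  refine ((hμ.res _).isIrr_of_apply_one hμ1).classInner_of_ne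
      ((hμ.comp σ).isIrr_of_apply_one (by simpa using hμ1)) fun h0 => ?_
  have h1 := hom_eq_one hZ hab hodd hG (f.comp (inclusion inf_le_left)) fun x g hg => by
    by_cases hx : (x : G) = 1
    · congr 1; ext; simp [hx]
    refine Units.ext ?_
    simp only [MonoidHom.comp_apply, ← hf]
    rcases ti hZ hab x.2 hx hg with h | h
    · exact hμ.classFun (inclusion inf_le_left x) ⟨g, h.1⟩
    · refine (congrFun h0 ⟨⟨_, hg.1⟩, hg.2⟩).trans (Eq.trans ?_ (hμ.classFun
        (inclusion inf_le_left x) ⟨w⁻¹ * g, by simp [mul_smul, h.1, hw, inv_smul_eq_iff]⟩))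
      congr 1
      ext
      simp [σ, mul_assoc]
  refine hne (funext fun n => ?_)
  obtain ⟨u, hu, x, hx, h⟩ := exists_mul hHa hHc hHf hab.symm n.2
  have h2 : n = ⟨u, hHa hu⟩ * ⟨x, hx.1⟩ := Subtype.ext h
  rw [h2, hμ.map_mul_of_apply_one hμ1, hμH _ hu, one_mul, hf]
  exact congrArg Units.val (h1 ⟨x, hx⟩)

omit hodd hab hHc hZ [Finite Ω] in
theorem indFun_kernel [Fintype G] {μ : stabilizer G a → ℂ} (hμ : IsClassFunction _ μ) {u : G}
    (hu : u ∈ H) (hu1 : u ≠ 1) : indFun (stabilizer G a) μ u = μ ⟨u, hHa hu⟩ :=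
  indFun_eq_of_ti _ hμ ⟨u, hHa hu⟩ fun _ hg h => (hg (kernel_ti hHa hHf hu hu1 h)).elim

omit hodd hab hHc hZ [Finite Ω] in
theorem fix_of_inverts {u x : G} (hu : u ∈ H) (hu1 : u ≠ 1) (hx : x * u * x⁻¹ = u⁻¹) :
    x • a = a := kernel_ti hHa hHf hu hu1 (hx ▸ inv_mem (hHa hu))

theorem orderOf_mul_invol [Finite G] {x y : G} (hx : orderOf x = 2) (hy : orderOf y = 2)
    (hu : x * y ∈ H) (hu1 : x * y ≠ 1) : orderOf (x * y) = 2 := by
  have hx2 := pow_eq_one_of_orderOf hx
  have h1 : x * (x * y) * x⁻¹ = (x * y)⁻¹ := by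
    rw [← mul_assoc, ← pow_two, hx2, one_mul, mul_inv_rev,
      inv_eq_of_mul_eq_one_right (a := y) (pow_two y ▸ pow_eq_one_of_orderOf hy)]
  have h2 := fix_of_inverts hHa hHf hu hu1 h1
  have h3 : ∀ c, x • c = c → c = a := fun c hc => invol_fix_unique hZ hab hodd hx hc h2
  have h4 : ∀ c, c ≠ a → x • c ≠ c := fun c hc h => hc (h3 c h)
  have h5 : (x * y) • b ≠ a := fun h => hab (smul_left_cancel (x * y) ((hHa hu).trans h.symm))
  obtain ⟨k, hk, hk'⟩ := invol_conj hZ hab hodd hx2 hx2 (h4 b hab.symm) (h4 _ h5)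
  have hkC := mem_Cx'.2 hk
  have h6 : k ∈ H := by
    by_cases hk1 : k = 1
    · exact hk1 ▸ one_mem H
    refine mem_kernel hZ hHa hHc hHf (h3 _ (by rw [← mul_smul, ← mem_Cx.1 hkC, mul_smul, h2]))
      fun c hc => by_contra fun h => hk1 (eq_one_of_fixed hZ (h4 c h) h2 h3 hkC hc)
  have h7 : k = x * y := by
    by_contra h7
    exact hab (hHf (k⁻¹ * (x * y)) (mul_mem (inv_mem h6) hu) (fun h => h7 (inv_mul_eq_one.1 h)) b
      (by rw [mul_smul, ← hk', inv_smul_smul])).symm
  rw [← h7, ← mem_Cx.1 hkC, mul_inv_cancel_right, eq_inv_iff_mul_eq_one, ← pow_two, h7] at h1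
  exact orderOf_eq_prime h1 hu1

theorem le_card_classes [Finite G] [IsSimpleGroup G] {h e : ℕ} (hh : Nat.card Ω = h + 1)
    (he : Nat.card (stabilizer G a ⊓ stabilizer G b : Subgroup G) = e) (hlt : e < h) :
    e ≤ Nat.card {C : ConjClasses G // ∀ g : G, ConjClasses.mk g = C → g ∉ H} := by
  classical
  have := Fintype.ofFinite G
  let I := Finset.univ.filter fun x : G => orderOf x = 2
  have hI : I.card = if Even h then e * (h + 1) else e * h := by
    rw [← card_invol hZ hab hodd hh he, Nat.card_eq_fintype_card, Fintype.card_subtype]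
  have hI' : ∀ {x}, x ∈ I ↔ orderOf x = 2 := by simp [I]
  let P : G × G → Prop := fun p => ∀ g : G, ConjClasses.mk g = ConjClasses.mk (p.1 * p.2) → g ∉ H
  have h1 : ((I ×ˢ I).filter P).card ≤
      Nat.card G * Nat.card {C : ConjClasses G // ∀ g : G, ConjClasses.mk g = C → g ∉ H} := by
    refine (Finset.card_le_mul_card_image (f := fun p : G × G => ConjClasses.mk (p.1 * p.2)) _
      (Nat.card G) fun C hC => ?_).trans (Nat.mul_le_mul_left _ ?_)
    · obtain ⟨g, rfl⟩ := ConjClasses.mk_surjective C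
      refine card_pairs_isConj_le _ g fun p hp => ?_
      simp only [Finset.mem_filter, Finset.mem_product, hI'] at hp
      exact ⟨pow_eq_one_of_orderOf hp.1.1.1, pow_eq_one_of_orderOf hp.1.1.2,
        (ConjClasses.mk_eq_mk_iff_isConj.1 hp.2).symm⟩
    · rw [Nat.card_eq_fintype_card, Fintype.card_subtype]
      refine Finset.card_le_card fun C hC => ?_
      obtain ⟨p, hp, rfl⟩ := Finset.mem_image.1 hC
      simpa using (Finset.mem_filter.1 hp).2
  have h2 : ((I ×ˢ I).filter fun p => ¬ P p).card ≤ (if Even h then e else 1) * I.card := by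
    refine (Finset.card_le_mul_card_image (f := Prod.fst) _ _ fun x hx => ?_).trans
      (Nat.mul_le_mul_left _ (Finset.card_le_card fun x hx => ?_))
    swap
    · obtain ⟨p, hp, rfl⟩ := Finset.mem_image.1 hx
      exact (Finset.mem_product.1 (Finset.mem_filter.1 hp).1).1
    have hx : orderOf x = 2 := by
      obtain ⟨p, hp, rfl⟩ := Finset.mem_image.1 hx
      exact hI'.1 (Finset.mem_product.1 (Finset.mem_filter.1 hp).1).1
    have hx2 := pow_eq_one_of_orderOf hx
    have h3 : ∀ p ∈ ((I ×ˢ I).filter fun p => ¬ P p).filter (·.1 = x), p.1 = x ∧ orderOf p.2 = 2 ∧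
        (p.2 = x ∨ ∃ c : Ω, x • c = c ∧ p.2 • c = c) := by
      rintro ⟨x', y⟩ hp
      simp only [Finset.mem_filter, Finset.mem_product, hI', P] at hp
      obtain ⟨⟨⟨-, hy⟩, hp⟩, h0⟩ := hp
      subst x'
      refine ⟨rfl, hy, ?_⟩
      push Not at hp
      obtain ⟨u, h4, hu⟩ := hp
      obtain ⟨g, hg⟩ := isConj_iff.1 (ConjClasses.mk_eq_mk_iff_isConj.1 h4)
      by_cases hu1 : u = 1
      · left
        rw [hu1, mul_one, mul_inv_cancel, eq_comm, ← hx2, pow_two] at hg
        exact mul_left_cancel hg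
      · right
        have h5 : x * (x * y) * x⁻¹ = (x * y)⁻¹ := by
          rw [← mul_assoc, ← pow_two, hx2, one_mul, mul_inv_rev,
            inv_eq_of_mul_eq_one_right (a := y) (pow_two y ▸ pow_eq_one_of_orderOf hy)]
        have h6 := fix_of_inverts hHa hHf hu hu1 (x := g⁻¹ * x * g) (by
          rw [← hg] at h5
          calc _ = g⁻¹ * (x * (g * u * g⁻¹) * x⁻¹) * g := by group
            _ = _ := by rw [h5]; group)
        rw [mul_smul, mul_smul, inv_smul_eq_iff] at h6
        refine ⟨g • a, h6, smul_left_cancel x ?_⟩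
        rw [← mul_smul, ← hg, h6]
        simp [mul_smul, mem_stabilizer_iff.1 (hHa hu)]
    have h4 := card_fixed hZ hab hodd hx hh
    split_ifs at h4 ⊢
    · obtain ⟨⟨c, hc⟩, -⟩ := (Nat.card_eq_one_iff_exists).1 h4
      obtain ⟨d, hd⟩ := exists_ne hZ c
      rw [← he, ← card_stab2_eq hZ hab hd.symm, Nat.card_eq_fintype_card, ← Finset.card_univ]
      refine Finset.card_le_card_of_surjOn (fun g => (x, g * x * g⁻¹)) fun p hp => ?_
      obtain ⟨h5, h6, h7⟩ := h3 p hp
      have h8 : p.2 • c = c := by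
        rcases h7 with h7 | ⟨c', h7, h8⟩
        · rwa [h7]
        · rwa [invol_fix_unique hZ hab hodd hx hc h7]
      obtain ⟨k, hk, hk'⟩ := invol_conj hZ hab hodd hx2 (pow_eq_one_of_orderOf h6) (c := d) (d := d)
        (fun h => hd (invol_fix_unique hZ hab hodd hx h hc))
        (fun h => hd (invol_fix_unique hZ hab hodd h6 h h8))
      refine ⟨⟨k, invol_fix_unique hZ hab hodd h6 ?_ h8, hk'⟩, Finset.mem_coe.2 (Finset.mem_univ _),
        Prod.ext h5.symm hk⟩
      rw [← hk]; simp [mul_smul, hc]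
    · refine Finset.card_le_one.2 fun p hp q hq => ?_
      have h5 : ∀ p ∈ ((I ×ˢ I).filter fun p => ¬ P p).filter (·.1 = x), p = (x, x) := by
        intro p hp
        obtain ⟨h5, -, h6 | ⟨c, hc, -⟩⟩ := h3 p hp
        · exact Prod.ext h5 h6
        · have : Nonempty {c : Ω // x • c = c} := ⟨⟨c, hc⟩⟩
          exact (Nat.card_pos.ne' h4).elim
      rw [h5 p hp, h5 q hq]
  have h3 := Finset.card_filter_add_card_filter_not (s := I ×ˢ I) P
  rw [Finset.card_product] at h3
  have h4 := card_eq hZ hab hh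
  have h5 := one_lt_card hZ hab
  rw [he] at h4 h5
  rw [h4] at h1
  generalize Nat.card {C : ConjClasses G // ∀ g : G, ConjClasses.mk g = C → g ∉ H} = s at *
  by_contra h6
  obtain ⟨e, rfl⟩ : ∃ e', e = e' + 1 := ⟨e - 1, by omega⟩
  have h7 : (h + 1) * h * (e + 1) * s ≤ (h + 1) * h * (e + 1) * e :=
    Nat.mul_le_mul_left _ (by omega)
  have h8 : I.card * I.card ≤ (h + 1) * h * (e + 1) * e +
    (if Even h then e + 1 else 1) * I.card := by omega
  rw [hI] at h8
  have h9 : 0 < (e + 1) * h := Nat.mul_pos (by omega) (by omega)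
  split_ifs at h8 <;> nlinarith

end

end Zass

end CfH5
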